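import Mathlib
import Cfsg.Agent.Lib.Helper41.EMStmt
import Cfsg.Agent.Lib.Helper41.TMStmt

/-!
# S5990 / NDIVE (call by helper41), helper26

`r ∣ #(elliptic m-spaces)` gives `AEM`.  Minus-form port of the S5988 piece
`Cfsg.Agent.Lib.Helper37.EPNDIVE`.  Assembly from `TMStmt.Top`, `TMStmt.FixND`, `TMStmt.FxType`,
`TMStmt.EltDim`, `EMStmt.DimObsA`, `EMStmt.FixCongE`, `EMStmt.UCardE` (hypotheses, in this order).
-/

set_option autoImplicit false

universe u

open scoped Matrix

namespace Cfsg.Agent.Lib.Helper26.EMNDIVE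

open Cfsg.Agent.Lib.Helper41.EMStmt
open Cfsg.Agent.Lib.Helper37.HypStmt (cc)
open Cfsg.Agent.Lib.Helper45.OMiStmt (M Aniso FxM NDegM StabM mem_FxM)
open Cfsg.Agent.Lib.Helper41.TMTwoStmt (PlusM)

theorem omegaGL_le' {ι : Type} [Fintype ι] [DecidableEq ι] {F : Type u} [Field F]
    (Q : (ι → F) → F) : Cfsg.Geo.omegaGL Q ≤ Cfsg.isometryGroup F Q := by
  intro x hx
  unfold Cfsg.Geo.omegaGL at hx
  obtain ⟨y, _, rfl⟩ := Subgroup.mem_map.mp hx
  exact y.2

theorem main (hTop : Cfsg.Agent.Lib.Helper41.TMStmt.Top.{u})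
    (hFixND : Cfsg.Agent.Lib.Helper41.TMStmt.FixND.{u})
    (hFxType : Cfsg.Agent.Lib.Helper41.TMStmt.FxType.{u})
    (hElt : Cfsg.Agent.Lib.Helper41.TMStmt.EltDim.{u})
    (hDim : DimObsA.{u}) (hFC : FixCongE.{u}) (hUC : UCardE.{u}) : NDivE.{u} := by
  intro F _ _ a₀ b₀ hab p _ _ d m hd hm2 hme hmd r _ hr2 hrp hdvd
  obtain ⟨i, hi⟩ : ∃ i, i = orderOf ((Fintype.card F : ℕ) : ZMod r) := ⟨_, rfl⟩
  obtain ⟨c, hc⟩ : ∃ c, c = cc i := ⟨_, rfl⟩
  rw [← hi]
  unfold AEM
  rw [← hc]
  have hfin : Module.finrank F ↥(⊤ : Submodule F (M d → F)) = 2 * d := by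
    rw [finrank_top, Module.finrank_fintype_fun_eq_card]
    simp [M]
    omega
  by_cases hc2d : 2 * d < c
  · exfalso
    have h1 := hUC F a₀ b₀ hab p d m hm2 hme r hr2 hrp ⊤ (hTop F a₀ b₀ hab d).1
      (by rw [hfin]; omega) (by rw [hfin, ← hi, ← hc]; exact hc2d)
    apply h1
    have hcard : Nat.card {W : Submodule F (M d → F) // MemEM d F a₀ b₀ m W ∧ W ≤ ⊤} =
        Nat.card {W : Submodule F (M d → F) // MemEM d F a₀ b₀ m W} :=
      Nat.card_congr (Equiv.subtypeEquivRight (fun W => by simp))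
    rw [hcard]
    exact hdvd
  · have hc2d' : c ≤ 2 * d := not_lt.mp hc2d
    refine ⟨hc2d', ?_⟩
    obtain ⟨k, hk⟩ : ∃ k, k = (2 * d) % c := ⟨_, rfl⟩
    obtain ⟨b, hb⟩ : ∃ b, b = (2 * d) / c := ⟨_, rfl⟩
    rw [← hk, ← hb]
    by_contra hcon
    have hmc : m < c := by
      by_contra h; exact hcon (Or.inl (not_lt.mp h))
    have hkm : m ≤ k := by
      by_contra h; exact hcon (Or.inr (Or.inl (not_le.mp h)))
    have hkeq : k = m → ¬ (Even i ∧ Odd b) := by
      intro h h2
      exact hcon (Or.inr (Or.inr ⟨h, h2⟩))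
    have hcpos : 0 < c := by omega
    have hbk : b * c + k = 2 * d := by
      rw [hb, hk, Nat.mul_comm]; exact Nat.div_add_mod (2 * d) c
    have hklt : k < c := by rw [hk]; exact Nat.mod_lt _ hcpos
    have hb1 : 1 ≤ b := by rw [hb]; exact Nat.div_pos hc2d' hcpos
    obtain ⟨x, hxO, hxr, hxfix⟩ := hElt F a₀ b₀ hab p d (by omega) r hr2 hrp b hb1
      (by rw [← hi, ← hc]; omega) (by rw [← hi, ← hc]; intro h; exfalso; omega)
    rw [← hi, ← hc] at hxfix
    have hxfix' : Module.finrank F ↥(FxM (x : Matrix (M d) (M d) F)) = 2 * d - b * c := hxfix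
    have hxk : Module.finrank F ↥(FxM (x : Matrix (M d) (M d) F)) = k := by
      rw [hxfix']; omega
    have hxI := omegaGL_le' _ hxO
    have hcong := hFC F a₀ b₀ hab d m r x hxI hxr
    have hUnd : NDegM d F a₀ b₀ (FxM (x : Matrix (M d) (M d) F)) :=
      hFixND F a₀ b₀ hab p d r hrp x hxI hxr
    have hcard : Nat.card {W : Submodule F (M d → F) //
          MemEM d F a₀ b₀ m W ∧ W ≤ FxM (x : Matrix (M d) (M d) F)} =
        Nat.card {W : Submodule F (M d → F) //
          MemEM d F a₀ b₀ m W ∧ StabM (x : Matrix (M d) (M d) F) W} := by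
      apply Nat.card_congr
      apply Equiv.subtypeEquivRight
      intro W
      constructor
      · rintro ⟨hM, hle⟩
        refine ⟨hM, ?_⟩
        intro v hv
        obtain ⟨w, hw, rfl⟩ := Submodule.mem_map.mp hv
        have h2 := (mem_FxM _ w).mp (hle hw)
        rw [Matrix.toLin'_apply, h2]
        exact hw
      · rintro ⟨hM, hst⟩
        refine ⟨hM, ?_⟩
        have hd1 := hDim F a₀ b₀ hab p d r hr2 hrp x hxI hxr W hst hM.2.1
        rw [← hi, ← hc, hM.1] at hd1
        have hle : Module.finrank F ↥(W ⊓ FxM (x : Matrix (M d) (M d) F)) ≤ m := by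
          rw [← hM.1]
          exact Submodule.finrank_mono inf_le_left
        have h0 : m - Module.finrank F ↥(W ⊓ FxM (x : Matrix (M d) (M d) F)) = 0 := by
          by_contra hne
          have h3 := Nat.le_of_dvd (Nat.pos_of_ne_zero hne) hd1
          omega
        have heq : W ⊓ FxM (x : Matrix (M d) (M d) F) = W := by
          apply Submodule.eq_of_le_of_finrank_le inf_le_left
          rw [hM.1]
          omega
        rw [← heq]
        exact inf_le_right
    have hdvd2 : r ∣ Nat.card {W : Submodule F (M d → F) //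
        MemEM d F a₀ b₀ m W ∧ W ≤ FxM (x : Matrix (M d) (M d) F)} := by
      rw [hcard]
      exact (Nat.ModEq.dvd_iff hcong (dvd_refl r)).mp hdvd
    rcases hkm.lt_or_eq with hlt | heq
    · exact hUC F a₀ b₀ hab p d m hm2 hme r hr2 hrp (FxM (x : Matrix (M d) (M d) F)) hUnd
        (by rw [hxk]; exact hlt) (by rw [hxk, ← hi, ← hc]; exact hklt) hdvd2
    · have hnp : ¬ Cfsg.Geo.IsPlusTypeOn (Cfsg.quadFormMinus (d - 1) F a₀ b₀)
          (FxM (x : Matrix (M d) (M d) F)) := by
        intro hpl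
        have hpl' : PlusM d F a₀ b₀ (FxM (x : Matrix (M d) (M d) F)) := hpl
        have h3 := (hFxType F a₀ b₀ hab p d r (by omega) hr2 hrp x hxI hxr).mp hpl'
        rw [← hi, hxfix] at h3
        obtain ⟨hie, hodd⟩ := h3
        have hci : c = i := by rw [hc]; unfold cc; exact if_pos hie
        have hipos : 0 < i := hci ▸ hcpos
        have h5 : (2 * d - (2 * d - b * c)) / i = b := by
          have h6 : 2 * d - (2 * d - b * c) = b * c := by omega
          rw [h6, hci]
          exact Nat.mul_div_cancel b hipos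
        rw [h5] at hodd
        exact hkeq heq.symm ⟨hie, hodd⟩
      have hFxE : MemEM d F a₀ b₀ m (FxM (x : Matrix (M d) (M d) F)) :=
        ⟨by rw [hxk]; exact heq.symm, hUnd, hnp⟩
      have huniq : Nat.card {W : Submodule F (M d → F) //
          MemEM d F a₀ b₀ m W ∧ W ≤ FxM (x : Matrix (M d) (M d) F)} = 1 := by
        rw [Nat.card_eq_one_iff_unique]
        refine ⟨⟨?_⟩, ⟨⟨_, hFxE, le_rfl⟩⟩⟩
        rintro ⟨W, hM, hle⟩ ⟨W', hM', hle'⟩
        have e1 : W = FxM (x : Matrix (M d) (M d) F) :=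
          Submodule.eq_of_le_of_finrank_le hle (by rw [hM.1, hxk]; omega)
        have e2 : W' = FxM (x : Matrix (M d) (M d) F) :=
          Submodule.eq_of_le_of_finrank_le hle' (by rw [hM'.1, hxk]; omega)
        exact Subtype.ext (e1.trans e2.symm)
      rw [huniq] at hdvd2
      exact (Fact.out : r.Prime).one_lt.ne' (Nat.dvd_one.mp hdvd2)

end Cfsg.Agent.Lib.Helper26.EMNDIVE
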