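import Cfsg.Agent.Lib.Helper27.Trans

/-!
Stabilisers in the group of the length-24 code of families of sets of points: the action on the
members of the family, and a criterion for it to induce all permutations.  Also a test for the
equality of permutations of the 24 points by their action on five masks.
-/

set_option autoImplicit false

namespace Cfsg.Agent.Lib.Helper26.FamStab

open Cfsg Cfsg.Agent.Lib.Helper27.Bits Cfsg.Agent.Lib.Helper27.Golay Cfsg.Agent.Lib.Helper27.M24
open scoped Pointwise

/-! ### five masks separating the points -/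

/-- the mask of the indices whose `b`-th binary digit is 1 -/
def mb (b : ℕ) : ℕ := tget 0xff000000ff00f0f0f0ccccccaaaaaa 24 b

theorem mb_bit : ∀ b < 5, ∀ i < 24, (mb b).testBit i = i.testBit b := by decide +kernel

theorem mb_lt (b : ℕ) : mb b < 2 ^ 24 := tget_lt _ _ _

/-- two permutations acting in the same way on the five masks are equal -/
theorem perm_ext_masks {σ τ : Equiv.Perm GolayPt}
    (h : ∀ b < 5, σ • fsOf (mb b) = τ • fsOf (mb b)) : σ = τ := by
  have key : ∀ y : GolayPt, σ⁻¹ y = τ⁻¹ y := by
    intro y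
    apply idx_injective
    apply Nat.eq_of_testBit_eq
    intro b
    by_cases hb : b < 5
    · rw [← mb_bit b hb _ (idx_lt _), ← mb_bit b hb _ (idx_lt _)]
      have h1 : ∀ ρ : Equiv.Perm GolayPt,
          ((mb b).testBit (idx (ρ⁻¹ y)) = true ↔ y ∈ ρ • fsOf (mb b)) := by
        intro ρ
        rw [← mem_setOf, ← Finset.inv_smul_mem_iff]
        rfl
      have h2 := h1 σ
      have h3 := h1 τ
      rw [h b hb] at h2
      exact Bool.eq_iff_iff.mpr (h2.trans h3.symm)
    · have h5 : ∀ p : GolayPt, (idx p).testBit b = false := by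
        intro p
        apply Nat.testBit_eq_false_of_lt
        have h6 : idx p < 2 ^ 5 := lt_trans (idx_lt p) (by norm_num)
        exact lt_of_lt_of_le h6 (Nat.pow_le_pow_right (by norm_num) (by omega))
      rw [h5, h5]
  have h2 : σ⁻¹ = τ⁻¹ := Equiv.ext key
  exact inv_injective h2

/-! ### the action on the members of a family -/

theorem smul_mem_iff {S : Finset (Finset GolayPt)} {g : Equiv.Perm GolayPt} (h : g • S = S)
    (t : Finset GolayPt) : g • t ∈ S ↔ t ∈ S := by
  conv_lhs => rw [← h]
  exact Finset.smul_mem_smul_finset_iff g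

/-- the action of the stabiliser of a family of sets on its members -/
def famHom (S : Finset (Finset GolayPt)) : ↥(MulAction.stabilizer M24 S) →* Equiv.Perm ↥S where
  toFun g := (MulAction.toPerm ((g : M24) : Equiv.Perm GolayPt) :
    Equiv.Perm (Finset GolayPt)).subtypePerm (fun t => smul_mem_iff g.2 t)
  map_one' := by
    apply Equiv.ext
    intro t
    apply Subtype.ext
    exact one_smul (Equiv.Perm GolayPt) (t : Finset GolayPt)
  map_mul' a b := by
    apply Equiv.ext
    intro t
    apply Subtype.ext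
    exact mul_smul ((a : M24) : Equiv.Perm GolayPt) ((b : M24) : Equiv.Perm GolayPt)
      (t : Finset GolayPt)

theorem famHom_apply (S : Finset (Finset GolayPt)) (g : ↥(MulAction.stabilizer M24 S)) (t : ↥S) :
    ((famHom S g t : ↥S) : Finset GolayPt) =
      ((g : M24) : Equiv.Perm GolayPt) • (t : Finset GolayPt) := rfl

theorem mem_ker_famHom {S : Finset (Finset GolayPt)} {g : ↥(MulAction.stabilizer M24 S)} :
    g ∈ (famHom S).ker ↔ ∀ t ∈ S, ((g : M24) : Equiv.Perm GolayPt) • t = t := by
  rw [MonoidHom.mem_ker]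
  constructor
  · intro h t ht
    have h1 : ((famHom S g ⟨t, ht⟩ : ↥S) : Finset GolayPt) = t := by rw [h]; rfl
    exact h1
  · intro h
    apply Equiv.ext
    rintro ⟨t, ht⟩
    apply Subtype.ext
    exact h t ht

/-- every transposition of two members is induced by an element of the group of the code -/
def Sw (S : Finset (Finset GolayPt)) : Prop :=
  ∀ x ∈ S, ∀ y ∈ S, x ≠ y → ∃ w ∈ M24, w • x = y ∧ w • y = x ∧
    ∀ t ∈ S, t ≠ x → t ≠ y → w • t = t

theorem Sw_smul {S : Finset (Finset GolayPt)} (h : Sw S) {g : Equiv.Perm GolayPt} (hg : g ∈ M24) :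
    Sw (g • S) := by
  intro x hx y hy hxy
  obtain ⟨x', hx', rfl⟩ := Finset.mem_smul_finset.mp hx
  obtain ⟨y', hy', rfl⟩ := Finset.mem_smul_finset.mp hy
  obtain ⟨w, hw, h1, h2, h3⟩ := h x' hx' y' hy' (fun e => hxy (by rw [e]))
  refine ⟨g * w * g⁻¹, M24.mul_mem (M24.mul_mem hg hw) (M24.inv_mem hg), ?_, ?_, ?_⟩
  · rw [mul_smul, mul_smul, inv_smul_smul, h1]
  · rw [mul_smul, mul_smul, inv_smul_smul, h2]
  · intro t ht htx hty
    obtain ⟨t', ht', rfl⟩ := Finset.mem_smul_finset.mp ht
    rw [mul_smul, mul_smul, inv_smul_smul, h3 t' ht' (fun e => htx (by rw [e]))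
      (fun e => hty (by rw [e]))]

theorem famHom_surjective {S : Finset (Finset GolayPt)} (h : Sw S) :
    Function.Surjective (famHom S) := by
  rw [← MonoidHom.range_eq_top, eq_top_iff, ← Equiv.Perm.closure_isSwap, Subgroup.closure_le]
  rintro σ ⟨x, y, hxy, rfl⟩
  obtain ⟨w, hw, h1, h2, h3⟩ := h x x.2 y y.2 (fun e => hxy (Subtype.ext e))
  have hmem : ∀ t ∈ S, w • t ∈ S := by
    intro t ht
    by_cases htx : t = (x : Finset GolayPt)
    · rw [htx, h1]
      exact y.2
    · by_cases hty : t = (y : Finset GolayPt)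
      · rw [hty, h2]
        exact x.2
      · rw [h3 t ht htx hty]
        exact ht
  have hwS : w • S = S := by
    apply Finset.eq_of_subset_of_card_le
    · intro u hu
      obtain ⟨t, ht, rfl⟩ := Finset.mem_smul_finset.mp hu
      exact hmem t ht
    · rw [Finset.card_smul_finset]
  refine ⟨⟨⟨w, hw⟩, hwS⟩, ?_⟩
  apply Equiv.ext
  intro t
  apply Subtype.ext
  rw [famHom_apply]
  show w • (t : Finset GolayPt) = _
  by_cases htx : t = x
  · rw [htx, Equiv.swap_apply_left]
    exact h1
  · by_cases hty : t = y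
    · rw [hty, Equiv.swap_apply_right]
      exact h2
    · rw [Equiv.swap_apply_of_ne_of_ne htx hty]
      exact h3 t t.2 (fun e => htx (Subtype.ext e)) (fun e => hty (Subtype.ext e))

end Cfsg.Agent.Lib.Helper26.FamStab
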