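import Cfsg.Agent.Lib.Helper26.J2MData

set_option autoImplicit false
set_option maxRecDepth 1000000

namespace Cfsg.Agent.Lib.Helper26.J2M

open Cfsg.Agent.H60J2 Cfsg.Agent.Lib.Helper26.J2W

theorem cPar : chkPar qG.length qU.length qM qPar = true := by decide +kernel

theorem cNeQ : allNe (imgs V0 qU) = true := by decide +kernel

theorem cNeQV : allNe (imgs V0 qvU) = true := by decide +kernel

theorem cNeV : allNe (imgs V0 vU) = true := by decide +kernel

theorem cPL : PL V0 := by decide +kernel

theorem cQ1 : chkEq (wa1.reverse ++ wq0 ++ wa1) [9, 306] = true := by decide +kernel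

theorem cQ2 : chkEq (wa2.reverse ++ wq0 ++ wa2) [9, 308] = true := by decide +kernel

theorem cQ3 : chkEq ((wa2 ++ wa1).reverse ++ wq0 ++ (wa2 ++ wa1)) [9, 312] = true := by
  decide +kernel

theorem cA1 : chkEq (wa1 ++ wa1) [] = true := by decide +kernel

theorem cA2 : chkEq (wa2 ++ wa2) [] = true := by decide +kernel

theorem cA12 : chkEq (wa2 ++ wa1) (wa1 ++ wa2) = true := by decide +kernel

theorem cA1t : chkEq ([0] ++ wa1) (wa1 ++ [0]) = true := by decide +kernel

theorem cA2t : chkEq ([0] ++ wa2) (wa2 ++ [0]) = true := by decide +kernel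

theorem cGt : ∀ g ∈ qG, chkEq ([0] ++ g) (g ++ [0]) = true := by decide +kernel

theorem cInv : ∀ e < 32, qSq.getD e false = false → qU.getD e [] = [] ∨
    (qU.getD e [] = [(qU.getD e []).headD 0] ∧ (qU.getD e []).headD 0 < 315) := by decide +kernel

theorem cQV : ∀ i < 32, qvU.getD i [] = qU.getD i [] := by decide +kernel

end Cfsg.Agent.Lib.Helper26.J2M
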