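import Cfsg.Agent.Lib.Helper26.J2MData

set_option autoImplicit false
set_option maxRecDepth 1000000

namespace Cfsg.Agent.Lib.Helper26.J2M

open Cfsg.Agent.H60J2 Cfsg.Agent.Lib.Helper26.J2W

theorem cB5 : ∀ i < 5, chkB i = true := by decide +kernel

theorem cRowV0 : chkRow [wa1, wa2] vU vM 0 = true := by decide +kernel

theorem cRowV1 : chkRow [wa1, wa2] vU vM 1 = true := by decide +kernel

theorem cParV : chkPar 2 4 vM vPar = true := by decide +kernel

end Cfsg.Agent.Lib.Helper26.J2M
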