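import Cfsg.Agent.Lib.Helper26.J2MData

set_option autoImplicit false
set_option maxRecDepth 1000000

namespace Cfsg.Agent.Lib.Helper26.J2M

open Cfsg.Agent.H60J2 Cfsg.Agent.Lib.Helper26.J2W

theorem cCj : ∀ e < 32, chkCj e = true := by decide +kernel

end Cfsg.Agent.Lib.Helper26.J2M
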