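import Cfsg.Agent.Lib.Helper26.J2Two
import Cfsg.Agent.Lib.Helper60.J2Perm
import Cfsg.Agent.Lib.Helper66.J2Odd
import Cfsg.Agent.Lib.Helper66.PrimeMult

/-!
# The Schur multiplier of `J2` is cyclic of order 2
Helper26.  Assembly: the 2-part (`j2_no_four`), the odd part (helper66's `j2_three`, `j2_five`
transported along helper60's permutation representation on the 315 reflections, and the primes
whose square does not divide the order), and the double cover `2.J2` as lower bound.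
-/

set_option autoImplicit false

namespace Cfsg.Agent.Lib.Helper26.J2M

open Cfsg.Spor Cfsg.Agent.H60J2 Cfsg.Agent.Lib.Helper26.J2W Cfsg.Agent.Lib.Helper35.StemB
open scoped commutatorElement

theorem sq_not_dvd_J2 {p : ℕ} (hp : p.Prime) (h2 : p ≠ 2) (h3 : p ≠ 3) (h5 : p ≠ 5) :
    ¬ p ^ 2 ∣ 604800 := by
  intro h
  have hcop : Nat.Coprime (p ^ 2) 86400 := by
    apply Nat.Coprime.pow_left
    rw [show (86400 : ℕ) = 2 ^ 7 * 3 ^ 3 * 5 ^ 2 from rfl]
    apply Nat.Coprime.mul_right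
    · apply Nat.Coprime.mul_right
      · exact Nat.Coprime.pow_right _ ((Nat.coprime_primes hp Nat.prime_two).mpr h2)
      · exact Nat.Coprime.pow_right _ ((Nat.coprime_primes hp Nat.prime_three).mpr h3)
    · exact Nat.Coprime.pow_right _ ((Nat.coprime_primes hp Nat.prime_five).mpr h5)
  have h' : p ^ 2 ∣ 7 := by
    apply hcop.dvd_of_dvd_mul_left
    rw [show (86400 * 7 : ℕ) = 604800 from rfl]
    exact h
  have hle : p ^ 2 ≤ 7 := Nat.le_of_dvd (by norm_num) h'
  have hp2 := hp.two_le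
  have hp3 : p < 3 := by nlinarith
  interval_cases p
  exact h2 rfl

noncomputable section

theorem j2Perm_tab (t : Fin 4) (i : Fin 315) :
    ((j2Perm t i : Fin 315) : ℕ) = (j2Tab.getD (t : ℕ) []).getD (i : ℕ) 0 := by
  have h := (row_spec (rows_check t.1 t.2) i).2
  show (j2Tab.getD t.1 []).getD i.1 0 % 315 = _
  exact Nat.mod_eq_of_lt h

/-- Transport of a statement on stem extensions along the permutation representation. -/
theorem j2_odd (p : ℕ)
    (hodd : ∀ (Γ : Type) [Group Γ] [Finite Γ]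
      (σ : Γ →* ↥(Subgroup.closure (Set.range j2Perm))), Cfsg.IsStemExtension σ →
      (∀ k ∈ σ.ker, k ^ p = 1) → σ.ker = ⊥)
    (Γ : Type) [Group Γ] [Finite Γ] (σ : Γ →* J2) (hσ : Cfsg.IsStemExtension σ)
    (hexp : ∀ k ∈ σ.ker, k ^ p = 1) : σ.ker = ⊥ := by
  obtain ⟨e⟩ := j2_equiv
  have hker : (e.toMonoidHom.comp σ).ker = σ.ker := by
    ext x
    simp [MonoidHom.mem_ker]
  have hσ' : Cfsg.IsStemExtension (e.toMonoidHom.comp σ) := by
    refine ⟨e.surjective.comp hσ.1, ?_, ?_⟩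
    · rw [hker]; exact hσ.2.1
    · rw [hker]; exact hσ.2.2
  have h := hodd Γ (e.toMonoidHom.comp σ) hσ' (by rw [hker]; exact hexp)
  rw [hker] at h
  exact h

theorem j2_three' (Γ : Type) [Group Γ] [Finite Γ] (σ : Γ →* J2) (hσ : Cfsg.IsStemExtension σ)
    (hexp : ∀ k ∈ σ.ker, k ^ 3 = 1) : σ.ker = ⊥ :=
  j2_odd 3 (fun Γ' _ _ σ' hσ' hexp' =>
    Cfsg.Agent.Lib.Helper66.J2Odd.j2_three j2Perm j2Perm_tab
      (Subgroup.closure (Set.range j2Perm))
      (fun t => Subgroup.subset_closure (Set.mem_range_self t)) j2Perm_card Γ' σ' hσ' hexp')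
    Γ σ hσ hexp

theorem j2_five' (Γ : Type) [Group Γ] [Finite Γ] (σ : Γ →* J2) (hσ : Cfsg.IsStemExtension σ)
    (hexp : ∀ k ∈ σ.ker, k ^ 5 = 1) : σ.ker = ⊥ :=
  j2_odd 5 (fun Γ' _ _ σ' hσ' hexp' =>
    Cfsg.Agent.Lib.Helper66.J2Odd.j2_five j2Perm j2Perm_tab
      (Subgroup.closure (Set.range j2Perm))
      (fun t => Subgroup.subset_closure (Set.mem_range_self t)) j2Perm_card Γ' σ' hσ' hexp')
    Γ σ hσ hexp

/-- The order of the kernel of a finite stem extension of `J2` divides 2. -/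
theorem j2_bound (Γ : Type) [Group Γ] [Finite Γ] (σ : Γ →* J2) (hσ : Cfsg.IsStemExtension σ) :
    Nat.card σ.ker ∣ 2 := by
  have hfinJ : Finite J2 := inferInstance
  have hprime : ∀ l : ℕ, l.Prime → l ∣ Nat.card σ.ker → l = 2 := by
    intro l hl hdvd
    by_contra hne
    have : Fact l.Prime := ⟨hl⟩
    obtain ⟨z, hz⟩ := exists_prime_orderOf_dvd_card' l hdvd
    have hzk : (z : Γ) ∈ σ.ker := z.2
    have hord : orderOf (z : Γ) = l := by rw [Subgroup.orderOf_coe]; exact hz
    have hpow : (z : Γ) ^ l = 1 := by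
      have h := pow_orderOf_eq_one (z : Γ)
      rw [hord] at h
      exact h
    have hz1 : (z : Γ) ≠ 1 := by
      intro h
      rw [h, orderOf_one] at hord
      exact hl.one_lt.ne hord
    by_cases h3 : l = 3
    · subst h3
      apply hz1
      exact eq_one_of_exponent_case 3
        (fun Γ' _ _ σ' hσ' hexp' => j2_three' Γ' σ' hσ' hexp') Γ σ hσ z hzk hpow
    by_cases h5 : l = 5
    · subst h5
      apply hz1
      exact eq_one_of_exponent_case 5
        (fun Γ' _ _ σ' hσ' hexp' => j2_five' Γ' σ' hσ' hexp') Γ σ hσ z hzk hpow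
    · have hsq : ¬ l ^ 2 ∣ Nat.card J2 := by
        rw [J2_card]
        exact sq_not_dvd_J2 hl hne h3 h5
      exact false_of_sq_not_dvd σ hσ.2.1 l hsq hzk (hσ.2.2 hzk) hord
  obtain ⟨k, hk⟩ : ∃ k, Nat.card σ.ker = 2 ^ k := by
    refine ⟨_, Nat.eq_prime_pow_of_unique_prime_dvd Nat.card_pos.ne' ?_⟩
    intro l hl hdvd
    exact hprime l hl hdvd
  have h4 := j2_no_four Γ σ hσ
  rw [hk] at h4 ⊢
  have hk1 : k ≤ 1 := by
    by_contra hcon
    apply h4
    have h22 : (4 : ℕ) = 2 ^ 2 := by norm_num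
    rw [h22]
    exact pow_dvd_pow 2 (by omega : 2 ≤ k)
  interval_cases k <;> norm_num

/-- **The Schur multiplier of `J2` is cyclic of order 2.** -/
theorem j2_multiplier : Cfsg.HasCyclicSchurMultiplier J2 2 := by
  have hfinJ : Finite J2 := inferInstance
  refine Cfsg.Agent.Lib.Helper66.PrimeMult.hasCyclic_prime_of_bound 2 Nat.prime_two
    (fun Γ _ _ σ hσ => j2_bound Γ σ hσ) (QuotientGroup.mk' (Subgroup.center ↥twoJ2))
    (QuotientGroup.mk'_surjective _) ?_ zT ?_ ?_
  · exact (QuotientGroup.ker_mk' _).le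
  · refine Subgroup.mem_inf.mpr ⟨zPerm_mem_commutator, ?_⟩
    rw [QuotientGroup.ker_mk']
    exact zPerm_central
  · intro h
    have hbot : Subgroup.center ↥twoJ2 = ⊥ := by
      rw [Subgroup.eq_bot_iff_forall]
      intro c hc
      rcases center_cases hc with h1 | h1
      · exact h1
      · exact h1.trans h
    have h2 := center_card
    rw [hbot, Subgroup.card_bot] at h2
    exact absurd h2 (by norm_num)

end

end Cfsg.Agent.Lib.Helper26.J2M
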