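import Cfsg.Agent.Lib.Helper26.J2MChkA
import Cfsg.Agent.Lib.Helper26.J2MChkS
import Cfsg.Agent.Lib.Helper26.J2MChkT
import Cfsg.Agent.Lib.Helper26.J2MChkC
import Cfsg.Agent.Lib.Helper26.J2MChkB
import Cfsg.Agent.Lib.Helper26.J2MChkR0
import Cfsg.Agent.Lib.Helper26.J2MChkR1
import Cfsg.Agent.Lib.Helper26.J2MChkR2
import Cfsg.Agent.Lib.Helper26.J2MChkR3
import Cfsg.Agent.Lib.Helper26.J2MChkR4
import Cfsg.Agent.Lib.Helper60.J2Perfect
import Cfsg.Agent.Lib.Helper35.StemB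
import Cfsg.Agent.Lib.Helper63.J2MultA2
import Cfsg.Agent.Lib.Helper58.J2MultNF

/-!
# The Schur multiplier of `J2`: the 2-part
Helper26.

A Sylow 2-subgroup of `J2` is `Q ⋊ ⟨a₁, a₂⟩` with `Q` extraspecial of order 32, normal in the
centraliser of the involution `t`, and `a₁, a₂` commuting involutions of the other class.  For a
central extension with kernel of exponent 2 in which `a₁` lifts to an involution, the kernel
meets the commutator subgroup of the preimage of the Sylow 2-subgroup trivially (`coreA2` of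
helper63); with `no_four` of helper58 the kernel of a stem extension has order not divisible
by 4.
-/

set_option autoImplicit false
set_option maxRecDepth 100000

namespace Cfsg.Agent.Lib.Helper26.J2M

open Cfsg.Spor Cfsg.Agent.H60J2 Cfsg.Agent.Lib.Helper26.J2W Cfsg.Agent.Lib.Helper35.StemB
open scoped commutatorElement

/-! ### Abstract lemmas -/

/-- If the lifts of `a₁`, `a₂`, `a₁a₂`, `a₁t`, `a₂t`, `a₁a₂t` are involutions, so are those
of `t`. -/
theorem good_t {Γ G : Type*} [Group Γ] [Group G] {τ : Γ →* G} (hs : Function.Surjective τ)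
    (hc : τ.ker ≤ Subgroup.center Γ) (h2 : ∀ k ∈ τ.ker, k * k = 1) (a₁ a₂ t : G)
    (g1 : Good τ a₁) (g2 : Good τ a₂) (g12 : Good τ (a₁ * a₂)) (g1t : Good τ (a₁ * t))
    (g2t : Good τ (a₂ * t)) (g12t : Good τ (a₁ * (a₂ * t))) (h1 : a₁ * a₁ = 1)
    (h2t : a₂ * t = t * a₂) : Good τ t := by
  obtain ⟨X, hX⟩ := hs a₁
  obtain ⟨Y, hY⟩ := hs (a₁ * t)
  obtain ⟨W, hW⟩ := hs a₂
  have hXX := g1 X hX
  have hYY := g1t Y hY
  have hWW := g2 W hW
  have hXW : X * W = W * X :=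
    comm_of_sq hXX hWW (g12 (X * W) (by rw [map_mul, hX, hW]))
  have hYW : Y * W = W * Y :=
    comm_of_sq hYY hWW (g12t (Y * W) (by rw [map_mul, hY, hW, mul_assoc, ← h2t]))
  have hXYW : (X * Y * W) * (X * Y * W) = 1 :=
    g2t (X * Y * W) (by rw [map_mul, map_mul, hX, hY, hW, ← mul_assoc, h1, one_mul, ← h2t])
  have hXY : (X * Y) * (X * Y) = 1 := by
    calc X * Y * (X * Y) = X * Y * (X * (W * W) * Y) := by rw [hWW, mul_one]
      _ = X * Y * ((X * W) * (W * Y)) := by group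
      _ = X * Y * ((W * X) * (Y * W)) := by rw [hXW, hYW]
      _ = (X * Y * W) * (X * Y * W) := by group
      _ = 1 := hXYW
  intro γ hγ
  have h := sq_eq_of_map_eq hc h2 (a := γ) (b := X * Y)
    (by rw [hγ, map_mul, hX, hY, ← mul_assoc, h1, one_mul])
  rw [h, hXY]

/-- Conjugation by `a` preserves a closure if it maps the generators into it. -/
theorem conj_closure {G : Type*} [Group G] (S : Set G) (a : G)
    (h : ∀ s ∈ S, a * s * a⁻¹ ∈ Subgroup.closure S) :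
    ∀ q ∈ Subgroup.closure S, a * q * a⁻¹ ∈ Subgroup.closure S := by
  intro q hq
  induction hq using Subgroup.closure_induction with
  | mem x hx => exact h x hx
  | one => rw [mul_one, mul_inv_cancel]; exact Subgroup.one_mem _
  | mul x y _ _ hx hy =>
    have e : a * (x * y) * a⁻¹ = (a * x * a⁻¹) * (a * y * a⁻¹) := by group
    rw [e]; exact Subgroup.mul_mem _ hx hy
  | inv x _ hx =>
    have e : a * x⁻¹ * a⁻¹ = (a * x * a⁻¹)⁻¹ := by group
    rw [e]; exact Subgroup.inv_mem _ hx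

/-- The four-group `⟨a₁, a₂⟩` normalises the group generated by the conjugates of `q₀`
and `t`. -/
theorem norm_aux {G : Type*} [Group G] (a₁ a₂ q₀ t : G) (h1 : a₁ * a₁ = 1) (h2 : a₂ * a₂ = 1)
    (h12 : a₁ * a₂ = a₂ * a₁) (h1t : a₁ * t = t * a₁) (h2t : a₂ * t = t * a₂) :
    (∀ q ∈ Subgroup.closure
        {q₀, a₁ * q₀ * a₁⁻¹, a₂ * q₀ * a₂⁻¹, (a₁ * a₂) * q₀ * (a₁ * a₂)⁻¹, t},
      a₁ * q * a₁⁻¹ ∈ Subgroup.closure
        {q₀, a₁ * q₀ * a₁⁻¹, a₂ * q₀ * a₂⁻¹, (a₁ * a₂) * q₀ * (a₁ * a₂)⁻¹, t}) ∧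
    (∀ q ∈ Subgroup.closure
        {q₀, a₁ * q₀ * a₁⁻¹, a₂ * q₀ * a₂⁻¹, (a₁ * a₂) * q₀ * (a₁ * a₂)⁻¹, t},
      a₂ * q * a₂⁻¹ ∈ Subgroup.closure
        {q₀, a₁ * q₀ * a₁⁻¹, a₂ * q₀ * a₂⁻¹, (a₁ * a₂) * q₀ * (a₁ * a₂)⁻¹, t}) := by
  have m0 : q₀ ∈ Subgroup.closure
      {q₀, a₁ * q₀ * a₁⁻¹, a₂ * q₀ * a₂⁻¹, (a₁ * a₂) * q₀ * (a₁ * a₂)⁻¹, t} :=
    Subgroup.subset_closure (by simp)
  have m1 : a₁ * q₀ * a₁⁻¹ ∈ Subgroup.closure
      {q₀, a₁ * q₀ * a₁⁻¹, a₂ * q₀ * a₂⁻¹, (a₁ * a₂) * q₀ * (a₁ * a₂)⁻¹, t} :=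
    Subgroup.subset_closure (by simp)
  have m2 : a₂ * q₀ * a₂⁻¹ ∈ Subgroup.closure
      {q₀, a₁ * q₀ * a₁⁻¹, a₂ * q₀ * a₂⁻¹, (a₁ * a₂) * q₀ * (a₁ * a₂)⁻¹, t} :=
    Subgroup.subset_closure (by simp)
  have m3 : (a₁ * a₂) * q₀ * (a₁ * a₂)⁻¹ ∈ Subgroup.closure
      {q₀, a₁ * q₀ * a₁⁻¹, a₂ * q₀ * a₂⁻¹, (a₁ * a₂) * q₀ * (a₁ * a₂)⁻¹, t} :=
    Subgroup.subset_closure (by simp)
  have m4 : t ∈ Subgroup.closure
      {q₀, a₁ * q₀ * a₁⁻¹, a₂ * q₀ * a₂⁻¹, (a₁ * a₂) * q₀ * (a₁ * a₂)⁻¹, t} :=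
    Subgroup.subset_closure (by simp)
  constructor
  · apply conj_closure
    intro s hs
    simp only [Set.mem_insert_iff, Set.mem_singleton_iff] at hs
    rcases hs with h | h | h | h | h
    · have e : a₁ * s * a₁⁻¹ = a₁ * q₀ * a₁⁻¹ := by rw [h]
      rw [e]; exact m1
    · have e : a₁ * s * a₁⁻¹ = q₀ := by
        rw [h]
        calc a₁ * (a₁ * q₀ * a₁⁻¹) * a₁⁻¹ = (a₁ * a₁) * q₀ * (a₁ * a₁)⁻¹ := by group
          _ = q₀ := by rw [h1, one_mul, inv_one, mul_one]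
      rw [e]; exact m0
    · have e : a₁ * s * a₁⁻¹ = (a₁ * a₂) * q₀ * (a₁ * a₂)⁻¹ := by
        rw [h]; group
      rw [e]; exact m3
    · have e : a₁ * s * a₁⁻¹ = a₂ * q₀ * a₂⁻¹ := by
        rw [h]
        calc a₁ * ((a₁ * a₂) * q₀ * (a₁ * a₂)⁻¹) * a₁⁻¹
            = (a₁ * a₁) * (a₂ * q₀ * a₂⁻¹) * (a₁ * a₁)⁻¹ := by group
          _ = a₂ * q₀ * a₂⁻¹ := by rw [h1, one_mul, inv_one, mul_one]
      rw [e]; exact m2
    · have e : a₁ * s * a₁⁻¹ = t := by
        rw [h, h1t, mul_assoc, mul_inv_cancel, mul_one]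
      rw [e]; exact m4
  · apply conj_closure
    intro s hs
    simp only [Set.mem_insert_iff, Set.mem_singleton_iff] at hs
    rcases hs with h | h | h | h | h
    · have e : a₂ * s * a₂⁻¹ = a₂ * q₀ * a₂⁻¹ := by rw [h]
      rw [e]; exact m2
    · have e : a₂ * s * a₂⁻¹ = (a₁ * a₂) * q₀ * (a₁ * a₂)⁻¹ := by
        rw [h]
        calc a₂ * (a₁ * q₀ * a₁⁻¹) * a₂⁻¹ = (a₂ * a₁) * q₀ * (a₂ * a₁)⁻¹ := by group
          _ = (a₁ * a₂) * q₀ * (a₁ * a₂)⁻¹ := by rw [← h12]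
      rw [e]; exact m3
    · have e : a₂ * s * a₂⁻¹ = q₀ := by
        rw [h]
        calc a₂ * (a₂ * q₀ * a₂⁻¹) * a₂⁻¹ = (a₂ * a₂) * q₀ * (a₂ * a₂)⁻¹ := by group
          _ = q₀ := by rw [h2, one_mul, inv_one, mul_one]
      rw [e]; exact m0
    · have e : a₂ * s * a₂⁻¹ = a₁ * q₀ * a₁⁻¹ := by
        rw [h]
        have e' : a₂ * a₁ * a₂ = a₁ := by rw [← h12, mul_assoc, h2, mul_one]
        calc a₂ * ((a₁ * a₂) * q₀ * (a₁ * a₂)⁻¹) * a₂⁻¹
            = (a₂ * a₁ * a₂) * q₀ * (a₂ * a₁ * a₂)⁻¹ := by group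
          _ = a₁ * q₀ * a₁⁻¹ := by rw [e']
      rw [e]; exact m1
    · have e : a₂ * s * a₂⁻¹ = t := by
        rw [h, h2t, mul_assoc, mul_inv_cancel, mul_one]
      rw [e]; exact m4

noncomputable section

/-! ### Words -/

theorem el_conj (c w : List Nat) : el (c.reverse ++ w ++ c) = el c * el w * (el c)⁻¹ := by
  rw [el_append, el_append, el_reverse, mul_assoc]

theorem el_replicate (w : List Nat) (n : Nat) :
    el ((List.replicate n w).flatten) = el w ^ n := by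
  induction n with
  | zero => simp [el_nil]
  | succ n ih => rw [List.replicate_succ, List.flatten_cons, el_append, ih, pow_succ]

theorem el_mul_comm {w1 w2 : List Nat} (h : chkEq (w2 ++ w1) (w1 ++ w2) = true) :
    el w1 * el w2 = el w2 * el w1 := by
  rw [← el_append, ← el_append]
  exact el_eq_of_chkEq h

theorem el_single_inv (k : Nat) : (el [k])⁻¹ = el [k] := (el_reverse [k]).symm

theorem el_ne_of_allNe (V : T3) (hV : PL V) (U : List (List Nat))
    (hN : allNe (imgs V U) = true) (i j : Nat) (hij : i < j) (hj : j < U.length) :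
    el (U.getD i []) ≠ el (U.getD j []) := by
  have hlen : (imgs V U).length = U.length := by simp [imgs]
  have h := allNe_getD (imgs V U) hN i j hij (by rw [hlen]; exact hj)
  have hi : i < U.length := lt_trans hij hj
  have e1 : (imgs V U).getD i none = applyW (U.getD i []) V := by
    rw [List.getD_eq_getElem _ _ (by rw [hlen]; exact hi), List.getD_eq_getElem _ _ hi]
    simp [imgs]
  have e2 : (imgs V U).getD j none = applyW (U.getD j []) V := by
    rw [List.getD_eq_getElem _ _ (by rw [hlen]; exact hj), List.getD_eq_getElem _ _ hj]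
    simp [imgs]
  rw [e1, e2, ne2_chkNe] at h
  exact el_ne_of_chkNe hV h

/-- All reflections are conjugate to the first one. -/
theorem el_single_conj (k : Nat) (hk : k < 315) : ∃ c : J2, c * el [0] = el [k] * c := by
  obtain ⟨g, hg, e⟩ := refl_conjugate (GreflN 0) (GreflN k) (isRefl_GreflN (by norm_num))
    (isRefl_GreflN hk)
  refine ⟨(QuotientGroup.mk (⟨g, hg⟩ : ↥twoJ2) : J2), ?_⟩
  have h0 : gw [0] = GreflN 0 := by simp [gw]
  have hk' : gw [k] = GreflN k := by simp [gw]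
  have e' : (⟨g, hg⟩ : ↥twoJ2) * gwT [0] = gwT [k] * ⟨g, hg⟩ := by
    apply Subtype.ext
    show g * gw [0] = gw [k] * g
    rw [h0, hk', ← e]
    group
  unfold el
  rw [← QuotientGroup.mk_mul, ← QuotientGroup.mk_mul, e']

/-! ### The elements -/

/-- The central involution of the centraliser. -/
def jt : J2 := el [0]
/-- An involution of the other class. -/
def ja1 : J2 := el wa1
/-- An involution of the other class. -/
def ja2 : J2 := el wa2
/-- An element of order 4. -/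
def jq0 : J2 := el wq0

theorem jt_sq : jt * jt = 1 := by
  have h : jt⁻¹ = jt := el_single_inv 0
  calc jt * jt = jt⁻¹ * jt := by rw [h]
    _ = 1 := inv_mul_cancel jt

theorem ja1_sq : ja1 * ja1 = 1 := by
  unfold ja1
  rw [← el_append, el_eq_of_chkEq cA1, el_nil]

theorem ja2_sq : ja2 * ja2 = 1 := by
  unfold ja2
  rw [← el_append, el_eq_of_chkEq cA2, el_nil]

theorem ja_comm : ja1 * ja2 = ja2 * ja1 := el_mul_comm cA12

theorem ja1_t : ja1 * jt = jt * ja1 := el_mul_comm cA1t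

theorem ja2_t : ja2 * jt = jt * ja2 := el_mul_comm cA2t

/-- The extraspecial group. -/
def Qj : Subgroup J2 :=
  Subgroup.closure {jq0, ja1 * jq0 * ja1⁻¹, ja2 * jq0 * ja2⁻¹, (ja1 * ja2) * jq0 * (ja1 * ja2)⁻¹, jt}

theorem QS_eq : ({jq0, ja1 * jq0 * ja1⁻¹, ja2 * jq0 * ja2⁻¹, (ja1 * ja2) * jq0 * (ja1 * ja2)⁻¹,
    jt} : Set J2) = {x : J2 | ∃ g ∈ qG, x = el g} := by
  have e1 : ja1 * jq0 * ja1⁻¹ = el [9, 306] := by
    rw [← el_eq_of_chkEq cQ1]
    exact (el_conj wa1 wq0).symm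
  have e2 : ja2 * jq0 * ja2⁻¹ = el [9, 308] := by
    rw [← el_eq_of_chkEq cQ2]
    exact (el_conj wa2 wq0).symm
  have e3 : (ja1 * ja2) * jq0 * (ja1 * ja2)⁻¹ = el [9, 312] := by
    rw [← el_eq_of_chkEq cQ3]
    have h : ja1 * ja2 = el (wa2 ++ wa1) := (el_append wa2 wa1).symm
    rw [h]
    exact (el_conj (wa2 ++ wa1) wq0).symm
  rw [e1, e2, e3]
  ext x
  simp only [Set.mem_insert_iff, Set.mem_singleton_iff, Set.mem_setOf_eq]
  constructor
  · rintro (h | h | h | h | h)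
    · exact ⟨[9, 310], by simp [qG], h⟩
    · exact ⟨[9, 306], by simp [qG], h⟩
    · exact ⟨[9, 308], by simp [qG], h⟩
    · exact ⟨[9, 312], by simp [qG], h⟩
    · exact ⟨[0], by simp [qG], h⟩
  · rintro ⟨g, hg, rfl⟩
    simp only [qG, List.mem_cons, List.not_mem_nil, or_false] at hg
    rcases hg with rfl | rfl | rfl | rfl | rfl
    · left; rfl
    · right; left; rfl
    · right; right; left; rfl
    · right; right; right; left; rfl
    · right; right; right; right; rfl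

theorem Qj_eq : Qj = Subgroup.closure {x : J2 | ∃ g ∈ qG, x = el g} := by
  unfold Qj
  rw [QS_eq]

theorem qRows : ∀ g < qG.length, chkRow qG qU qM g = true := by
  intro g hg
  have h5 : qG.length = 5 := rfl
  rw [h5] at hg
  interval_cases g
  · exact cRow0
  · exact cRow1
  · exact cRow2
  · exact cRow3
  · exact cRow4

theorem qTab :
    (∀ x ∈ Subgroup.closure {x : J2 | ∃ g ∈ qG, x = el g},
      ∃ e < qU.length, x = el (qU.getD e [])) ∧
    (∀ e < qU.length, el (qU.getD e []) ∈ Subgroup.closure {x : J2 | ∃ g ∈ qG, x = el g}) ∧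
    (∀ i j, i < qU.length → j < qU.length → el (qU.getD i []) = el (qU.getD j []) → i = j) ∧
    Nat.card ↥(Subgroup.closure {x : J2 | ∃ g ∈ qG, x = el g}) = qU.length :=
  closure_table qG qU qM qPar V0 cPL rfl qRows cPar cNeQ

theorem Qj_nf : ∀ x ∈ Qj, ∃ e < 32, x = el (qU.getD e []) := by
  intro x hx
  rw [Qj_eq] at hx
  exact qTab.1 x hx

theorem Qj_card : Nat.card Qj = 32 := by
  rw [Qj_eq]
  exact qTab.2.2.2

theorem jt_ne_one : jt ≠ 1 := by
  intro h
  have h' : el (qU.getD 5 []) = el (qU.getD 0 []) := h.trans el_nil.symm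
  have := qTab.2.2.1 5 0 (by decide) (by decide) h'
  omega

theorem jq0_mem : jq0 ∈ Qj := Subgroup.subset_closure (by simp)

theorem el_sq (e : Nat) (he : e < 32) :
    el (qU.getD e []) * el (qU.getD e []) = el (if qSq.getD e false then [0] else []) := by
  have hs := cSq e he
  unfold chkSq at hs
  have e1 := el_eq_of_chkEq hs
  rw [el_append] at e1
  exact e1

theorem jq0_sq : jq0 * jq0 = jt := el_sq 1 (by norm_num)

theorem Qj_sq : ∀ q ∈ Qj, q * q = 1 ∨ q * q = jt := by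
  intro q hq
  obtain ⟨e, he, rfl⟩ := Qj_nf q hq
  have e1 := el_sq e he
  cases hq' : qSq.getD e false with
  | false =>
    left
    rw [hq'] at e1
    exact e1.trans el_nil
  | true =>
    right
    rw [hq'] at e1
    exact e1

theorem Qj_t : ∀ q ∈ Qj, q * jt = jt * q := by
  have hle : Qj ≤ Subgroup.centralizer {jt} := by
    rw [Qj_eq, Subgroup.closure_le]
    rintro x ⟨g, hg, rfl⟩
    rw [SetLike.mem_coe, Subgroup.mem_centralizer_iff]
    intro h hh
    rw [Set.mem_singleton_iff] at hh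
    rw [hh]
    exact (el_mul_comm (cGt g hg)).symm
  intro q hq
  have := Subgroup.mem_centralizer_iff.mp (hle hq) jt (Set.mem_singleton _)
  exact this.symm

/-- Elements of odd order centralising `t`. -/
def TS : Set J2 := {g | ∃ i < 10, g = el (tW.getD i [])}

theorem TS_spec : ∀ g ∈ TS, g * jt = jt * g ∧ ∃ n : ℕ, Odd n ∧ g ^ n = 1 := by
  rintro g ⟨i, hi, rfl⟩
  have h := cT i hi
  unfold chkT at h
  simp only [Bool.and_eq_true, decide_eq_true_eq] at h
  obtain ⟨⟨h1, h2⟩, h3⟩ := h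
  refine ⟨el_mul_comm h1, tOrd.getD i 0, Nat.odd_iff.mpr h2, ?_⟩
  rw [← el_replicate, el_eq_of_chkEq h3, el_nil]

theorem Qj_conj : ∀ q ∈ Qj, q * q = jt →
    ∃ g ∈ Subgroup.closure TS, g * jq0 * g⁻¹ = q ∨ g * jq0 * g⁻¹ = q⁻¹ := by
  intro q hq hqq
  obtain ⟨e, he, rfl⟩ := Qj_nf q hq
  have h := cCj e he
  unfold chkCj at h
  have e1 := el_sq e he
  rw [hqq] at e1
  cases hq' : qSq.getD e false with
  | false =>
    rw [hq'] at e1
    have e1' : jt = 1 := e1.trans el_nil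
    exact absurd e1' jt_ne_one
  | true =>
    rw [hq'] at h
    simp only [Bool.not_true, Bool.false_or, Bool.and_eq_true, decide_eq_true_eq] at h
    obtain ⟨hi, h3⟩ := h
    have e2 := el_eq_of_chkEq h3
    rw [el_conj] at e2
    refine ⟨el (tW.getD (cjI.getD e 0) []), Subgroup.subset_closure ⟨_, hi, rfl⟩, ?_⟩
    cases hf : cjF.getD e true with
    | true =>
      left
      rw [hf] at e2
      exact e2
    | false =>
      right
      rw [hf] at e2
      rw [← el_reverse (qU.getD e [])]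
      exact e2

theorem Qj_norm : (∀ q ∈ Qj, ja1 * q * ja1⁻¹ ∈ Qj) ∧ (∀ q ∈ Qj, ja2 * q * ja2⁻¹ ∈ Qj) :=
  norm_aux ja1 ja2 jq0 jt ja1_sq ja2_sq ja_comm ja1_t ja2_t

/-! ### The Sylow 2-subgroup -/

/-- The four-group. -/
def Vj : Subgroup J2 := Subgroup.closure {ja1, ja2}

theorem Vj_eq : Vj = Subgroup.closure {x : J2 | ∃ g ∈ [wa1, wa2], x = el g} := by
  unfold Vj
  congr 1
  ext x
  simp only [Set.mem_insert_iff, Set.mem_singleton_iff, Set.mem_setOf_eq, List.mem_cons,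
    List.not_mem_nil, or_false]
  constructor
  · rintro (h | h)
    · exact ⟨wa1, Or.inl rfl, h⟩
    · exact ⟨wa2, Or.inr rfl, h⟩
  · rintro ⟨g, hg | hg, rfl⟩
    · left; rw [hg]; rfl
    · right; rw [hg]; rfl

theorem vRows : ∀ g < [wa1, wa2].length, chkRow [wa1, wa2] vU vM g = true := by
  intro g hg
  have h2 : [wa1, wa2].length = 2 := rfl
  rw [h2] at hg
  interval_cases g
  · exact cRowV0
  · exact cRowV1

theorem vTab :
    (∀ x ∈ Subgroup.closure {x : J2 | ∃ g ∈ [wa1, wa2], x = el g},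
      ∃ e < vU.length, x = el (vU.getD e [])) ∧
    (∀ e < vU.length, el (vU.getD e []) ∈
      Subgroup.closure {x : J2 | ∃ g ∈ [wa1, wa2], x = el g}) ∧
    (∀ i j, i < vU.length → j < vU.length → el (vU.getD i []) = el (vU.getD j []) → i = j) ∧
    Nat.card ↥(Subgroup.closure {x : J2 | ∃ g ∈ [wa1, wa2], x = el g}) = vU.length :=
  closure_table [wa1, wa2] vU vM vPar V0 cPL rfl vRows cParV cNeV

theorem Vj_card : Nat.card Vj = 4 := by
  rw [Vj_eq]
  exact vTab.2.2.2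

theorem cQV' : ∀ j < 4, 0 < j → qvU.getD (31 + j) [] = vU.getD j [] := by decide +kernel

theorem Qj_inf_Vj : Qj ⊓ Vj = ⊥ := by
  rw [Subgroup.eq_bot_iff_forall]
  intro x hx
  obtain ⟨hxQ, hxV⟩ := Subgroup.mem_inf.mp hx
  obtain ⟨i, hi, hxi⟩ := Qj_nf x hxQ
  rw [Vj_eq] at hxV
  obtain ⟨j, hj, hxj⟩ := vTab.1 x hxV
  have hj4 : j < 4 := hj
  rcases Nat.eq_zero_or_pos j with h0 | hpos
  · subst h0
    rw [hxj]
    exact el_nil
  · exfalso
    have hne := el_ne_of_allNe V0 cPL qvU cNeQV i (31 + j) (by omega)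
      (by show 31 + j < 35; omega)
    apply hne
    rw [cQV i hi, ← hxi, cQV' j hj4 hpos, ← hxj]

theorem P_card : Nat.card ↥(Qj ⊔ Vj) = 128 := by
  have hnorm : Vj ≤ Subgroup.normalizer (Qj : Set J2) := by
    unfold Vj
    rw [Subgroup.closure_le]
    intro x hx
    simp only [Set.mem_insert_iff, Set.mem_singleton_iff] at hx
    rw [SetLike.mem_coe, Subgroup.mem_normalizer_iff]
    intro h
    rcases hx with rfl | rfl
    · refine ⟨Qj_norm.1 h, fun hh => ?_⟩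
      have h3 := Qj_norm.1 _ hh
      have e : ja1 * (ja1 * h * ja1⁻¹) * ja1⁻¹ = (ja1 * ja1) * h * (ja1 * ja1)⁻¹ := by group
      rw [e, ja1_sq, one_mul, inv_one, mul_one] at h3
      exact h3
    · refine ⟨Qj_norm.2 h, fun hh => ?_⟩
      have h3 := Qj_norm.2 _ hh
      have e : ja2 * (ja2 * h * ja2⁻¹) * ja2⁻¹ = (ja2 * ja2) * h * (ja2 * ja2)⁻¹ := by group
      rw [e, ja2_sq, one_mul, inv_one, mul_one] at h3
      exact h3
  rw [card_sup_of_le_normalizer hnorm Qj_inf_Vj, Qj_card, Vj_card]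

theorem P_index : ((Qj ⊔ Vj).index).Coprime 2 := by
  have h := Subgroup.card_mul_index (Qj ⊔ Vj)
  rw [P_card, J2_card] at h
  have h4 : (Qj ⊔ Vj).index = 4725 := by omega
  rw [h4]
  decide

/-! ### The transfer step -/

theorem j2_hA (Γ : Type) [Group Γ] [Finite Γ] (τ : Γ →* J2) (hs : Function.Surjective τ)
    (hc : τ.ker ≤ Subgroup.center Γ) (h2 : ∀ k ∈ τ.ker, k * k = 1)
    (hB : ∃ B : Γ, τ B = ja1 ∧ B * B = 1) :
    ⁅(Qj ⊔ Vj).comap τ, (Qj ⊔ Vj).comap τ⁆ ⊓ τ.ker = ⊥ := by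
  obtain ⟨B, hB1, hB2⟩ := hB
  have g1 : Good τ ja1 := fun γ hγ => by
    rw [sq_eq_of_map_eq hc h2 (hγ.trans hB1.symm), hB2]
  have conjG : ∀ i < 5, Good τ (el (tB.getD i [])) := by
    intro i hi
    have h := cB5 i hi
    unfold chkB at h
    have e := el_eq_of_chkEq h
    rw [el_conj] at e
    obtain ⟨c, hc'⟩ := hs (el (cB.getD i []))
    refine good_of_conj g1 c ?_
    rw [hc', ← e]
    unfold ja1
    group
  have g2 : Good τ ja2 := conjG 0 (by norm_num)
  have g12 : Good τ (ja1 * ja2) := by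
    have h := conjG 1 (by norm_num)
    have e : el (tB.getD 1 []) = ja1 * ja2 := el_append wa2 wa1
    rw [e] at h
    exact h
  have g1t : Good τ (ja1 * jt) := by
    have h := conjG 2 (by norm_num)
    have e : el (tB.getD 2 []) = ja1 * jt := el_append [0] wa1
    rw [e] at h
    exact h
  have g2t : Good τ (ja2 * jt) := by
    have h := conjG 3 (by norm_num)
    have e : el (tB.getD 3 []) = ja2 * jt := el_append [0] wa2
    rw [e] at h
    exact h
  have g12t : Good τ (ja1 * (ja2 * jt)) := by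
    have h := conjG 4 (by norm_num)
    have e : el (tB.getD 4 []) = ja1 * (ja2 * jt) := by
      show el (([0] ++ wa2) ++ wa1) = _
      rw [el_append, el_append]
      rfl
    rw [e] at h
    exact h
  have gt : Good τ jt := good_t hs hc h2 ja1 ja2 jt g1 g2 g12 g1t g2t g12t ja1_sq ja2_t
  have hgQ : ∀ γ : Γ, τ γ ∈ Qj → τ γ * τ γ = 1 → γ * γ = 1 := by
    intro γ hγ hsq
    obtain ⟨e, he, hx⟩ := Qj_nf _ hγ
    have e1 := el_sq e he
    rw [← hx, hsq] at e1
    cases hq : qSq.getD e false with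
    | true =>
      rw [hq] at e1
      have e1' : (1 : J2) = jt := e1
      exact absurd e1'.symm jt_ne_one
    | false =>
      rcases cInv e he hq with h0 | ⟨h1, h1'⟩
      · rw [h0, el_nil] at hx
        exact h2 γ (MonoidHom.mem_ker.mpr hx)
      · rw [h1] at hx
        obtain ⟨c, hc'⟩ := el_single_conj _ h1'
        obtain ⟨u, hu⟩ := hs c
        exact good_of_conj gt u (by rw [hu, hx]; exact hc') γ rfl
  have hgA : ∀ γ : Γ, (τ γ = ja1 ∨ τ γ = ja2 ∨ τ γ = ja1 * ja2 ∨ τ γ = ja1 * jt ∨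
      τ γ = ja2 * jt) → γ * γ = 1 := by
    rintro γ (h | h | h | h | h)
    · exact g1 γ h
    · exact g2 γ h
    · exact g12 γ h
    · exact g1t γ h
    · exact g2t γ h
  exact Cfsg.Agent.Lib.Helper63.J2MultA2.coreA2 τ hs hc h2 jt jt_ne_one jt_sq Qj Qj_card Qj_sq
    Qj_t hgQ jq0 jq0_mem jq0_sq TS TS_spec Qj_conj ja1 ja2 ja1_sq ja2_sq ja_comm ja1_t ja2_t hgA
    Qj_norm.1 Qj_norm.2 jq0 jq0_mem rfl

/-- The kernel of a finite stem extension of `J2` has order not divisible by 4. -/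
theorem j2_no_four (Γ : Type) [Group Γ] [Finite Γ] (σ : Γ →* J2)
    (hσ : Cfsg.IsStemExtension σ) : ¬ 4 ∣ Nat.card σ.ker := by
  have hv : ∃ c, c * ja1 * c⁻¹ = ja2 := by
    have h := cB5 0 (by norm_num)
    unfold chkB at h
    have e := el_eq_of_chkEq h
    rw [el_conj] at e
    exact ⟨_, e⟩
  have huv : ∃ c, c * ja1 * c⁻¹ = ja1 * ja2 := by
    have h := cB5 1 (by norm_num)
    unfold chkB at h
    have e := el_eq_of_chkEq h
    rw [el_conj] at e
    have e' : el (tB.getD 1 []) = ja1 * ja2 := el_append wa2 wa1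
    rw [e'] at e
    exact ⟨_, e⟩
  exact Cfsg.Agent.Lib.Helper58.J2MultNF.no_four (Qj ⊔ Vj) P_index ja1 ja1 ja2 ja1_sq
    ⟨1, by rw [one_mul, inv_one, mul_one]⟩ hv huv ja_comm
    (fun Γ' _ _ τ hs hc h2 hB => j2_hA Γ' τ hs hc h2 hB) Γ σ hσ

end

end Cfsg.Agent.Lib.Helper26.J2M
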