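import Cfsg.Agent.Lib.Helper60.J2Center

/-!
# Words of reflections in `2.J2` and their images in `J2`
Helper26.  Glue on top of helper60's integer model (`gw`, `applyW`, `eq_of_frame`,
`center_cases`): kernel-checkable equality and inequality tests for elements of
`J2 = twoJ2 ⧸ centre` given as words of reflections.
-/

set_option autoImplicit false

namespace Cfsg.Agent.Lib.Helper26.J2W

open Quaternion Cfsg.Spor Cfsg.Agent.H60J2

/-- The negative of a model triple. -/
def negT (V : T3) : T3 := ⟨Q8.zero.sub V.X, Q8.zero.sub V.Y, Q8.zero.sub V.Z⟩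

/-- The images of the coordinate frame under a word. -/
def frameW (w : List Nat) : Option (T3 × T3 × T3) :=
  (applyW w E1).bind fun a => (applyW w E2).bind fun b => (applyW w E3).map fun c => (a, b, c)

/-- The negative of a frame. -/
def negF (F : T3 × T3 × T3) : T3 × T3 × T3 := (negT F.1, negT F.2.1, negT F.2.2)

/-- Kernel-checkable test: the two words give the same element of `J2`. -/
def chkEq (w1 w2 : List Nat) : Bool :=
  match frameW w1, frameW w2 with
  | some F1, some F2 => decide (F1 = F2) || decide (F1 = negF F2)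
  | _, _ => false

/-- Kernel-checkable test: the two words give different elements of `J2` (seen on `V`). -/
def chkNe (V : T3) (w1 w2 : List Nat) : Bool :=
  match applyW w1 V, applyW w2 V with
  | some A, some B => decide (A ≠ B) && decide (A ≠ negT B)
  | _, _ => false

noncomputable section

/-- The element of `2.J2` of a word. -/
def gwT (w : List Nat) : ↥twoJ2 := ⟨gw w, gw_mem w⟩

/-- The element of `J2` of a word. -/
def el (w : List Nat) : J2 := QuotientGroup.mk (gwT w)

/-- The central element `-1` of `2.J2`. -/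
def zT : ↥twoJ2 := ⟨zPerm, zPerm_mem⟩

theorem gw_append (w1 w2 : List Nat) : gw (w1 ++ w2) = gw w2 * gw w1 := by
  induction w1 with
  | nil => simp [gw]
  | cons k ks ih =>
    show gw (ks ++ w2) * GreflN k = gw w2 * (gw ks * GreflN k)
    rw [ih, mul_assoc]

theorem Grefl_mul_self (i : Fin repsP.length) : Grefl i * Grefl i = 1 := by
  apply Equiv.ext
  intro x
  apply Subtype.ext
  have h1 : ((Grefl i (Grefl i x) : icoLeech) : Fin 3 → ℍ[ℝ]) =
      qrefl (rR i) (qrefl (rR i) (x : Fin 3 → ℍ[ℝ])) := rfl
  rw [Equiv.Perm.mul_apply, h1]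
  exact qrefl_qrefl _ _ (rR_norm i)

theorem GreflN_mul_self (k : Nat) : GreflN k * GreflN k = 1 := by
  unfold GreflN
  by_cases h : k < repsP.length
  · rw [dif_pos h]
    exact Grefl_mul_self _
  · rw [dif_neg h, one_mul]

theorem gw_reverse (w : List Nat) : gw w.reverse = (gw w)⁻¹ := by
  induction w with
  | nil => simp [gw]
  | cons k ks ih =>
    rw [List.reverse_cons, gw_append, ih]
    show gw [k] * (gw ks)⁻¹ = (gw ks * GreflN k)⁻¹
    have h : gw [k] = GreflN k := by simp [gw]
    rw [h, mul_inv_rev, inv_eq_of_mul_eq_one_right (GreflN_mul_self k)]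

theorem gwT_append (w1 w2 : List Nat) : gwT (w1 ++ w2) = gwT w2 * gwT w1 :=
  Subtype.ext (gw_append w1 w2)

theorem gwT_reverse (w : List Nat) : gwT w.reverse = (gwT w)⁻¹ :=
  Subtype.ext (gw_reverse w)

theorem el_nil : el [] = 1 := by
  have h : gwT [] = 1 := Subtype.ext rfl
  unfold el
  rw [h]
  rfl

theorem el_append (w1 w2 : List Nat) : el (w1 ++ w2) = el w2 * el w1 := by
  unfold el
  rw [gwT_append]
  rfl

theorem el_reverse (w : List Nat) : el w.reverse = (el w)⁻¹ := by
  unfold el
  rw [gwT_reverse]
  rfl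

theorem el_zT : (QuotientGroup.mk zT : J2) = 1 :=
  (QuotientGroup.eq_one_iff _).mpr zPerm_central

theorem Phi_negT (V : T3) : Phi (negT V) = -Phi V := by
  funext t
  fin_cases t
  · show phi (Q8.zero.sub V.X) = -phi V.X
    rw [phi_sub, phi_zero, zero_sub]
  · show phi (Q8.zero.sub V.Y) = -phi V.Y
    rw [phi_sub, phi_zero, zero_sub]
  · show phi (Q8.zero.sub V.Z) = -phi V.Z
    rw [phi_sub, phi_zero, zero_sub]

theorem negT_negT (V : T3) : negT (negT V) = V := by
  apply Phi_injective
  rw [Phi_negT, Phi_negT, neg_neg]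

theorem frameW_some {w : List Nat} {a b c : T3} (h : frameW w = some (a, b, c)) :
    applyW w E1 = some a ∧ applyW w E2 = some b ∧ applyW w E3 = some c := by
  unfold frameW at h
  cases h1 : applyW w E1 with
  | none => rw [h1] at h; simp at h
  | some a' =>
    cases h2 : applyW w E2 with
    | none => rw [h1, h2] at h; simp at h
    | some b' =>
      cases h3 : applyW w E3 with
      | none => rw [h1, h2, h3] at h; simp at h
      | some c' =>
        rw [h1, h2, h3] at h
        simp only [Option.bind_some, Option.map_some, Option.some.injEq, Prod.mk.injEq] at h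
        obtain ⟨rfl, rfl, rfl⟩ := h
        exact ⟨rfl, rfl, rfl⟩

theorem E1_PL : PL E1 := by decide
theorem E2_PL : PL E2 := by decide
theorem E3_PL : PL E3 := by decide

theorem gw_apply {w : List Nat} {V W : T3} (hV : PL V) (h : applyW w V = some W) :
    ((gw w (PhiL V hV) : icoLeech) : Fin 3 → ℍ[ℝ]) = Phi W :=
  applyW_spec w V W (PhiL V hV).2 h

/-- Equal frames: equal elements of `2.J2`. -/
theorem gw_eq_of_frame {w1 w2 : List Nat} {F : T3 × T3 × T3} (h1 : frameW w1 = some F)
    (h2 : frameW w2 = some F) : gw w1 = gw w2 := by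
  obtain ⟨a, b, c⟩ := F
  obtain ⟨p1, p2, p3⟩ := frameW_some h1
  obtain ⟨q1, q2, q3⟩ := frameW_some h2
  apply eq_of_frame (gw_mem w1) (gw_mem w2)
  · apply Subtype.ext
    exact (gw_apply E1_PL p1).trans (gw_apply E1_PL q1).symm
  · apply Subtype.ext
    exact (gw_apply E2_PL p2).trans (gw_apply E2_PL q2).symm
  · apply Subtype.ext
    exact (gw_apply E3_PL p3).trans (gw_apply E3_PL q3).symm

/-- Opposite frames: the elements of `2.J2` differ by `-1`. -/
theorem gw_eq_of_frame_neg {w1 w2 : List Nat} {F : T3 × T3 × T3} (h1 : frameW w1 = some (negF F))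
    (h2 : frameW w2 = some F) : gw w1 = zPerm * gw w2 := by
  obtain ⟨a, b, c⟩ := F
  obtain ⟨p1, p2, p3⟩ := frameW_some h1
  obtain ⟨q1, q2, q3⟩ := frameW_some h2
  apply eq_of_frame (gw_mem w1) (mul_mem zPerm_mem (gw_mem w2))
  · apply Subtype.ext
    rw [Equiv.Perm.mul_apply, zPerm_apply]
    have e1 : ((gw w1 eL1 : icoLeech) : Fin 3 → ℍ[ℝ]) = Phi (negT a) := gw_apply E1_PL p1
    have e2 : ((gw w2 eL1 : icoLeech) : Fin 3 → ℍ[ℝ]) = Phi a := gw_apply E1_PL q1
    rw [e1, e2, Phi_negT]
  · apply Subtype.ext
    rw [Equiv.Perm.mul_apply, zPerm_apply]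
    have e1 : ((gw w1 eL2 : icoLeech) : Fin 3 → ℍ[ℝ]) = Phi (negT b) := gw_apply E2_PL p2
    have e2 : ((gw w2 eL2 : icoLeech) : Fin 3 → ℍ[ℝ]) = Phi b := gw_apply E2_PL q2
    rw [e1, e2, Phi_negT]
  · apply Subtype.ext
    rw [Equiv.Perm.mul_apply, zPerm_apply]
    have e1 : ((gw w1 eL3 : icoLeech) : Fin 3 → ℍ[ℝ]) = Phi (negT c) := gw_apply E3_PL p3
    have e2 : ((gw w2 eL3 : icoLeech) : Fin 3 → ℍ[ℝ]) = Phi c := gw_apply E3_PL q3
    rw [e1, e2, Phi_negT]

theorem el_eq_of_chkEq {w1 w2 : List Nat} (h : chkEq w1 w2 = true) : el w1 = el w2 := by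
  unfold chkEq at h
  cases h1 : frameW w1 with
  | none => rw [h1] at h; simp at h
  | some F1 =>
    cases h2 : frameW w2 with
    | none => rw [h1, h2] at h; simp at h
    | some F2 =>
      rw [h1, h2] at h
      simp only [Bool.or_eq_true, decide_eq_true_eq] at h
      rcases h with h | h
      · subst h
        have e : gwT w1 = gwT w2 := Subtype.ext (gw_eq_of_frame h1 h2)
        unfold el
        rw [e]
      · subst h
        have e : gwT w1 = zT * gwT w2 := Subtype.ext (gw_eq_of_frame_neg h1 h2)
        unfold el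
        rw [e, QuotientGroup.mk_mul, el_zT, one_mul]

theorem el_ne_of_chkNe {V : T3} (hV : PL V) {w1 w2 : List Nat} (h : chkNe V w1 w2 = true) :
    el w1 ≠ el w2 := by
  unfold chkNe at h
  cases h1 : applyW w1 V with
  | none => rw [h1] at h; simp at h
  | some A =>
    cases h2 : applyW w2 V with
    | none => rw [h1, h2] at h; simp at h
    | some B =>
      rw [h1, h2] at h
      simp only [Bool.and_eq_true, decide_eq_true_eq] at h
      obtain ⟨hAB, hAB'⟩ := h
      intro heq
      unfold el at heq
      have hmem : (gwT w2)⁻¹ * gwT w1 ∈ Subgroup.center ↥twoJ2 :=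
        QuotientGroup.eq.mp heq.symm
      have e1 := gw_apply hV h1
      have e2 := gw_apply hV h2
      rcases center_cases hmem with hc | hc
      · have e : gwT w1 = gwT w2 := by
          rw [inv_mul_eq_one] at hc
          exact hc.symm
        have e' : gw w1 = gw w2 := congrArg Subtype.val e
        rw [e'] at e1
        exact hAB (Phi_injective (e1.symm.trans e2))
      · have e : gwT w1 = gwT w2 * zT := by
          have hc' : (gwT w2)⁻¹ * gwT w1 = zT := hc
          rw [← hc']
          group
        have hz : gwT w2 * zT = zT * gwT w2 :=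
          (Subgroup.mem_center_iff.mp zPerm_central (gwT w2))
        have e' : gw w1 = zPerm * gw w2 := by
          have := congrArg Subtype.val (e.trans hz)
          exact this
        rw [e', Equiv.Perm.mul_apply, zPerm_apply, e2, ← Phi_negT] at e1
        exact hAB' (Phi_injective e1.symm)

/-- A word whose frame is `-1` is the central element `zPerm`. -/
theorem gw_eq_zPerm {w : List Nat} (h : frameW w = some (negF (E1, E2, E3))) : gw w = zPerm := by
  have h2 : frameW [] = some (E1, E2, E3) := rfl
  have := gw_eq_of_frame_neg h h2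
  rw [this]
  simp [gw]

end

end Cfsg.Agent.Lib.Helper26.J2W
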