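import Cfsg.Agent.Lib.Helper26.J2W

/-!
# Subgroups of `J2` given by a closed table of words
Helper26.  A list `U` of words (first word empty) which is closed under left multiplication by
generator words (table `M`), reachable from the empty word, and with pairwise distinct images:
the subgroup generated by the generators consists exactly of the `U.length` elements `el U[e]`.
-/

set_option autoImplicit false

namespace Cfsg.Agent.Lib.Helper26.J2W

open Quaternion Cfsg.Spor Cfsg.Agent.H60J2

/-- One row of the multiplication table: `gens[g] * U[e] = U[M[g][e]]` for all `e`. -/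
def chkRow (gens U : List (List Nat)) (M : List (List Nat)) (g : Nat) : Bool :=
  (List.range U.length).all fun e =>
    decide ((M.getD g []).getD e U.length < U.length) &&
      chkEq (U.getD e [] ++ gens.getD g []) (U.getD ((M.getD g []).getD e U.length) [])

/-- Every index `i > 0` is `M[g][e]` for some earlier index `e`. -/
def chkPar (ng N : Nat) (M : List (List Nat)) (par : List (Nat × Nat)) : Bool :=
  (List.range N).all fun i => i == 0 ||
    (decide ((par.getD i (0, 0)).1 < ng) && decide ((par.getD i (0, 0)).2 < i) &&
      ((M.getD (par.getD i (0, 0)).1 []).getD (par.getD i (0, 0)).2 N == i))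

/-- The two images are different and not opposite. -/
def ne2 (a b : Option T3) : Bool :=
  match a, b with
  | some A, some B => decide (A ≠ B) && decide (A ≠ negT B)
  | _, _ => false

/-- Pairwise `ne2`. -/
def allNe : List (Option T3) → Bool
  | [] => true
  | a :: l => l.all (ne2 a) && allNe l

/-- The images of `V` under a list of words. -/
def imgs (V : T3) (U : List (List Nat)) : List (Option T3) := U.map fun w => applyW w V

theorem allNe_getD : ∀ (L : List (Option T3)), allNe L = true → ∀ i j, i < j → j < L.length →
    ne2 (L.getD i none) (L.getD j none) = true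
  | [], _, _, _, _, hj => absurd hj (by simp)
  | a :: l, h, i, j, hij, hj => by
    simp only [allNe, Bool.and_eq_true, List.all_eq_true] at h
    obtain ⟨h1, h2⟩ := h
    cases j with
    | zero => exact absurd hij (by omega)
    | succ j' =>
      have hj' : j' < l.length := by simpa using hj
      cases i with
      | zero =>
        have e : (a :: l).getD (j' + 1) none = l[j'] := by
          rw [List.getD_cons_succ, List.getD_eq_getElem _ _ hj']
        rw [e]
        exact h1 _ (List.getElem_mem hj')
      | succ i' =>
        rw [List.getD_cons_succ, List.getD_cons_succ]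
        exact allNe_getD l h2 i' j' (by omega) hj'

theorem ne2_chkNe (V : T3) (w1 w2 : List Nat) : ne2 (applyW w1 V) (applyW w2 V) = chkNe V w1 w2 :=
  rfl

noncomputable section

theorem closure_table (gens U : List (List Nat)) (M : List (List Nat)) (par : List (Nat × Nat))
    (V : T3) (hV : PL V) (h0 : U.getD 0 [0] = [])
    (hM : ∀ g < gens.length, chkRow gens U M g = true)
    (hP : chkPar gens.length U.length M par = true)
    (hN : allNe (imgs V U) = true) :
    (∀ x ∈ Subgroup.closure {x : J2 | ∃ g ∈ gens, x = el g},
      ∃ e < U.length, x = el (U.getD e [])) ∧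
    (∀ e < U.length, el (U.getD e []) ∈ Subgroup.closure {x : J2 | ∃ g ∈ gens, x = el g}) ∧
    (∀ i j, i < U.length → j < U.length → el (U.getD i []) = el (U.getD j []) → i = j) ∧
    Nat.card ↥(Subgroup.closure {x : J2 | ∃ g ∈ gens, x = el g}) = U.length := by
  classical
  have hN0 : 0 < U.length := by
    rcases Nat.eq_zero_or_pos U.length with h | h
    · rw [List.length_eq_zero_iff] at h
      rw [h] at h0
      simp at h0
    · exact h
  have hX0 : el (U.getD 0 []) = 1 := by
    have e : U.getD 0 [] = [] := by
      rw [List.getD_eq_getElem _ _ hN0] at h0 ⊢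
      exact h0
    rw [e, el_nil]
  -- Step A
  have stepA : ∀ g < gens.length, ∀ e < U.length, (M.getD g []).getD e U.length < U.length ∧
      el (gens.getD g []) * el (U.getD e []) = el (U.getD ((M.getD g []).getD e U.length) []) := by
    intro g hg e he
    have h := hM g hg
    unfold chkRow at h
    rw [List.all_eq_true] at h
    have h' := h e (List.mem_range.mpr he)
    simp only [Bool.and_eq_true, decide_eq_true_eq] at h'
    refine ⟨h'.1, ?_⟩
    rw [← el_append]
    exact el_eq_of_chkEq h'.2
  have hgen : ∀ g < gens.length,
      el (gens.getD g []) ∈ Subgroup.closure {x : J2 | ∃ g ∈ gens, x = el g} := by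
    intro g hg
    apply Subgroup.subset_closure
    refine ⟨gens.getD g [], ?_, rfl⟩
    rw [List.getD_eq_getElem _ _ hg]
    exact List.getElem_mem hg
  -- Step B
  have stepB : ∀ x ∈ Subgroup.closure {x : J2 | ∃ g ∈ gens, x = el g},
      ∀ e < U.length, ∃ e' < U.length, x * el (U.getD e []) = el (U.getD e' []) := by
    intro x hx
    induction hx using Subgroup.closure_induction with
    | mem x hx =>
      obtain ⟨g, hg, rfl⟩ := hx
      obtain ⟨gi, hgi, rfl⟩ := List.mem_iff_getElem.mp hg
      intro e he
      have := stepA gi hgi e he
      rw [List.getD_eq_getElem _ _ hgi] at this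
      exact ⟨_, this.1, this.2⟩
    | one => exact fun e he => ⟨e, he, one_mul _⟩
    | mul x y _ _ hx hy =>
      intro e he
      obtain ⟨e1, he1, h1⟩ := hy e he
      obtain ⟨e2, he2, h2⟩ := hx e1 he1
      exact ⟨e2, he2, by rw [mul_assoc, h1, h2]⟩
    | inv x _ hx =>
      have hpow : ∀ k : ℕ, ∀ e < U.length, ∃ e' < U.length,
          x ^ k * el (U.getD e []) = el (U.getD e' []) := by
        intro k
        induction k with
        | zero => exact fun e he => ⟨e, he, by rw [pow_zero, one_mul]⟩
        | succ k ih =>
          intro e he
          obtain ⟨e1, he1, h1⟩ := ih e he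
          obtain ⟨e2, he2, h2⟩ := hx e1 he1
          exact ⟨e2, he2, by rw [pow_succ', mul_assoc, h1, h2]⟩
      have hfin : Finite J2 := inferInstance
      have hinv : x⁻¹ = x ^ (orderOf x - 1) := by
        have hpos : 0 < orderOf x := orderOf_pos x
        have h1 : x * x ^ (orderOf x - 1) = 1 := by
          rw [← pow_succ', Nat.sub_add_cancel hpos, pow_orderOf_eq_one]
        exact inv_eq_of_mul_eq_one_right h1
      rw [hinv]
      exact hpow _
  have stepC : ∀ x ∈ Subgroup.closure {x : J2 | ∃ g ∈ gens, x = el g},
      ∃ e < U.length, x = el (U.getD e []) := by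
    intro x hx
    obtain ⟨e, he, h⟩ := stepB x hx 0 hN0
    rw [hX0, mul_one] at h
    exact ⟨e, he, h⟩
  have stepD : ∀ e < U.length,
      el (U.getD e []) ∈ Subgroup.closure {x : J2 | ∃ g ∈ gens, x = el g} := by
    intro e
    induction e using Nat.strong_induction_on with
    | _ e ih =>
      intro he
      rcases Nat.eq_zero_or_pos e with h | h
      · subst h
        rw [hX0]
        exact Subgroup.one_mem _
      · unfold chkPar at hP
        rw [List.all_eq_true] at hP
        have h' := hP e (List.mem_range.mpr he)
        simp only [Bool.or_eq_true, beq_iff_eq, Bool.and_eq_true, decide_eq_true_eq] at h'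
        rcases h' with h' | ⟨⟨hg, hlt⟩, hm⟩
        · omega
        · have hA := stepA _ hg _ (lt_trans hlt he)
          rw [hm] at hA
          rw [← hA.2]
          exact Subgroup.mul_mem _ (hgen _ hg) (ih _ hlt (lt_trans hlt he))
  have stepE : ∀ i j, i < j → j < U.length → el (U.getD i []) ≠ el (U.getD j []) := by
    intro i j hij hj
    have hlen : (imgs V U).length = U.length := by simp [imgs]
    have h := allNe_getD (imgs V U) hN i j hij (by rw [hlen]; exact hj)
    have hi : i < U.length := lt_trans hij hj
    have e1 : (imgs V U).getD i none = applyW (U.getD i []) V := by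
      rw [List.getD_eq_getElem _ _ (by rw [hlen]; exact hi), List.getD_eq_getElem _ _ hi]
      simp [imgs]
    have e2 : (imgs V U).getD j none = applyW (U.getD j []) V := by
      rw [List.getD_eq_getElem _ _ (by rw [hlen]; exact hj), List.getD_eq_getElem _ _ hj]
      simp [imgs]
    rw [e1, e2, ne2_chkNe] at h
    exact el_ne_of_chkNe hV h
  have stepE' : ∀ i j, i < U.length → j < U.length → el (U.getD i []) = el (U.getD j []) →
      i = j := by
    intro i j hi hj h
    rcases Nat.lt_trichotomy i j with hlt | heq | hgt
    · exact absurd h (stepE i j hlt hj)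
    · exact heq
    · exact absurd h.symm (stepE j i hgt hi)
  refine ⟨stepC, stepD, stepE', ?_⟩
  let f : Fin U.length → ↥(Subgroup.closure {x : J2 | ∃ g ∈ gens, x = el g}) :=
    fun e => ⟨el (U.getD e.1 []), stepD e.1 e.2⟩
  have hbij : Function.Bijective f := by
    constructor
    · intro a b hab
      have := congrArg Subtype.val hab
      exact Fin.ext (stepE' a.1 b.1 a.2 b.2 this)
    · rintro ⟨x, hx⟩
      obtain ⟨e, he, rfl⟩ := stepC x hx
      exact ⟨⟨e, he⟩, rfl⟩
  rw [← Nat.card_congr (Equiv.ofBijective f hbij), Nat.card_fin]

end

end Cfsg.Agent.Lib.Helper26.J2W
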