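import Cfsg.Agent.Lib.Helper26.J3Mult

/-!
# Kernel checks for the Schur multiplier of `J3` (relations)
Helper26.
-/

set_option autoImplicit false
set_option maxRecDepth 100000

namespace Cfsg.Agent.Lib.Helper26.J3Mult

open Cfsg.Agent.Lib.Helper26.J3Code Cfsg.Agent.Lib.Helper26.J3Gens Cfsg.Agent.Lib.Helper26.J3Tab
open Cfsg.Agent.Lib.Helper26.J3Out (t0c trip)
open Cfsg.Agent.Lib.Helper26.J3Cen (L1c S0c Qc mq sg qg)

theorem cInv : mulR x3c x3ci = oneR ∧ mulR x3ci x3c = oneR ∧ mulR c8c c8ci = oneR ∧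
    mulR c8ci c8c = oneR ∧ x3Tr.1 < 6156 ∧ x3Tr.2.1 < 17 ∧ x3Tr.2.2 < 1440 ∧ x3c = trip x3Tr ∧
    c8Tr.1 < 6156 ∧ c8Tr.2.1 < 17 ∧ c8Tr.2.2 < 1440 ∧ c8c = trip c8Tr ∧ t3c 0 = oneR := by
  decide +kernel

/-- the relations of the Sylow 3-subgroup, modulo the centre -/
theorem cRel : inZ (normR (cmP v1P xP).1) = true ∧ inZ (normR (cmP v1P yP).1) = true ∧
    inZ (normR (cmP v2P xP).1) = true ∧ inZ (normR (cmP v2P yP).1) = true ∧
    inZ (normR (mulP (mulP (mulP xP xP) xP) (invP (mulP v1P v2P))).1) = true ∧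
    inZ (normR (mulP (mulP (mulP yP yP) yP) (invP (mulP (mulP v1P v1P) v2P))).1) = true ∧
    inZ (normR (mulP (mulP (mulP (mulP cP yP) (invP cP)) (invP (mulP xP yP)))
      (invP (mulP (mulP (mulP uP uP) (mulP v1P v1P)) (mulP v2P v2P)))).1) = true ∧
    inZ (normR (powR uP.1 3)) = true ∧
    (wP.1 = zc ∨ wP.1 = zc2) := by
  decide +kernel

theorem cInd : ∀ a b c : Fin 3, inZ (normR (w3 a.val b.val c.val)) = true →
    a = 0 ∧ b = 0 ∧ c = 0 := by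
  decide +kernel

theorem cP3 : J3Orb.allR chkP3 10 0 = true := by decide +kernel
theorem cS3 : J3Orb.allR chkS3 10 0 = true := by decide +kernel
theorem cR3 : J3Orb.allR chkR3 10 0 = true := by decide +kernel

/-! ### the centraliser of an involution -/

theorem cCJ : allB chkCJ 32 = true := by decide +kernel

theorem cTwo : mq (32 * mx0 + mx0) = 29 ∧ mx0 < 32 ∧ ma1 < 128 ∧ ma2 < 128 ∧ me3 < 128 ∧ mq0 < 32 ∧
    mulR a1c a1c = oneR ∧ mulR a2c a2c = oneR ∧ mulR a1c a2c = mulR a2c a1c ∧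
    mulR e3c e3c = oneR ∧ mulR a1c e3c = mulR e3c a1c ∧
    normR a1c ≠ oneR ∧ normR e3c ≠ oneR ∧ normR (mulR t0c a1c) ≠ oneR ∧
    normR (mulR t0c e3c) ≠ oneR ∧ normR (mulR a1c e3c) ≠ oneR ∧
    normR (mulR t0c (mulR a1c e3c)) ≠ oneR ∧
    (∀ k : Fin 4, qg k = wdQ (qw k)) ∧
    (∀ s : Fin 3, Nat.div (sw s) 4 < 32 ∧ sg s = wdS (sw s)) := by
  decide +kernel

end Cfsg.Agent.Lib.Helper26.J3Mult
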