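import Cfsg.Agent.Lib.Helper26.J3Cen3
import Cfsg.Agent.Lib.Helper26.J3MultChk0
import Cfsg.Agent.Lib.Helper35.StemB
import Cfsg.Agent.Lib.Helper44.J3MultA

/-!
# The Schur multiplier of `J3`: the 2-part
Helper26.

No finite stem extension of `J3` has an element of order 2 in its kernel: reduction to kernels
of exponent 2, where all involutions lift to involutions (one class of involutions and an
elementary abelian subgroup of order 8), and an analysis of the preimage of a Sylow 2-subgroup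
`Q ⋊ ⟨a₁, a₂⟩` of the centraliser of an involution (`Q` extraspecial of order 32).
-/

set_option autoImplicit false
set_option maxRecDepth 100000
set_option linter.unusedSectionVars false

namespace Cfsg.Agent.Lib.Helper26.J3Mult

open Cfsg.Spor Cfsg.Agent.Lib.Helper26.J3Code Cfsg.Agent.Lib.Helper26.J3Main
open Cfsg.Agent.Lib.Helper26.J3Gens Cfsg.Agent.Lib.Helper26.J3Tab
open Cfsg.Agent.Lib.Helper26.J3Out (qm t' t0c mt_t t_mul qt_ne)
open Cfsg.Agent.Lib.Helper26.J3Cen (L1c S0c Qc mq sg qg CH SH QH CJ SJ QJ sH qH)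
open scoped commutatorElement

universe u

theorem sq_mul_of_comm {G : Type*} [Group G] {x y : G} (hx : x * x = 1) (hy : y * y = 1)
    (hxy : x * y = y * x) : (x * y) * (x * y) = 1 := by
  calc x * y * (x * y) = x * (y * x) * y := by group
    _ = x * (x * y) * y := by rw [hxy]
    _ = (x * x) * (y * y) := by group
    _ = 1 := by rw [hx, hy, one_mul]

section Grp

variable {F : Type*} [Field F] [Finite F] {ω : F} (h2 : (2 : F) = 0) (hω : ω ^ 2 + ω + 1 = 0)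
include h2 hω

theorem SH_ex (i : Nat) (hi : i < 128) : ∃ x ∈ SH h2 hω, mt x = decR F ω (S0c i) := by
  obtain ⟨g, hg, e⟩ := (J3Cen.S0_facts h2 hω).2.2 i hi
  have hgJ : g ∈ threeJ3 F ω := J3Cen.C1G_le h2 hω (J3Cen.S0G_le h2 hω hg)
  exact ⟨⟨g, hgJ⟩, (J3Cen.SH_facts h2 hω).2.2 i hi _ e, e⟩

theorem QH_ex (i : Nat) (hi : i < 32) : ∃ x ∈ QH h2 hω, mt x = decR F ω (Qc i) := by
  obtain ⟨g, hg, e⟩ := (J3Cen.Q_facts h2 hω).2.2 i hi
  have hgJ : g ∈ threeJ3 F ω :=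
    J3Cen.C1G_le h2 hω (J3Cen.S0G_le h2 hω (J3Cen.QG_le h2 hω hg))
  exact ⟨⟨g, hgJ⟩, (J3Cen.QH_facts h2 hω).2.2 i hi _ e, e⟩

theorem QH_le_CH : QH h2 hω ≤ CH h2 hω := (J3Cen.QH_le h2 hω).trans (J3Cen.SH_le h2 hω)

theorem t_mem_CH : t' h2 hω ∈ CH h2 hω := J3Cen.SH_le h2 hω (J3Cen.t_mem_SH h2 hω)

theorem qm_ne_one {x : threeJ3 F ω} (hx : x ∈ CH h2 hω) (c : R9) (e : mt x = decR F ω c)
    (hne : normR c ≠ oneR) : (qm x : J3 F ω) ≠ 1 := by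
  intro h
  have h1 : x = 1 := J3Cen.qm_inj_CH h2 hω hx (Subgroup.one_mem _) (by rw [h, map_one])
  rw [h1, mt_one, ← decR_one (F := F) (ω := ω)] at e
  exact decR_ne' h2 hω norm_oneR hne e.symm

/-- a factor of a word -/
def selG (m j : Nat) (B : threeJ3 F ω) : threeJ3 F ω := if Nat.testBit m j then B else 1

theorem mt_selG (m j : Nat) (B : threeJ3 F ω) (c : R9) (h : mt B = decR F ω c) :
    mt (selG m j B) = decR F ω (sel m j c) := by
  unfold selG sel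
  cases hb : Nat.testBit m j
  · rw [if_neg (by simp), cond_false, mt_one, decR_one]
  · rw [if_pos rfl, cond_true]; exact h

theorem selG_mem (m j : Nat) (B : threeJ3 F ω) (K : Subgroup (J3 F ω)) (hB : qm B ∈ K) :
    qm (selG m j B) ∈ K := by
  unfold selG
  split
  · exact hB
  · rw [map_one]; exact K.one_mem

/-- **The 2-part, kernel of exponent 2.** -/
theorem two_core {Γ : Type*} [Group Γ] (τ : Γ →* J3 F ω) (hs : Function.Surjective τ)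
    (hc : τ.ker ≤ Subgroup.center Γ) (hk2 : ∀ k ∈ τ.ker, k * k = 1) :
    ∃ P : Subgroup (J3 F ω), (P.index).Coprime 2 ∧ ⁅P.comap τ, P.comap τ⁆ ⊓ τ.ker = ⊥ := by
  obtain ⟨hx0sq, hx0lt, ha1lt, ha2lt, he3lt, hq0lt, ca1, ca2, ca12, ce3, ca1e3, na1, ne3, nta1,
    nte3, na1e3, nta1e3, hqw, hsw⟩ := cTwo
  obtain ⟨A1, hA1S, eA1⟩ := SH_ex h2 hω ma1 ha1lt
  obtain ⟨A2, hA2S, eA2⟩ := SH_ex h2 hω ma2 ha2lt
  obtain ⟨E3, hE3S, eE3⟩ := SH_ex h2 hω me3 he3lt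
  obtain ⟨Q0, hQ0Q, eQ0⟩ := QH_ex h2 hω mq0 hq0lt
  obtain ⟨X0, hX0Q, eX0⟩ := QH_ex h2 hω mx0 hx0lt
  have hA1C : A1 ∈ CH h2 hω := J3Cen.SH_le h2 hω hA1S
  have hA2C : A2 ∈ CH h2 hω := J3Cen.SH_le h2 hω hA2S
  have hE3C : E3 ∈ CH h2 hω := J3Cen.SH_le h2 hω hE3S
  have htC := t_mem_CH h2 hω
  have dat := J3Cen.j3_data h2 hω
  -- relations in `3.J3`
  have A1sq : A1 * A1 = 1 := by
    apply mt_inj; rw [mt_mul, eA1, ← decR_mul h2 hω]; erw [ca1]; rw [decR_one, mt_one]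
  have A2sq : A2 * A2 = 1 := by
    apply mt_inj; rw [mt_mul, eA2, ← decR_mul h2 hω]; erw [ca2]; rw [decR_one, mt_one]
  have E3sq : E3 * E3 = 1 := by
    apply mt_inj; rw [mt_mul, eE3, ← decR_mul h2 hω]; erw [ce3]; rw [decR_one, mt_one]
  have A12 : A1 * A2 = A2 * A1 := by
    apply mt_inj; rw [mt_mul, mt_mul, eA1, eA2, ← decR_mul h2 hω, ← decR_mul h2 hω]
    exact congrArg _ ca12
  have A1E3 : A1 * E3 = E3 * A1 := by
    apply mt_inj; rw [mt_mul, mt_mul, eA1, eE3, ← decR_mul h2 hω, ← decR_mul h2 hω]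
    exact congrArg _ ca1e3
  have tA1 : t' h2 hω * A1 = A1 * t' h2 hω := (J3Cen.CH_comm h2 hω A1 hA1C).symm
  have tA2 : t' h2 hω * A2 = A2 * t' h2 hω := (J3Cen.CH_comm h2 hω A2 hA2C).symm
  have tE3 : t' h2 hω * E3 = E3 * t' h2 hω := (J3Cen.CH_comm h2 hω E3 hE3C).symm
  have tt := t_mul h2 hω
  have X0sq : X0 * X0 = t' h2 hω := by
    apply mt_inj
    rw [J3Cen.mt_mul_Q h2 hω hx0lt hx0lt eX0 eX0, hx0sq, mt_t, J3Cen.cTQ]
  -- the images in `J3`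
  obtain ⟨t, htd⟩ : ∃ t : J3 F ω, t = qm (t' h2 hω) := ⟨_, rfl⟩
  obtain ⟨a₁, ha₁d⟩ : ∃ a : J3 F ω, a = qm A1 := ⟨_, rfl⟩
  obtain ⟨a₂, ha₂d⟩ : ∃ a : J3 F ω, a = qm A2 := ⟨_, rfl⟩
  obtain ⟨e₃, he₃d⟩ : ∃ a : J3 F ω, a = qm E3 := ⟨_, rfl⟩
  obtain ⟨q₀, hq₀d⟩ : ∃ a : J3 F ω, a = qm Q0 := ⟨_, rfl⟩
  obtain ⟨x₀, hx₀d⟩ : ∃ a : J3 F ω, a = qm X0 := ⟨_, rfl⟩
  have ht1 : t ≠ 1 := by rw [htd]; exact qt_ne h2 hω
  have htt : t * t = 1 := by rw [htd, ← map_mul, tt, map_one]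
  have ha₁ : a₁ * a₁ = 1 := by rw [ha₁d, ← map_mul, A1sq, map_one]
  have ha₂ : a₂ * a₂ = 1 := by rw [ha₂d, ← map_mul, A2sq, map_one]
  have he₃ : e₃ * e₃ = 1 := by rw [he₃d, ← map_mul, E3sq, map_one]
  have ha₁₂ : a₁ * a₂ = a₂ * a₁ := by rw [ha₁d, ha₂d, ← map_mul, A12, map_mul]
  have ha₁e : a₁ * e₃ = e₃ * a₁ := by rw [ha₁d, he₃d, ← map_mul, A1E3, map_mul]
  have hta₁ : t * a₁ = a₁ * t := by rw [htd, ha₁d, ← map_mul, tA1, map_mul]
  have hta₂ : t * a₂ = a₂ * t := by rw [htd, ha₂d, ← map_mul, tA2, map_mul]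
  have hte₃ : t * e₃ = e₃ * t := by rw [htd, he₃d, ← map_mul, tE3, map_mul]
  have hta₁e : t * (a₁ * e₃) = (a₁ * e₃) * t := by
    rw [← mul_assoc, hta₁, mul_assoc, hte₃, mul_assoc]
  -- all involutions lift to involutions
  have hgood : ∀ γ : Γ, τ γ * τ γ = 1 → γ * γ = 1 := by
    have conj_lift : ∀ e : J3 F ω, e * e = 1 → e ≠ 1 → ∃ u : Γ, τ u * t = e * τ u := by
      intro e he2 hne
      obtain ⟨g, hg⟩ := dat.conj e he2 hne
      obtain ⟨u, rfl⟩ := hs g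
      refine ⟨u, ?_⟩
      rw [← htd] at hg
      rw [← hg]; group
    obtain ⟨T0, hT0⟩ := hs t
    obtain ⟨L1, hL1⟩ := hs a₁
    obtain ⟨L3, hL3⟩ := hs e₃
    have n1 : a₁ ≠ 1 := by rw [ha₁d]; exact qm_ne_one h2 hω hA1C _ eA1 na1
    have n2 : e₃ ≠ 1 := by rw [he₃d]; exact qm_ne_one h2 hω hE3C _ eE3 ne3
    have n3 : t * a₁ ≠ 1 := by
      rw [htd, ha₁d, ← map_mul]
      refine qm_ne_one h2 hω (Subgroup.mul_mem _ htC hA1C) (mulR t0c a1c) ?_ nta1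
      rw [mt_mul, mt_t, eA1, ← decR_mul h2 hω]; rfl
    have n4 : t * e₃ ≠ 1 := by
      rw [htd, he₃d, ← map_mul]
      refine qm_ne_one h2 hω (Subgroup.mul_mem _ htC hE3C) (mulR t0c e3c) ?_ nte3
      rw [mt_mul, mt_t, eE3, ← decR_mul h2 hω]; rfl
    have n5 : a₁ * e₃ ≠ 1 := by
      rw [ha₁d, he₃d, ← map_mul]
      refine qm_ne_one h2 hω (Subgroup.mul_mem _ hA1C hE3C) (mulR a1c e3c) ?_ na1e3
      rw [mt_mul, eA1, eE3, ← decR_mul h2 hω]; rfl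
    have n6 : t * (a₁ * e₃) ≠ 1 := by
      rw [htd, ha₁d, he₃d, ← map_mul, ← map_mul]
      refine qm_ne_one h2 hω (Subgroup.mul_mem _ htC (Subgroup.mul_mem _ hA1C hE3C))
        (mulR t0c (mulR a1c e3c)) ?_ nta1e3
      rw [mt_mul, mt_mul, mt_t, eA1, eE3, ← decR_mul h2 hω, ← decR_mul h2 hω]; rfl
    obtain ⟨u₂, c₂⟩ := conj_lift a₁ ha₁ n1
    obtain ⟨u₃, c₃⟩ := conj_lift e₃ he₃ n2
    obtain ⟨u₁₂, c₁₂⟩ := conj_lift (t * a₁) (sq_mul_of_comm htt ha₁ hta₁) n3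
    obtain ⟨u₁₃, c₁₃⟩ := conj_lift (t * e₃) (sq_mul_of_comm htt he₃ hte₃) n4
    obtain ⟨u₂₃, c₂₃⟩ := conj_lift (a₁ * e₃) (sq_mul_of_comm ha₁ he₃ ha₁e) n5
    obtain ⟨u₁₂₃, c₁₂₃⟩ := conj_lift (t * (a₁ * e₃))
      (sq_mul_of_comm htt (sq_mul_of_comm ha₁ he₃ ha₁e) hta₁e) n6
    have hG : Cfsg.Agent.Lib.Helper35.StemB.Good τ (τ T0) :=
      Cfsg.Agent.Lib.Helper35.StemB.good_of_pure hc hk2 T0 L1 L3
        (by rw [map_mul, hT0, htt]) u₂ u₃ u₁₂ u₁₃ u₂₃ u₁₂₃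
        (by rw [hT0, hL1]; exact c₂) (by rw [hT0, hL3]; exact c₃)
        (by rw [map_mul, hT0, hL1]; exact c₁₂) (by rw [map_mul, hT0, hL3]; exact c₁₃)
        (by rw [map_mul, hT0, hL1, hL3]; exact c₂₃)
        (by rw [map_mul, map_mul, hT0, hL1, hL3]; exact c₁₂₃)
    rw [hT0] at hG
    intro γ hγ
    by_cases h1 : τ γ = 1
    · exact hk2 γ (MonoidHom.mem_ker.mpr h1)
    · obtain ⟨u, hu⟩ := conj_lift (τ γ) hγ h1
      exact Cfsg.Agent.Lib.Helper35.StemB.good_of_conj hG u hu γ rfl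
  -- the extraspecial group
  have hQmem : ∀ x ∈ QH h2 hω, (qm x : J3 F ω) ∈ QJ h2 hω := fun x hx =>
    Subgroup.mem_map_of_mem _ hx
  have hQsq : ∀ q ∈ QJ h2 hω, q * q = 1 ∨ q * q = t := by
    intro q hq
    obtain ⟨x, hx, rfl⟩ := Subgroup.mem_map.mp hq
    rcases J3Cen.QH_sq h2 hω x hx with h | h
    · left; rw [← map_mul, h, map_one]
    · right; rw [← map_mul, h, htd]
  have hQt : ∀ q ∈ QJ h2 hω, q * t = t * q := by
    intro q hq
    obtain ⟨x, hx, rfl⟩ := Subgroup.mem_map.mp hq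
    rw [htd, ← map_mul, ← map_mul, J3Cen.CH_comm h2 hω x (QH_le_CH h2 hω hx)]
  have hx₀Q : x₀ ∈ QJ h2 hω := by rw [hx₀d]; exact hQmem X0 hX0Q
  have hx₀2 : x₀ * x₀ = t := by rw [hx₀d, ← map_mul, X0sq, htd]
  have hq₀Q : q₀ ∈ QJ h2 hω := by rw [hq₀d]; exact hQmem Q0 hQ0Q
  have htQ : t ∈ QJ h2 hω := by rw [htd]; exact hQmem _ (J3Cen.t_mem_QH h2 hω)
  have hN : ∀ g : J3 F ω, g * t = t * g → ∀ q ∈ QJ h2 hω, g * q * g⁻¹ ∈ QJ h2 hω := by
    intro g hg q hq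
    rw [htd] at hg
    exact dat.Q_norm g hg q hq
  -- conjugacy of the elements of order 4
  have hconj : ∀ q ∈ QJ h2 hω, q * q = t →
      ∃ g ∈ Subgroup.closure {g : J3 F ω | g * t = t * g ∧ ∃ n : ℕ, Odd n ∧ g ^ n = 1},
        g * x₀ * g⁻¹ = q ∨ g * x₀ * g⁻¹ = q⁻¹ := by
    intro q hq hqq
    obtain ⟨x, hx, rfl⟩ := Subgroup.mem_map.mp hq
    obtain ⟨i, hi, e⟩ := (J3Cen.QH_facts h2 hω).2.1 x hx
    have hxC : x ∈ CH h2 hω := QH_le_CH h2 hω hx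
    have hxx : x * x = t' h2 hω :=
      J3Cen.qm_inj_CH h2 hω (Subgroup.mul_mem _ hxC hxC) htC (by rw [map_mul, hqq, htd])
    have hmq : mq (32 * i + i) = 29 := by
      apply J3Cen.Qc_inj h2 hω _ _ (J3Cen.mq_spec i i hi hi).1 (by norm_num)
      rw [← J3Cen.mt_mul_Q h2 hω hi hi e e, hxx, mt_t, J3Cen.cTQ]
    have h := allB_spec _ _ cCJ i hi
    unfold chkCJ at h
    simp only [Bool.or_eq_true, Bool.and_eq_true, decide_eq_true_eq] at h
    rcases h with h | ⟨⟨hlt, hpow⟩, hrel⟩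
    · exact absurd hmq h
    obtain ⟨g, hgC, eg⟩ := J3Cen.CH_ex h2 hω (cjx i) hlt
    have hg15 : g ^ 15 = 1 := by
      apply mt_inj
      rw [mt_pow, eg, ← J3Out.decR_powR h2 hω, hpow, decR_one, mt_one]
    refine ⟨qm g, Subgroup.subset_closure ⟨?_, 15, by decide, by rw [← map_pow, hg15, map_one]⟩,
      ?_⟩
    · rw [htd, ← map_mul, ← map_mul, J3Cen.CH_comm h2 hω g hgC]
    rcases hrel with hrel | hrel
    · left
      have h3 : g * X0 = x * g := by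
        apply mt_inj
        rw [mt_mul, mt_mul, eg, eX0, e, ← decR_mul h2 hω, ← decR_mul h2 hω, hrel]
      rw [hx₀d, ← map_inv, ← map_mul, ← map_mul, h3]
      congr 1; group
    · right
      have h3 : g * X0 = x * t' h2 hω * g := by
        apply mt_inj
        rw [mt_mul, mt_mul, mt_mul, eg, eX0, e, mt_t, ← decR_mul h2 hω, ← decR_mul h2 hω,
          ← decR_mul h2 hω, hrel]
      have hinv : (qm x : J3 F ω)⁻¹ = qm (x * t' h2 hω) := by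
        rw [inv_eq_iff_mul_eq_one, ← map_mul]
        have : x * (x * t' h2 hω) = 1 := by rw [← mul_assoc, hxx, tt]
        rw [this, map_one]
      rw [hinv, hx₀d, ← map_inv, ← map_mul, ← map_mul, h3]
      congr 1; group
  -- generation of the extraspecial group
  have hA1inv : A1⁻¹ = A1 := inv_eq_of_mul_eq_one_left A1sq
  have hA2inv : A2⁻¹ = A2 := inv_eq_of_mul_eq_one_left A2sq
  have hgen : QJ h2 hω = Subgroup.closure
      {q₀, a₁ * q₀ * a₁⁻¹, a₂ * q₀ * a₂⁻¹, (a₁ * a₂) * q₀ * (a₁ * a₂)⁻¹, t} := by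
    have hta₁₂ : (a₁ * a₂) * t = t * (a₁ * a₂) := by
      rw [mul_assoc, ← hta₂, ← mul_assoc, ← hta₁, mul_assoc]
    apply le_antisymm
    · unfold QJ QH
      rw [Subgroup.map_le_iff_le_comap, Subgroup.closure_le]
      rintro _ ⟨k, rfl⟩
      rw [SetLike.mem_coe]
      set K := Subgroup.closure
        {q₀, a₁ * q₀ * a₁⁻¹, a₂ * q₀ * a₂⁻¹, (a₁ * a₂) * q₀ * (a₁ * a₂)⁻¹, t} with hK
      have k0 : qm Q0 ∈ K := by rw [← hq₀d]; exact Subgroup.subset_closure (by simp)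
      have k1 : qm (A1 * Q0 * A1) ∈ K := by
        have : (qm (A1 * Q0 * A1) : J3 F ω) = a₁ * q₀ * a₁⁻¹ := by
          rw [ha₁d, hq₀d, ← map_inv, hA1inv, map_mul, map_mul]
        rw [this]; exact Subgroup.subset_closure (by simp)
      have k2 : qm (A2 * Q0 * A2) ∈ K := by
        have : (qm (A2 * Q0 * A2) : J3 F ω) = a₂ * q₀ * a₂⁻¹ := by
          rw [ha₂d, hq₀d, ← map_inv, hA2inv, map_mul, map_mul]
        rw [this]; exact Subgroup.subset_closure (by simp)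
      have k3 : qm (A1 * A2 * Q0 * (A2 * A1)) ∈ K := by
        have : (qm (A1 * A2 * Q0 * (A2 * A1)) : J3 F ω) = (a₁ * a₂) * q₀ * (a₁ * a₂)⁻¹ := by
          rw [ha₁d, ha₂d, hq₀d, ← map_mul, ← map_inv, mul_inv_rev, hA1inv, hA2inv, map_mul,
            map_mul]
        rw [this]; exact Subgroup.subset_closure (by simp)
      have k4 : qm (t' h2 hω) ∈ K := by rw [← htd]; exact Subgroup.subset_closure (by simp)
      have hw : qH h2 hω k = selG (qw k) 0 Q0 * selG (qw k) 1 (A1 * Q0 * A1) *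
          selG (qw k) 2 (A2 * Q0 * A2) * selG (qw k) 3 (A1 * A2 * Q0 * (A2 * A1)) *
          selG (qw k) 4 (t' h2 hω) := by
        apply mt_inj
        have e1 : mt (A1 * Q0 * A1) = decR F ω b1c := by
          rw [mt_mul, mt_mul, eA1, eQ0, ← decR_mul h2 hω, ← decR_mul h2 hω]; rfl
        have e2 : mt (A2 * Q0 * A2) = decR F ω b2c := by
          rw [mt_mul, mt_mul, eA2, eQ0, ← decR_mul h2 hω, ← decR_mul h2 hω]; rfl
        have e3 : mt (A1 * A2 * Q0 * (A2 * A1)) = decR F ω b3c := by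
          rw [mt_mul, mt_mul, mt_mul, mt_mul, eA1, eA2, eQ0, ← decR_mul h2 hω,
            ← decR_mul h2 hω, ← decR_mul h2 hω, ← decR_mul h2 hω]; rfl
        rw [mt_mul, mt_mul, mt_mul, mt_mul, mt_selG h2 hω _ _ _ _ eQ0, mt_selG h2 hω _ _ _ _ e1,
          mt_selG h2 hω _ _ _ _ e2, mt_selG h2 hω _ _ _ _ e3, mt_selG h2 hω _ _ _ _ (mt_t h2 hω),
          ← decR_mul h2 hω, ← decR_mul h2 hω, ← decR_mul h2 hω, ← decR_mul h2 hω, J3Cen.mt_qH,
          hqw k]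
        rfl
      rw [Subgroup.mem_comap, hw, map_mul, map_mul, map_mul, map_mul]
      exact K.mul_mem (K.mul_mem (K.mul_mem (K.mul_mem (selG_mem h2 hω _ _ _ K k0)
        (selG_mem h2 hω _ _ _ K k1)) (selG_mem h2 hω _ _ _ K k2)) (selG_mem h2 hω _ _ _ K k3))
        (selG_mem h2 hω _ _ _ K k4)
    · rw [Subgroup.closure_le]
      intro x hx
      simp only [Set.mem_insert_iff, Set.mem_singleton_iff] at hx
      rcases hx with rfl | rfl | rfl | rfl | rfl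
      · exact hq₀Q
      · exact hN a₁ hta₁.symm q₀ hq₀Q
      · exact hN a₂ hta₂.symm q₀ hq₀Q
      · exact hN (a₁ * a₂) hta₁₂ q₀ hq₀Q
      · exact htQ
  -- the Sylow 2-subgroup
  have hidx : ((QJ h2 hω ⊔ Subgroup.closure {a₁, a₂}).index).Coprime 2 := by
    have hle : SJ h2 hω ≤ QJ h2 hω ⊔ Subgroup.closure {a₁, a₂} := by
      unfold SJ SH
      rw [Subgroup.map_le_iff_le_comap, Subgroup.closure_le]
      rintro _ ⟨s, rfl⟩
      rw [SetLike.mem_coe, Subgroup.mem_comap]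
      obtain ⟨hlt, hw⟩ := hsw s
      obtain ⟨Qi, hQi, eQi⟩ := QH_ex h2 hω _ hlt
      have hws : sH h2 hω s = Qi * selG (sw s) 1 A1 * selG (sw s) 0 A2 := by
        apply mt_inj
        rw [mt_mul, mt_mul, eQi, mt_selG h2 hω _ _ _ _ eA1, mt_selG h2 hω _ _ _ _ eA2,
          ← decR_mul h2 hω, ← decR_mul h2 hω, J3Cen.mt_sH, hw]
        rfl
      have m1 : (qm A1 : J3 F ω) ∈ QJ h2 hω ⊔ Subgroup.closure {a₁, a₂} := by
        rw [← ha₁d]; exact (le_sup_right : _ ≤ QJ h2 hω ⊔ _) (Subgroup.subset_closure (by simp))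
      have m2 : (qm A2 : J3 F ω) ∈ QJ h2 hω ⊔ Subgroup.closure {a₁, a₂} := by
        rw [← ha₂d]; exact (le_sup_right : _ ≤ QJ h2 hω ⊔ _) (Subgroup.subset_closure (by simp))
      rw [hws, map_mul, map_mul]
      exact Subgroup.mul_mem _ (Subgroup.mul_mem _
        ((le_sup_left : QJ h2 hω ≤ _) (hQmem Qi hQi)) (selG_mem h2 hω _ _ _ _ m1))
        (selG_mem h2 hω _ _ _ _ m2)
    have h1 := Subgroup.card_dvd_of_le hle
    rw [J3Cen.card_SJ h2 hω] at h1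
    obtain ⟨m, hm⟩ := h1
    have h3 := Subgroup.card_mul_index (QJ h2 hω ⊔ Subgroup.closure {a₁, a₂})
    rw [hm, (main_thm h2 hω).2.2.1] at h3
    have h3' : 128 * (m * (QJ h2 hω ⊔ Subgroup.closure {a₁, a₂}).index) = 50232960 := by
      rw [← mul_assoc]; exact h3
    have h4 : (QJ h2 hω ⊔ Subgroup.closure {a₁, a₂}).index ∣ 392445 :=
      ⟨m, by rw [Nat.mul_comm]; omega⟩
    exact Nat.Coprime.coprime_dvd_left h4 (by decide)
  refine ⟨QJ h2 hω ⊔ Subgroup.closure {a₁, a₂}, hidx, ?_⟩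
  exact Cfsg.Agent.Lib.Helper44.J3MultA.coreA τ hs hc hk2 hgood t ht1 htt (QJ h2 hω)
    (J3Cen.card_QJ h2 hω) hQsq hQt x₀ hx₀Q hx₀2
    {g : J3 F ω | g * t = t * g ∧ ∃ n : ℕ, Odd n ∧ g ^ n = 1} (fun g hg => hg) hconj a₁ a₂ ha₁ ha₂
    ha₁₂ hta₁.symm hta₂.symm (hN a₁ hta₁.symm) (hN a₂ hta₂.symm) q₀ hq₀Q hgen

end Grp

/-- No finite stem extension of `J3` has an element of order 2 in its kernel. -/
theorem no_two {F : Type u} [Field F] [Finite F] {ω : F} (h2 : (2 : F) = 0)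
    (hω : ω ^ 2 + ω + 1 = 0) {Γ : Type u} [Group Γ] [Finite Γ] (σ : Γ →* J3 F ω)
    (hσ : Cfsg.IsStemExtension σ) : ∀ z ∈ σ.ker, orderOf z ≠ 2 := by
  intro z hz ho
  have h1 : z = 1 := by
    refine Cfsg.Agent.Lib.Helper35.StemB.eq_one_of_exponent_case 2 ?_ Γ σ hσ z hz
      (by rw [← ho]; exact pow_orderOf_eq_one z)
    intro Γ' _ _ τ hτ hk
    have hk2 : ∀ k ∈ τ.ker, k * k = 1 := fun k hk' => by rw [← pow_two]; exact hk k hk'
    obtain ⟨P, hP, hbot⟩ := two_core h2 hω τ hτ.1 hτ.2.1 hk2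
    rw [Subgroup.eq_bot_iff_forall]
    intro k hk'
    have hidx : (P.comap τ).index = P.index := Subgroup.index_comap_of_surjective P hτ.1
    have hord : orderOf k ∣ 2 := orderOf_dvd_of_pow_eq_one (hk k hk')
    have hmem := Cfsg.Agent.Lib.Helper35.Stem.mem_commutator_of_coprime (P.comap τ)
      (hτ.2.1 hk') (hτ.2.2 hk') (by rw [hidx]; exact Nat.Coprime.coprime_dvd_right hord hP)
    have : k ∈ ⁅P.comap τ, P.comap τ⁆ ⊓ τ.ker := ⟨hmem, hk'⟩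
    rw [hbot, Subgroup.mem_bot] at this
    exact this
  rw [h1, orderOf_one] at ho
  exact absurd ho (by norm_num)

end Cfsg.Agent.Lib.Helper26.J3Mult
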