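import Cfsg.Agent.Lib.Helper26.J3Mult

/-!
# Kernel checks for the Schur multiplier of `J3` (table of the Sylow 3-subgroup, part 1)
Helper26.
-/

set_option autoImplicit false
set_option maxRecDepth 100000

namespace Cfsg.Agent.Lib.Helper26.J3Mult

theorem c3_0 : J3Orb.allR chk3 9 (2 ^ 9 * 0) = true := by decide +kernel

end Cfsg.Agent.Lib.Helper26.J3Mult
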