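import Cfsg.Agent.Lib.Helper26.J3Cen3
import Cfsg.Agent.Lib.Helper26.J3MultChk0
import Cfsg.Agent.Lib.Helper26.J3MultChk1
import Cfsg.Agent.Lib.Helper26.J3MultChk2
import Cfsg.Agent.Lib.Helper91.J3MultB

/-!
# The Schur multiplier of `J3`: the 3-part
Helper26.

A Sylow 3-subgroup `S = ⟨x, y⟩` of `J3` (order 243, class 3, `S' = ⟨u, v₁, v₂⟩` elementary
abelian) with an element `c` of order 8 normalising it (`c x c⁻¹ = y`, `c y c⁻¹ ≡ x y`); for
a central extension `σ` of `J3` the commutator subgroup of `σ⁻¹ S` meets the kernel in a group of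
order dividing 3.
-/

set_option autoImplicit false
set_option maxRecDepth 100000
set_option linter.unusedSectionVars false

namespace Cfsg.Agent.Lib.Helper26.J3Mult

open Cfsg.Spor Cfsg.Agent.Lib.Helper26.J3Code Cfsg.Agent.Lib.Helper26.J3Main
open Cfsg.Agent.Lib.Helper26.J3Gens Cfsg.Agent.Lib.Helper26.J3Tab
open Cfsg.Agent.Lib.Helper26.J3Orb (allR allR_spec allR_chunks inj_of_adj)
open Cfsg.Agent.Lib.Helper26.J3Out (qm trip)
open scoped commutatorElement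

/-! ### table facts -/

theorem c3_all : ∀ i < 729, chk3 i = true := by
  intro i hi
  refine allR_chunks chk3 9 2 ?_ i (by omega)
  intro k hk
  interval_cases k
  exacts [c3_0, c3_1]

theorem step3 (s : Nat) (hs : s < 2) (i : Nat) (hi : i < 729) :
    nx3 (2 * i + s) < 729 ∧ mulR (g3 s) (t3c i) = t3c (nx3 (2 * i + s)) := by
  have h := c3_all i hi
  unfold chk3 at h
  simp only [Bool.or_eq_true, decide_eq_true_eq] at h
  rcases h with h | h
  · omega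
  · have h' := allB_spec _ _ h s hs
    simpa only [Bool.and_eq_true, decide_eq_true_eq] using h'

theorem par3_spec (j : Nat) (hj0 : 0 < j) (hj : j < 729) :
    par3 j / 2 < j ∧ nx3 (par3 j) = j := by
  have h := allR_spec _ _ _ cP3 j (Nat.zero_le _) (by omega)
  unfold chkP3 at h
  simp only [Bool.or_eq_true, decide_eq_true_eq, Bool.and_eq_true] at h
  rcases h with (h | h) | h
  · omega
  · omega
  · exact h

theorem t3n_inj (i j : Nat) (hi : i < 729) (hj : j < 729) (h : t3n i = t3n j) : i = j := by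
  have hS : ∀ r, r + 1 < 729 → t3n (s3 r) < t3n (s3 (r + 1)) := by
    intro r hr
    have := allR_spec _ _ _ cS3 r (Nat.zero_le _) (by omega)
    unfold chkS3 at this
    simp only [Bool.or_eq_true, decide_eq_true_eq, Nat.blt_eq] at this
    rcases this with h | h
    · omega
    · exact h
  have hR : ∀ i, i < 729 → r3 i < 729 ∧ s3 (r3 i) = i := by
    intro i hi
    have := allR_spec _ _ _ cR3 i (Nat.zero_le _) (by omega)
    unfold chkR3 at this
    simp only [Bool.or_eq_true, decide_eq_true_eq, Bool.and_eq_true] at this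
    rcases this with h | h
    · omega
    · exact h
  have key := inj_of_adj (fun r => t3n (s3 r)) 729 hS (r3 i) (hR i hi).1 (r3 j) (hR j hj).1
    (by show t3n (s3 (r3 i)) = t3n (s3 (r3 j)); rw [(hR i hi).2, (hR j hj).2]; exact h)
  have := congrArg s3 key
  rw [(hR i hi).2, (hR j hj).2] at this
  exact this

/-! ### general lemmas -/

/-- In a central extension with an odd-order image, commutators of the preimage have odd
order. -/
theorem exists_odd_pow_eq_one {Γ G : Type*} [Group Γ] [Group G] [Finite Γ] (σ : Γ →* G)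
    (hs : Function.Surjective σ) (hc : σ.ker ≤ Subgroup.center Γ) (S : Subgroup G)
    (hS : Odd (Nat.card S)) {a b : Γ} (ha : σ a ∈ S) (hb : σ b ∈ S) :
    ∃ n : ℕ, Odd n ∧ ⁅a, b⁆ ^ n = 1 := by
  refine ⟨(Subgroup.center ↥(S.comap σ)).index, ?_, ?_⟩
  · have hf : Function.Surjective (σ.subgroupComap S) :=
      MonoidHom.subgroupComap_surjective_of_surjective σ S hs
    have hker : (σ.subgroupComap S).ker ≤ Subgroup.center ↥(S.comap σ) := by
      intro x hx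
      rw [Subgroup.mem_center_iff]
      intro y
      have hx' : (x : Γ) ∈ σ.ker := by
        rw [MonoidHom.mem_ker] at hx ⊢
        exact congrArg Subtype.val hx
      have := Subgroup.mem_center_iff.mp (hc hx') (y : Γ)
      exact Subtype.ext this
    have h1 := Subgroup.index_dvd_of_le hker
    rw [Subgroup.index_ker, MonoidHom.range_eq_top.mpr hf, Subgroup.card_top] at h1
    exact hS.of_dvd_nat h1
  · have key : (MonoidHom.transferCenterPow ↥(S.comap σ))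
        ⁅(⟨a, ha⟩ : ↥(S.comap σ)), ⟨b, hb⟩⁆ = 1 := by
      rw [map_commutatorElement]
      have hcomm : ∀ x y : ↥(Subgroup.center ↥(S.comap σ)), x * y = y * x := by
        intro x y
        apply Subtype.ext
        exact (Subgroup.mem_center_iff.mp y.2 (x : ↥(S.comap σ)))
      exact commutatorElement_eq_one_iff_commute.mpr (hcomm _ _)
    have h1 := congrArg Subtype.val key
    rw [MonoidHom.transferCenterPow_apply] at h1
    have h3 := congrArg Subtype.val h1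
    exact h3

theorem mem_sup_ker_of_map_eq {Γ G : Type*} [Group Γ] [Group G] (σ : Γ →* G) (H : Subgroup Γ)
    {a b : Γ} (hb : b ∈ H) (h : σ a = σ b) : a ∈ H ⊔ σ.ker := by
  have hk : b⁻¹ * a ∈ σ.ker := by rw [MonoidHom.mem_ker, map_mul, map_inv, h, inv_mul_cancel]
  have : a = b * (b⁻¹ * a) := by group
  rw [this]
  exact Subgroup.mul_mem_sup hb hk

/-- an element of `3.J3` with the codes of its matrix and of the matrix of its inverse -/
structure CE (F : Type*) [Field F] (ω : F) where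
  g : threeJ3 F ω
  p : R9 × R9
  hc : mt g = decR F ω p.1
  hi : mt g⁻¹ = decR F ω p.2

section Grp

variable {F : Type*} [Field F] [Finite F] {ω : F} (h2 : (2 : F) = 0) (hω : ω ^ 2 + ω + 1 = 0)
include h2 hω

/-- the element of order 9 -/
def xG : GL F9 F := glOf h2 hω x3c x3ci ⟨cInv.1, cInv.2.1⟩
/-- the element of order 8 -/
def cG8 : GL F9 F := glOf h2 hω c8c c8ci ⟨cInv.2.2.1, cInv.2.2.2.1⟩

theorem xG_mem : xG h2 hω ∈ threeJ3 F ω := by
  rw [J_eq h2 hω]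
  obtain ⟨-, -, -, -, h1, h1', h1'', e, -⟩ := cInv
  refine mem_of_inG (c := x3c) ?_ _ rfl
  rw [e]
  exact inG_T h2 hω _ _ _ h1 h1' h1''

theorem cG8_mem : cG8 h2 hω ∈ threeJ3 F ω := by
  rw [J_eq h2 hω]
  obtain ⟨-, -, -, -, -, -, -, -, h1, h1', h1'', e, -⟩ := cInv
  refine mem_of_inG (c := c8c) ?_ _ rfl
  rw [e]
  exact inG_T h2 hω _ _ _ h1 h1' h1''

/-- product -/
def CE.mul (a b : CE F ω) : CE F ω where
  g := a.g * b.g
  p := mulP a.p b.p
  hc := by rw [mt_mul, a.hc, b.hc, ← decR_mul h2 hω]; rfl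
  hi := by rw [mul_inv_rev, mt_mul, b.hi, a.hi, ← decR_mul h2 hω]; rfl

/-- inverse -/
def CE.inv (a : CE F ω) : CE F ω where
  g := a.g⁻¹
  p := invP a.p
  hc := a.hi
  hi := by rw [inv_inv]; exact a.hc

/-- commutator -/
def CE.cm (a b : CE F ω) : CE F ω :=
  CE.mul h2 hω (CE.mul h2 hω (CE.mul h2 hω a b) (CE.inv a)) (CE.inv b)

def eX : CE F ω := ⟨⟨xG h2 hω, xG_mem h2 hω⟩, xP, rfl, rfl⟩
def eC : CE F ω := ⟨⟨cG8 h2 hω, cG8_mem h2 hω⟩, cP, rfl, rfl⟩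
def eY : CE F ω := CE.mul h2 hω (CE.mul h2 hω (eC h2 hω) (eX h2 hω)) (CE.inv (eC h2 hω))
def eU : CE F ω := CE.cm h2 hω (eX h2 hω) (eY h2 hω)
def eV1 : CE F ω := CE.cm h2 hω (eU h2 hω) (eX h2 hω)
def eV2 : CE F ω := CE.cm h2 hω (eU h2 hω) (eY h2 hω)
def eW : CE F ω := CE.cm h2 hω (eV1 h2 hω) (eY h2 hω)

theorem qm_one (a : CE F ω) (h : inZ (normR a.p.1) = true) : qm a.g = 1 :=
  (J3Out.qm_eq_one_iff h2 hω a.g a.p.1 a.hc).mpr h

/-- the Sylow 3-subgroup of `3.J3` -/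
def S3H : Subgroup (threeJ3 F ω) := Subgroup.closure {(eX h2 hω).g, (eY h2 hω).g}
/-- the Sylow 3-subgroup of `J3` -/
def S3J : Subgroup (J3 F ω) := Subgroup.closure {qm (eX h2 hω).g, qm (eY h2 hω).g}

/-- the generators in `GL` -/
def gen3 (s : Fin 2) : GL F9 F :=
  if s = 0 then ((eX h2 hω).g : GL F9 F) else ((eY h2 hω).g : GL F9 F)

theorem gen3_spec (s : Fin 2) : (gen3 h2 hω s : Matrix F9 F9 F) = decR F ω (g3 s.val) := by
  fin_cases s
  · exact (eX h2 hω).hc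
  · exact (eY h2 hω).hc

theorem range_gen3 : Set.range (gen3 h2 hω) =
    {((eX h2 hω).g : GL F9 F), ((eY h2 hω).g : GL F9 F)} := by
  ext x
  simp only [Set.mem_range, Fin.exists_fin_two, Set.mem_insert_iff, Set.mem_singleton_iff]
  constructor
  · rintro (h | h)
    · left; exact h.symm
    · right; exact h.symm
  · rintro (h | h)
    · left; exact h.symm
    · right; exact h.symm

theorem S3G_facts : Nat.card (Subgroup.closure (Set.range (gen3 h2 hω))) = 729 ∧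
    (∀ x ∈ Subgroup.closure (Set.range (gen3 h2 hω)),
      ∃ i < 729, (x : Matrix F9 F9 F) = decR F ω (t3c i)) ∧
    ∀ i < 729, InG F ω (Subgroup.closure (Set.range (gen3 h2 hω))) (t3c i) := by
  obtain ⟨-, -, -, -, -, -, -, -, -, -, -, -, h0⟩ := cInv
  exact J3Cen.expl h2 hω (by norm_num) (gen3 h2 hω) g3 (gen3_spec h2 hω) 729 (by norm_num) t3c
    nx3 par3 h0 step3 par3_spec (fun i => norm_look _ _)
    (fun i hi j hj e => t3n_inj i j hi hj (unp_inj e))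

theorem S3H_map : (S3H h2 hω).map (threeJ3 F ω).subtype =
    Subgroup.closure (Set.range (gen3 h2 hω)) := by
  unfold S3H
  rw [MonoidHom.map_closure, Set.image_pair, range_gen3]
  rfl

theorem card_S3H : Nat.card (S3H h2 hω) = 729 :=
  (J3Cen.hat_facts _ _ (S3H_map h2 hω) 729 t3c (S3G_facts h2 hω)).1

theorem cm_mem (H : Subgroup (threeJ3 F ω)) {a b : CE F ω} (ha : a.g ∈ H) (hb : b.g ∈ H) :
    (CE.cm h2 hω a b).g ∈ H :=
  H.mul_mem (H.mul_mem (H.mul_mem ha hb) (H.inv_mem ha)) (H.inv_mem hb)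

theorem eX_mem : (eX h2 hω).g ∈ S3H h2 hω := Subgroup.subset_closure (by simp)
theorem eY_mem : (eY h2 hω).g ∈ S3H h2 hω := Subgroup.subset_closure (by simp)

theorem eW_mem : (eW h2 hω).g ∈ S3H h2 hω :=
  cm_mem h2 hω _ (cm_mem h2 hω _ (cm_mem h2 hω _ (eX_mem h2 hω) (eY_mem h2 hω)) (eX_mem h2 hω))
    (eY_mem h2 hω)

theorem eW_cases : (eW h2 hω).g = z' h2 hω ∨ (eW h2 hω).g = z' h2 hω ^ 2 := by
  have hw : wP.1 = zc ∨ wP.1 = zc2 := cRel.2.2.2.2.2.2.2.2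
  have e : mt (eW h2 hω).g = decR F ω wP.1 := (eW h2 hω).hc
  rcases hw with h | h
  · left; apply mt_inj; rw [e, h, mt_z]
  · right; apply mt_inj; rw [e, h, mt_z2]

theorem eW_ne : (eW h2 hω).g ≠ 1 := by
  rcases eW_cases h2 hω with h | h
  · rw [h]; exact z_ne h2 hω
  · rw [h]
    intro h1
    apply z_ne h2 hω
    have h3 := z_pow h2 hω
    have : z' h2 hω = (z' h2 hω ^ 2) ^ 2 := by
      rw [← pow_mul]
      have : z' h2 hω ^ (2 * 2) = z' h2 hω ^ 3 * z' h2 hω := by group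
      rw [this, h3, one_mul]
    rw [this, h1, one_pow]

theorem center_le_S3H : Subgroup.center (threeJ3 F ω) ≤ S3H h2 hω := by
  rw [center_J h2 hω]
  unfold Zs
  rw [Subgroup.zpowers_le]
  rcases eW_cases h2 hω with h | h
  · rw [← h]; exact eW_mem h2 hω
  · have h3 := z_pow h2 hω
    have : z' h2 hω = (z' h2 hω ^ 2) ^ 2 := by
      rw [← pow_mul]
      have : z' h2 hω ^ (2 * 2) = z' h2 hω ^ 3 * z' h2 hω := by group
      rw [this, h3, one_mul]
    rw [this, ← h]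
    exact Subgroup.pow_mem _ (eW_mem h2 hω) 2

theorem S3J_eq : S3J h2 hω = (S3H h2 hω).map qm := by
  unfold S3J S3H
  rw [MonoidHom.map_closure, Set.image_pair]

theorem index_S3J : ((S3J h2 hω).index).Coprime 3 := by
  have h1 : (S3J h2 hω).comap qm = S3H h2 hω := by
    rw [S3J_eq, Subgroup.comap_map_eq]
    have : (qm : threeJ3 F ω →* J3 F ω).ker = Subgroup.center (threeJ3 F ω) :=
      QuotientGroup.ker_mk' _
    rw [this]
    exact sup_eq_left.mpr (center_le_S3H h2 hω)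
  have h2' : ((S3J h2 hω).comap qm).index = (S3J h2 hω).index :=
    Subgroup.index_comap_of_surjective _ (QuotientGroup.mk'_surjective _)
  rw [h1] at h2'
  have h3 := Subgroup.card_mul_index (S3H h2 hω)
  rw [card_S3H, (card_J h2 hω).1, h2'] at h3
  have h4 : (S3J h2 hω).index = 206720 := by omega
  rw [h4]
  decide

theorem card_S3J_odd : Odd (Nat.card (S3J h2 hω)) := by
  have h1 : Nat.card ((S3H h2 hω).map qm) ∣ Nat.card (S3H h2 hω) :=
    Subgroup.card_dvd_of_surjective _ (MonoidHom.subgroupMap_surjective qm (S3H h2 hω))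
  rw [← S3J_eq, card_S3H] at h1
  exact Odd.of_dvd_nat (by decide) h1

/-- independence of `u, v₁, v₂` modulo 3 -/
theorem ind3 (hu : (qm (eU h2 hω).g : J3 F ω) ^ 3 = 1) (hv1 : (qm (eV1 h2 hω).g : J3 F ω) ^ 3 = 1)
    (hv2 : (qm (eV2 h2 hω).g : J3 F ω) ^ 3 = 1) (a b c : ℤ)
    (h : (qm (eU h2 hω).g : J3 F ω) ^ a * qm (eV1 h2 hω).g ^ b * qm (eV2 h2 hω).g ^ c = 1) :
    (3 : ℤ) ∣ a ∧ (3 : ℤ) ∣ b ∧ (3 : ℤ) ∣ c := by
  have red : ∀ (x : J3 F ω), x ^ 3 = 1 → ∀ m : ℤ, x ^ m = x ^ (m % 3).toNat := by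
    intro x hx m
    have hx' : x ^ (3 : ℤ) = 1 := by
      rw [show (3 : ℤ) = ((3 : ℕ) : ℤ) from rfl, zpow_natCast]; exact hx
    rw [zpow_eq_zpow_emod m hx', ← zpow_natCast, Int.toNat_of_nonneg (Int.emod_nonneg _ (by norm_num))]
  rw [red _ hu a, red _ hv1 b, red _ hv2 c, ← map_pow, ← map_pow, ← map_pow, ← map_mul,
    ← map_mul] at h
  have ha : (a % 3).toNat < 3 := by omega
  have hb : (b % 3).toNat < 3 := by omega
  have hc : (c % 3).toNat < 3 := by omega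
  have hmt : mt ((eU h2 hω).g ^ (a % 3).toNat * (eV1 h2 hω).g ^ (b % 3).toNat *
      (eV2 h2 hω).g ^ (c % 3).toNat) =
      decR F ω (w3 (a % 3).toNat (b % 3).toNat (c % 3).toNat) := by
    rw [mt_mul, mt_mul, mt_pow, mt_pow, mt_pow, (eU h2 hω).hc, (eV1 h2 hω).hc, (eV2 h2 hω).hc,
      ← J3Out.decR_powR h2 hω, ← J3Out.decR_powR h2 hω, ← J3Out.decR_powR h2 hω,
      ← decR_mul h2 hω, ← decR_mul h2 hω]
    rfl
  have hz := (J3Out.qm_eq_one_iff h2 hω _ _ hmt).mp h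
  obtain ⟨e1, e2, e3⟩ := cInd ⟨_, ha⟩ ⟨_, hb⟩ ⟨_, hc⟩ hz
  have e1' : (a % 3).toNat = 0 := congrArg Fin.val e1
  have e2' : (b % 3).toNat = 0 := congrArg Fin.val e2
  have e3' : (c % 3).toNat = 0 := congrArg Fin.val e3
  refine ⟨?_, ?_, ?_⟩ <;> omega

/-- **The 3-part.** -/
theorem three_part {Γ : Type*} [Group Γ] [Finite Γ] (σ : Γ →* J3 F ω)
    (hs : Function.Surjective σ) (hc : σ.ker ≤ Subgroup.center Γ) :
    Nat.card ↥(⁅(S3J h2 hω).comap σ, (S3J h2 hω).comap σ⁆ ⊓ σ.ker) ∣ 3 := by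
  obtain ⟨X, hX⟩ := hs (qm (eX h2 hω).g)
  obtain ⟨C, hC⟩ := hs (qm (eC h2 hω).g)
  obtain ⟨Y, hYd⟩ : ∃ Y, Y = C * X * C⁻¹ := ⟨_, rfl⟩
  obtain ⟨U, hUd⟩ : ∃ U, U = ⁅X, Y⁆ := ⟨_, rfl⟩
  obtain ⟨V₁, hV₁d⟩ : ∃ V₁, V₁ = ⁅U, X⁆ := ⟨_, rfl⟩
  obtain ⟨V₂, hV₂d⟩ : ∃ V₂, V₂ = ⁅U, Y⁆ := ⟨_, rfl⟩
  obtain ⟨W, hWd⟩ : ∃ W, W = ⁅V₁, Y⁆ := ⟨_, rfl⟩
  have hY : σ Y = qm (eY h2 hω).g := by
    rw [hYd, map_mul, map_mul, map_inv, hX, hC, ← map_inv, ← map_mul, ← map_mul]; rfl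
  have hU : σ U = qm (eU h2 hω).g := by
    rw [hUd, map_commutatorElement, hX, hY, ← map_commutatorElement]; rfl
  have hV₁ : σ V₁ = qm (eV1 h2 hω).g := by
    rw [hV₁d, map_commutatorElement, hU, hX, ← map_commutatorElement]; rfl
  have hV₂ : σ V₂ = qm (eV2 h2 hω).g := by
    rw [hV₂d, map_commutatorElement, hU, hY, ← map_commutatorElement]; rfl
  have hW : σ W = qm (eW h2 hω).g := by
    rw [hWd, map_commutatorElement, hV₁, hY, ← map_commutatorElement]; rfl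
  have hW1 : (qm (eW h2 hω).g : J3 F ω) = 1 := qm_one h2 hω (eW h2 hω) cRel.2.1
  have hT : (S3J h2 hω).comap σ = Subgroup.closure {X, Y} ⊔ σ.ker := by
    have : S3J h2 hω = (Subgroup.closure {X, Y}).map σ := by
      rw [MonoidHom.map_closure, Set.image_pair, hX, hY]; rfl
    rw [this, Subgroup.comap_map_eq]
  -- the hypotheses of the core lemma
  have h11 : ⁅V₁, X⁆ ∈ σ.ker := by
    rw [MonoidHom.mem_ker, map_commutatorElement, hV₁, hX, ← map_commutatorElement]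
    exact qm_one h2 hω (CE.cm h2 hω (eV1 h2 hω) (eX h2 hω)) cRel.1
  have h12 : ⁅V₁, Y⁆ ∈ σ.ker := by
    rw [MonoidHom.mem_ker, map_commutatorElement, hV₁, hY, ← map_commutatorElement]
    exact qm_one h2 hω (CE.cm h2 hω (eV1 h2 hω) (eY h2 hω)) cRel.2.1
  have h21 : ⁅V₂, X⁆ ∈ σ.ker := by
    rw [MonoidHom.mem_ker, map_commutatorElement, hV₂, hX, ← map_commutatorElement]
    exact qm_one h2 hω (CE.cm h2 hω (eV2 h2 hω) (eX h2 hω)) cRel.2.2.1
  have h22 : ⁅V₂, Y⁆ ∈ σ.ker := by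
    rw [MonoidHom.mem_ker, map_commutatorElement, hV₂, hY, ← map_commutatorElement]
    exact qm_one h2 hω (CE.cm h2 hω (eV2 h2 hω) (eY h2 hω)) cRel.2.2.2.1
  have hUm : U ∈ Subgroup.closure ({U, V₁, V₂} : Set Γ) := Subgroup.subset_closure (by simp)
  have hV₁m : V₁ ∈ Subgroup.closure ({U, V₁, V₂} : Set Γ) := Subgroup.subset_closure (by simp)
  have hV₂m : V₂ ∈ Subgroup.closure ({U, V₁, V₂} : Set Γ) := Subgroup.subset_closure (by simp)
  have hX3 : X ^ 3 ∈ Subgroup.closure {U, V₁, V₂} ⊔ σ.ker := by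
    refine mem_sup_ker_of_map_eq σ _ (Subgroup.mul_mem _ hV₁m hV₂m) ?_
    have h := qm_one h2 hω (CE.mul h2 hω (CE.mul h2 hω (CE.mul h2 hω (eX h2 hω) (eX h2 hω))
      (eX h2 hω)) (CE.inv (CE.mul h2 hω (eV1 h2 hω) (eV2 h2 hω)))) cRel.2.2.2.2.1
    have h' : qm ((eX h2 hω).g * (eX h2 hω).g * (eX h2 hω).g *
        ((eV1 h2 hω).g * (eV2 h2 hω).g)⁻¹) = (1 : J3 F ω) := h
    rw [map_mul, map_inv, mul_inv_eq_one] at h'
    rw [map_pow, hX, map_mul, hV₁, hV₂, ← map_mul, ← h', map_mul, map_mul]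
    rw [pow_succ, pow_two]
  have hY3 : Y ^ 3 ∈ Subgroup.closure {U, V₁, V₂} ⊔ σ.ker := by
    refine mem_sup_ker_of_map_eq σ _ (Subgroup.mul_mem _ (Subgroup.mul_mem _ hV₁m hV₁m) hV₂m) ?_
    have h := qm_one h2 hω (CE.mul h2 hω (CE.mul h2 hω (CE.mul h2 hω (eY h2 hω) (eY h2 hω))
      (eY h2 hω)) (CE.inv (CE.mul h2 hω (CE.mul h2 hω (eV1 h2 hω) (eV1 h2 hω)) (eV2 h2 hω))))
      cRel.2.2.2.2.2.1
    have h' : qm ((eY h2 hω).g * (eY h2 hω).g * (eY h2 hω).g *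
        ((eV1 h2 hω).g * (eV1 h2 hω).g * (eV2 h2 hω).g)⁻¹) = (1 : J3 F ω) := h
    rw [map_mul, map_inv, mul_inv_eq_one] at h'
    rw [map_pow, hY, map_mul, map_mul, hV₁, hV₂, ← map_mul, ← map_mul, ← h', map_mul, map_mul]
    rw [pow_succ, pow_two]
  have hCr : C * Y * C⁻¹ * (X * Y)⁻¹ ∈ Subgroup.closure {U, V₁, V₂} ⊔ σ.ker := by
    refine mem_sup_ker_of_map_eq σ _ (Subgroup.mul_mem _ (Subgroup.mul_mem _
      (Subgroup.mul_mem _ hUm hUm) (Subgroup.mul_mem _ hV₁m hV₁m))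
      (Subgroup.mul_mem _ hV₂m hV₂m)) ?_
    have h := qm_one h2 hω (CE.mul h2 hω (CE.mul h2 hω (CE.mul h2 hω (CE.mul h2 hω (eC h2 hω)
      (eY h2 hω)) (CE.inv (eC h2 hω))) (CE.inv (CE.mul h2 hω (eX h2 hω) (eY h2 hω))))
      (CE.inv (CE.mul h2 hω (CE.mul h2 hω (CE.mul h2 hω (eU h2 hω) (eU h2 hω))
        (CE.mul h2 hω (eV1 h2 hω) (eV1 h2 hω))) (CE.mul h2 hω (eV2 h2 hω) (eV2 h2 hω)))))
      cRel.2.2.2.2.2.2.1
    have h' : qm ((eC h2 hω).g * (eY h2 hω).g * (eC h2 hω).g⁻¹ *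
        ((eX h2 hω).g * (eY h2 hω).g)⁻¹ * ((eU h2 hω).g * (eU h2 hω).g *
        ((eV1 h2 hω).g * (eV1 h2 hω).g) * ((eV2 h2 hω).g * (eV2 h2 hω).g))⁻¹) =
        (1 : J3 F ω) := h
    rw [map_mul, map_inv, mul_inv_eq_one] at h'
    simp only [map_mul, map_inv, hX, hY, hC, hU, hV₁, hV₂]
    simpa only [map_mul, map_inv] using h'
  have hU3k : U ^ 3 ∈ σ.ker := by
    rw [MonoidHom.mem_ker, map_pow, hU, ← map_pow]
    refine (J3Out.qm_eq_one_iff h2 hω _ (powR uP.1 3) ?_).mpr cRel.2.2.2.2.2.2.2.1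
    rw [mt_pow, (eU h2 hω).hc, ← J3Out.decR_powR h2 hω]
    rfl
  obtain ⟨n, hn, hUn⟩ : ∃ n : ℕ, Odd n ∧ U ^ n = 1 := by
    rw [hUd]
    refine exists_odd_pow_eq_one σ hs hc (S3J h2 hω) (card_S3J_odd h2 hω) ?_ ?_
    · rw [hX]; exact Subgroup.subset_closure (by simp)
    · rw [hY]; exact Subgroup.subset_closure (by simp)
  obtain ⟨hU3, hV13, hV23, hW3, hform⟩ := Cfsg.Agent.Lib.Helper91.J3MultB.coreB σ.ker hc X C Y U
    V₁ V₂ W hYd hUd hV₁d hV₂d hWd h11 h12 h21 h22 hX3 hY3 hCr hU3k n hn hUn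
  have hu3 : (qm (eU h2 hω).g : J3 F ω) ^ 3 = 1 := by rw [← hU, ← map_pow, hU3, map_one]
  have hv13 : (qm (eV1 h2 hω).g : J3 F ω) ^ 3 = 1 := by rw [← hV₁, ← map_pow, hV13, map_one]
  have hv23 : (qm (eV2 h2 hω).g : J3 F ω) ^ 3 = 1 := by rw [← hV₂, ← map_pow, hV23, map_one]
  have hK : ⁅(S3J h2 hω).comap σ, (S3J h2 hω).comap σ⁆ ⊓ σ.ker ≤ Subgroup.zpowers W := by
    rintro d ⟨hd1, hd2⟩
    rw [hT] at hd1
    obtain ⟨a, b, c, e, rfl⟩ := hform d hd1
    have hσ : σ (U ^ a * V₁ ^ b * V₂ ^ c * W ^ e) = 1 := hd2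
    rw [map_mul, map_mul, map_mul, map_zpow, map_zpow, map_zpow, map_zpow, hU, hV₁, hV₂, hW, hW1,
      one_zpow, mul_one] at hσ
    obtain ⟨⟨a', rfl⟩, ⟨b', rfl⟩, ⟨c', rfl⟩⟩ := ind3 h2 hω hu3 hv13 hv23 a b c hσ
    have z3 : ∀ g : Γ, g ^ 3 = 1 → ∀ m : ℤ, g ^ (3 * m) = 1 := by
      intro g hg m
      rw [zpow_mul, show (3 : ℤ) = ((3 : ℕ) : ℤ) from rfl, zpow_natCast, hg, one_zpow]
    rw [z3 U hU3, z3 V₁ hV13, z3 V₂ hV23, one_mul, one_mul, one_mul]
    exact Subgroup.zpow_mem_zpowers W e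
  have h1 := Subgroup.card_dvd_of_le hK
  rw [Nat.card_zpowers] at h1
  exact h1.trans (orderOf_dvd_of_pow_eq_one hW3)

end Grp

end Cfsg.Agent.Lib.Helper26.J3Mult
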