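import Cfsg.Agent.Lib.Helper26.J3Mult2
import Cfsg.Agent.Lib.Helper26.J3Mult3
import Cfsg.Agent.Lib.Helper26.J3Rep
import Cfsg.Agent.Lib.Helper66.PrimeMult
import Cfsg.Agent.Lib.Helper35.AltSix

/-!
# The Schur multiplier of `J3` is cyclic of order 3
Helper26.
-/

set_option autoImplicit false

namespace Cfsg.Agent.Lib.Helper26.J3Mult

open Cfsg.Spor Cfsg.Agent.Lib.Helper26.J3Main
open Cfsg.Agent.Lib.Helper26.J3Out (qm)
open scoped commutatorElement

universe u

theorem sq_not_dvd_J3 {p : ℕ} (hp : p.Prime) (h2 : p ≠ 2) (h3 : p ≠ 3) :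
    ¬ p ^ 2 ∣ 50232960 := by
  intro h
  have hcop : Nat.Coprime (p ^ 2) 31104 := by
    apply Nat.Coprime.pow_left
    rw [show (31104 : ℕ) = 2 ^ 7 * 3 ^ 5 from rfl]
    apply Nat.Coprime.mul_right
    · exact Nat.Coprime.pow_right _ ((Nat.coprime_primes hp Nat.prime_two).mpr h2)
    · exact Nat.Coprime.pow_right _ ((Nat.coprime_primes hp Nat.prime_three).mpr h3)
  have h' : p ^ 2 ∣ 1615 := by
    apply hcop.dvd_of_dvd_mul_left
    rw [show (31104 * 1615 : ℕ) = 50232960 from rfl]; exact h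
  have hle : p ^ 2 ≤ 1615 := Nat.le_of_dvd (by norm_num) h'
  have hp41 : p < 41 := by nlinarith
  have hp2 := hp.two_le
  interval_cases p <;> revert h' <;> decide

section Grp

variable {F : Type u} [Field F] [Finite F] {ω : F} (h2 : (2 : F) = 0) (hω : ω ^ 2 + ω + 1 = 0)
include h2 hω

/-- The order of the kernel of a finite stem extension of `J3` divides 3. -/
theorem j3_bound {Γ : Type u} [Group Γ] [Finite Γ] (σ : Γ →* J3 F ω)
    (hσ : Cfsg.IsStemExtension σ) : Nat.card σ.ker ∣ 3 := by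
  have hcard : Nat.card (J3 F ω) = 50232960 := (main_thm h2 hω).2.2.1
  have hfin : Finite (J3 F ω) := Nat.finite_of_card_ne_zero (by rw [hcard]; norm_num)
  refine Cfsg.Agent.Lib.Helper66.PrimeMult.card_ker_dvd_of_local σ hσ 3 ?_ (S3J h2 hω)
    (index_S3J h2 hω) (three_part h2 hω σ hσ.1 hσ.2.1)
  intro l hl hne
  by_cases hl2 : l = 2
  · subst hl2
    refine ⟨⊤, by rw [Subgroup.index_top]; exact Nat.coprime_one_left 2, ?_⟩
    intro z hz
    exact no_two h2 hω σ hσ z hz.2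
  · have hsq : ¬ l ^ 2 ∣ Nat.card (J3 F ω) := by
      rw [hcard]; exact sq_not_dvd_J3 hl hl2 hne
    obtain ⟨U, hU, hU1⟩ :=
      Cfsg.Agent.Lib.Helper35.AltSix.local_card_one_of_sq_not_dvd σ hσ.1 hσ.2.1 l hl hsq
    refine ⟨U, hU, ?_⟩
    intro z hz ho
    have hfinU : Finite ↥(⁅U.comap σ, U.comap σ⁆ ⊓ σ.ker) :=
      Nat.finite_of_card_ne_zero (by rw [hU1]; norm_num)
    have hsub : Subsingleton ↥(⁅U.comap σ, U.comap σ⁆ ⊓ σ.ker) :=
      (Nat.card_eq_one_iff_unique.mp hU1).1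
    have h1 : (⟨z, hz⟩ : ↥(⁅U.comap σ, U.comap σ⁆ ⊓ σ.ker)) = 1 := Subsingleton.elim _ _
    have h2' : z = 1 := congrArg Subtype.val h1
    rw [h2', orderOf_one] at ho
    exact hl.one_lt.ne' ho.symm

/-- **The Schur multiplier of `J3` is cyclic of order 3.** -/
theorem j3_multiplier : Cfsg.HasCyclicSchurMultiplier (J3 F ω) 3 := by
  have hcard : Nat.card (J3 F ω) = 50232960 := (main_thm h2 hω).2.2.1
  have hfin : Finite (J3 F ω) := Nat.finite_of_card_ne_zero (by rw [hcard]; norm_num)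
  refine Cfsg.Agent.Lib.Helper66.PrimeMult.hasCyclic_prime_of_bound 3 Nat.prime_three
    (fun Γ _ _ σ hσ => j3_bound h2 hω σ hσ) (qm : threeJ3 F ω →* J3 F ω)
    (QuotientGroup.mk'_surjective _) ?_ (eW h2 hω).g ?_ (eW_ne h2 hω)
  · exact (QuotientGroup.ker_mk' _).le
  · refine ⟨?_, ?_⟩
    · rw [commutator_def]
      exact Subgroup.commutator_mem_commutator (Subgroup.mem_top _) (Subgroup.mem_top _)
    · exact MonoidHom.mem_ker.mpr (qm_one h2 hω (eW h2 hω) cRel.2.1)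

end Grp

end Cfsg.Agent.Lib.Helper26.J3Mult
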