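import Cfsg.Agent.Lib.Helper26.J3Orb

/-!
# Kernel checks for the line orbits of `3.J3` (generated)
Helper26.
-/

set_option autoImplicit false
set_option maxRecDepth 100000

namespace Cfsg.Agent.Lib.Helper26.J3Orb

open Cfsg.Agent.Lib.Helper26.J3Code

theorem cA_3 : allR chkA 12 (2 ^ 12 * 3) = true := by decide +kernel
theorem cA_4 : allR chkA 12 (2 ^ 12 * 4) = true := by decide +kernel
theorem cA_5 : allR chkA 12 (2 ^ 12 * 5) = true := by decide +kernel

end Cfsg.Agent.Lib.Helper26.J3Orb
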