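import Cfsg.Agent.Lib.Helper26.J3Orb

/-!
# Kernel checks for the line orbits of `3.J3` (generated)
Helper26.
-/

set_option autoImplicit false
set_option maxRecDepth 100000

namespace Cfsg.Agent.Lib.Helper26.J3Orb

open Cfsg.Agent.Lib.Helper26.J3Code

theorem cC_0 : cntR chkC 14 (2 ^ 14 * 0) = 2709 := by decide +kernel
theorem cC_1 : cntR chkC 14 (2 ^ 14 * 1) = 8256 := by decide +kernel
theorem cC_2 : cntR chkC 14 (2 ^ 14 * 2) = 0 := by decide +kernel
theorem cC_3 : cntR chkC 14 (2 ^ 14 * 3) = 0 := by decide +kernel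
theorem cC_4 : cntR chkC 14 (2 ^ 14 * 4) = 8256 := by decide +kernel
theorem cC_5 : cntR chkC 14 (2 ^ 14 * 5) = 8128 := by decide +kernel
theorem cC_6 : cntR chkC 14 (2 ^ 14 * 6) = 8128 := by decide +kernel
theorem cC_7 : cntR chkC 14 (2 ^ 14 * 7) = 8128 := by decide +kernel
theorem cC_8 : cntR chkC 14 (2 ^ 14 * 8) = 0 := by decide +kernel
theorem cC_9 : cntR chkC 14 (2 ^ 14 * 9) = 0 := by decide +kernel
theorem cC_10 : cntR chkC 14 (2 ^ 14 * 10) = 0 := by decide +kernel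
theorem cC_11 : cntR chkC 14 (2 ^ 14 * 11) = 0 := by decide +kernel
theorem cC_12 : cntR chkC 14 (2 ^ 14 * 12) = 0 := by decide +kernel
theorem cC_13 : cntR chkC 14 (2 ^ 14 * 13) = 0 := by decide +kernel
theorem cC_14 : cntR chkC 14 (2 ^ 14 * 14) = 0 := by decide +kernel
theorem cC_15 : cntR chkC 14 (2 ^ 14 * 15) = 0 := by decide +kernel

end Cfsg.Agent.Lib.Helper26.J3Orb
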