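import Cfsg.Agent.Lib.Helper26.J3Orb

/-!
# Kernel checks for the line orbits of `3.J3` (generated)
Helper26.
-/

set_option autoImplicit false
set_option maxRecDepth 100000

namespace Cfsg.Agent.Lib.Helper26.J3Orb

open Cfsg.Agent.Lib.Helper26.J3Code

theorem cT2_6 : allR chkT2 12 (2 ^ 12 * 6) = true := by decide +kernel
theorem cT2_7 : allR chkT2 12 (2 ^ 12 * 7) = true := by decide +kernel
theorem cT2_8 : allR chkT2 12 (2 ^ 12 * 8) = true := by decide +kernel
theorem cT2_9 : allR chkT2 12 (2 ^ 12 * 9) = true := by decide +kernel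
theorem cT2_10 : allR chkT2 12 (2 ^ 12 * 10) = true := by decide +kernel

end Cfsg.Agent.Lib.Helper26.J3Orb
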