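import Cfsg.Agent.Lib.Helper26.J3Orb

/-!
# Kernel checks for the line orbits of `3.J3` (generated)
Helper26.
-/

set_option autoImplicit false
set_option maxRecDepth 100000

namespace Cfsg.Agent.Lib.Helper26.J3Orb

open Cfsg.Agent.Lib.Helper26.J3Code

theorem cT1_0 : allR chkT1 12 (2 ^ 12 * 0) = true := by decide +kernel
theorem cT1_1 : allR chkT1 12 (2 ^ 12 * 1) = true := by decide +kernel
theorem cT1_2 : allR chkT1 12 (2 ^ 12 * 2) = true := by decide +kernel
theorem cT1_3 : allR chkT1 12 (2 ^ 12 * 3) = true := by decide +kernel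
theorem cT1_4 : allR chkT1 12 (2 ^ 12 * 4) = true := by decide +kernel
theorem cT1_5 : allR chkT1 12 (2 ^ 12 * 5) = true := by decide +kernel
theorem cS1_0 : allR chkS1 12 (2 ^ 12 * 0) = true := by decide +kernel
theorem cS1_1 : allR chkS1 12 (2 ^ 12 * 1) = true := by decide +kernel
theorem cS1_2 : allR chkS1 12 (2 ^ 12 * 2) = true := by decide +kernel
theorem cS1_3 : allR chkS1 12 (2 ^ 12 * 3) = true := by decide +kernel
theorem cS1_4 : allR chkS1 12 (2 ^ 12 * 4) = true := by decide +kernel
theorem cS1_5 : allR chkS1 12 (2 ^ 12 * 5) = true := by decide +kernel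
theorem c0 : orb 0 = 1 := by decide +kernel

end Cfsg.Agent.Lib.Helper26.J3Orb
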