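import Cfsg.Agent.Lib.Helper26.J3Rep
import Cfsg.Agent.Lib.Helper26.J3Orb
import Cfsg.Agent.Lib.Helper26.J3OrbChkA1
import Cfsg.Agent.Lib.Helper26.J3OrbChkA2
import Cfsg.Agent.Lib.Helper26.J3OrbChkT
import Cfsg.Agent.Lib.Helper26.J3OrbChkI1
import Cfsg.Agent.Lib.Helper26.J3OrbChkI2
import Cfsg.Agent.Lib.Helper26.J3OrbChkS
import Cfsg.Agent.Lib.Helper26.J3OrbChkC

/-!
# Line orbits of `3.J3` on its 9-space: the orbit of the first basis line and the isotropic lines
Helper26.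
-/

set_option autoImplicit false

namespace Cfsg.Agent.Lib.Helper26.J3Orb

open Cfsg.Spor Cfsg.Agent.Lib.Helper26.J3Code Cfsg.Agent.Lib.Helper26.J3Main
open Cfsg.Agent.Lib.Helper26.J3Gens Cfsg.Agent.Lib.Helper26.J3Tab

/-! ### the kernel checks, assembled -/

theorem cA_all : ∀ i < n1, chkA i = true := by
  intro i hi
  refine allR_chunks chkA 12 6 ?_ i (by unfold n1 at hi; omega)
  intro k hk
  interval_cases k
  · exact cA_0
  · exact cA_1
  · exact cA_2
  · exact cA_3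
  · exact cA_4
  · exact cA_5

theorem cT1_all : ∀ i < n1, chkT1 i = true := by
  intro i hi
  refine allR_chunks chkT1 12 6 ?_ i (by unfold n1 at hi; omega)
  intro k hk
  interval_cases k
  · exact cT1_0
  · exact cT1_1
  · exact cT1_2
  · exact cT1_3
  · exact cT1_4
  · exact cT1_5

theorem cS1_all : ∀ i < n1, chkS1 i = true := by
  intro i hi
  refine allR_chunks chkS1 12 6 ?_ i (by unfold n1 at hi; omega)
  intro k hk
  interval_cases k
  · exact cS1_0
  · exact cS1_1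
  · exact cS1_2
  · exact cS1_3
  · exact cS1_4
  · exact cS1_5

theorem cT2_all : ∀ i < n2, chkT2 i = true := by
  intro i hi
  refine allR_chunks chkT2 12 11 ?_ i (by unfold n2 at hi; omega)
  intro k hk
  interval_cases k
  · exact cT2_0
  · exact cT2_1
  · exact cT2_2
  · exact cT2_3
  · exact cT2_4
  · exact cT2_5
  · exact cT2_6
  · exact cT2_7
  · exact cT2_8
  · exact cT2_9
  · exact cT2_10

theorem cS2_all : ∀ i < n2, chkS2 i = true := by
  intro i hi
  refine allR_chunks chkS2 12 11 ?_ i (by unfold n2 at hi; omega)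
  intro k hk
  interval_cases k
  · exact cS2_0
  · exact cS2_1
  · exact cS2_2
  · exact cS2_3
  · exact cS2_4
  · exact cS2_5
  · exact cS2_6
  · exact cS2_7
  · exact cS2_8
  · exact cS2_9
  · exact cS2_10

theorem cnt2_16 (f : Nat → Bool) (d : Nat) : cnt2 f d 16 = 0 + cntR f d (2 ^ d * 0)
    + cntR f d (2 ^ d * 1) + cntR f d (2 ^ d * 2) + cntR f d (2 ^ d * 3) + cntR f d (2 ^ d * 4)
    + cntR f d (2 ^ d * 5) + cntR f d (2 ^ d * 6) + cntR f d (2 ^ d * 7) + cntR f d (2 ^ d * 8)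
    + cntR f d (2 ^ d * 9) + cntR f d (2 ^ d * 10) + cntR f d (2 ^ d * 11)
    + cntR f d (2 ^ d * 12) + cntR f d (2 ^ d * 13) + cntR f d (2 ^ d * 14)
    + cntR f d (2 ^ d * 15) := rfl

theorem cC_all : cnt2 chkC 14 16 = 43605 := by
  rw [cnt2_16, cC_0, cC_1, cC_2, cC_3, cC_4, cC_5, cC_6, cC_7, cC_8, cC_9, cC_10, cC_11, cC_12,
    cC_13, cC_14, cC_15]

/-! ### facts about the tables -/

theorem orb_facts (i : Nat) (hi : i < n1) : (i + 1 < n1 → orb i < orb (i + 1)) ∧
    nrm (orb i) = true ∧ nrm (mulw (orb i)) = false ∧ nrm (mulw (mulw (orb i))) = false := by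
  have hc := cS1_all i hi
  unfold chkS1 at hc
  simp only [Bool.or_eq_true, Bool.and_eq_true, decide_eq_true_eq, Bool.not_eq_true'] at hc
  rcases hc with hc | ⟨⟨⟨h1, h2⟩, h3⟩, h4⟩
  · omega
  · refine ⟨fun h => ?_, h2, h3, h4⟩
    rcases h1 with h1 | h1
    · exact h1
    · omega

theorem orb_inj : ∀ i < n1, ∀ j < n1, orb i = orb j → i = j :=
  inj_of_adj orb n1 (fun i hi => (orb_facts i (by omega)).1 hi)

theorem iso_facts (i : Nat) (hi : i < n2) : (i + 1 < n2 → iso i < iso (i + 1)) ∧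
    nrm (iso i) = true ∧ isoR (iso i) = true := by
  have hc := cS2_all i hi
  unfold chkS2 at hc
  simp only [Bool.or_eq_true, Bool.and_eq_true, decide_eq_true_eq] at hc
  rcases hc with hc | ⟨⟨h1, h2⟩, h3⟩
  · omega
  · refine ⟨fun h => ?_, h2, h3⟩
    rcases h1 with h1 | h1
    · exact h1
    · omega

theorem iso_inj : ∀ i < n2, ∀ j < n2, iso i = iso j → i = j :=
  inj_of_adj iso n2 (fun i hi => (iso_facts i (by omega)).1 hi)

theorem iso_complete : ∀ c < 2 ^ 18, nrm c = true → isoR c = true → ∃ i < n2, iso i = c := by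
  classical
  have hS : ((Finset.range (2 ^ 14 * 16)).filter (fun c => chkC c = true)).card = 43605 := by
    rw [← cnt2_spec]; exact cC_all
  have hT : ((Finset.range n2).image iso).card = 43605 := by
    rw [Finset.card_image_of_injOn, Finset.card_range]
    · rfl
    · intro i hi j hj e
      exact iso_inj i (Finset.mem_range.mp hi) j (Finset.mem_range.mp hj) e
  have hsub : (Finset.range n2).image iso ⊆
      (Finset.range (2 ^ 14 * 16)).filter (fun c => chkC c = true) := by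
    intro c hc
    obtain ⟨i, hi, rfl⟩ := Finset.mem_image.mp hc
    rw [Finset.mem_filter, Finset.mem_range]
    have hf := iso_facts i (Finset.mem_range.mp hi)
    refine ⟨lt_of_lt_of_le (lookW_lt 18 ISOtab i) (by norm_num), ?_⟩
    unfold chkC
    rw [hf.2.1, hf.2.2]; rfl
  have hTS := Finset.eq_of_subset_of_card_le hsub (by rw [hS, hT])
  intro c hc h1 h2
  have hm : c ∈ (Finset.range (2 ^ 14 * 16)).filter (fun c => chkC c = true) := by
    rw [Finset.mem_filter, Finset.mem_range]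
    refine ⟨lt_of_lt_of_le hc (by norm_num), ?_⟩
    unfold chkC
    rw [h1, h2]; rfl
  rw [← hTS] at hm
  obtain ⟨i, hi, e⟩ := Finset.mem_image.mp hm
  exact ⟨i, Finset.mem_range.mp hi, e⟩

theorem mulw3 (c : Nat) (hc : c < 2 ^ 18) : mulw (mulw (mulw c)) = c := by
  obtain ⟨ω, hω⟩ := J3Rep.exists_omega J3Rep.F4 J3Rep.F4_card
  have h2 := J3Rep.two_eq_zero J3Rep.F4 J3Rep.F4_card
  apply vec_inj h2 hω (mulw_lt _) hc
  rw [vec_mulw h2 hω, vec_mulw h2 hω, vec_mulw h2 hω, smul_smul, smul_smul]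
  have : ω * ω * ω = 1 := by linear_combination (ω - 1) * hω
  rw [this, one_smul]

theorem mulw_zero : mulw 0 = 0 := by decide

theorem exists_nrm (c : Nat) (hc : c < 2 ^ 18) (hne : c ≠ 0) :
    nrm c = true ∨ nrm (mulw c) = true ∨ nrm (mulw (mulw c)) = true := by
  have h3 := mulw3 c hc
  have h1 : mulw c ≠ 0 := by
    intro h
    rw [h, mulw_zero, mulw_zero] at h3
    exact hne h3.symm
  have h2 : mulw (mulw c) ≠ 0 := by
    intro h
    rw [h, mulw_zero] at h3
    exact hne h3.symm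
  rw [nrm_iff, nrm_iff, nrm_iff, h3]
  generalize mulw (mulw c) = y at *
  generalize mulw c = x at *
  omega

/-! ### meaning -/

section Field

variable {F : Type*} [Field F] {ω : F} (h2 : (2 : F) = 0) (hω : ω ^ 2 + ω + 1 = 0)

include h2 hω

theorem step_a (i : Nat) (hi : i < n1) : Nat.div (nxa i) 4 < n1 ∧ ∃ s : F, s ≠ 0 ∧
    ((aG h2 hω : GL F9 F) : Matrix F9 F9 F).mulVec (vec F ω (orb i))
      = s • vec F ω (orb (Nat.div (nxa i) 4)) := by
  have hc := cA_all i hi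
  unfold chkA at hc
  simp only [Bool.or_eq_true, Bool.and_eq_true, decide_eq_true_eq] at hc
  rcases hc with hc | ⟨⟨⟨e1, e2⟩, e3⟩, e4⟩
  · omega
  · refine ⟨e1, ?_⟩
    obtain ⟨s, hs, e⟩ := vec_mulwk h2 hω (Nat.mod (nxa i) 4) (orb (Nat.div (nxa i) 4))
    refine ⟨s, hs, ?_⟩
    show (decR F ω ga).mulVec _ = _
    rw [mulVec_vec h2 hω ga gaT tr_ab.1, e3, e]

theorem step_b (i : Nat) (hi : i < n1) : Nat.div (nxb i) 4 < n1 ∧ ∃ s : F, s ≠ 0 ∧
    ((bG h2 hω : GL F9 F) : Matrix F9 F9 F).mulVec (vec F ω (orb i))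
      = s • vec F ω (orb (Nat.div (nxb i) 4)) := by
  have hc := cA_all i hi
  unfold chkA at hc
  simp only [Bool.or_eq_true, Bool.and_eq_true, decide_eq_true_eq] at hc
  rcases hc with hc | ⟨⟨⟨e1, e2⟩, e3⟩, e4⟩
  · omega
  · refine ⟨e2, ?_⟩
    obtain ⟨s, hs, e⟩ := vec_mulwk h2 hω (Nat.mod (nxb i) 4) (orb (Nat.div (nxb i) 4))
    refine ⟨s, hs, ?_⟩
    show (decR F ω gb).mulVec _ = _
    rw [mulVec_vec h2 hω gb gbT tr_ab.2, e4, e]

/-- `g` maps the lines of the first table among themselves -/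
def Pcl (F : Type*) [Field F] (ω : F) (g : GL F9 F) : Prop :=
  ∀ i < n1, ∃ j < n1, ∃ s : F, s ≠ 0 ∧
    (g : Matrix F9 F9 F).mulVec (vec F ω (orb i)) = s • vec F ω (orb j)

omit h2 hω in
theorem Pcl_one : Pcl F ω 1 := fun i hi => ⟨i, hi, 1, one_ne_zero, by simp⟩

omit h2 hω in
theorem Pcl_mul {g h : GL F9 F} (hg : Pcl F ω g) (hh : Pcl F ω h) : Pcl F ω (g * h) := by
  intro i hi
  obtain ⟨j, hj, s, hs, e⟩ := hh i hi
  obtain ⟨k, hk, s', hs', e'⟩ := hg j hj
  refine ⟨k, hk, s * s', mul_ne_zero hs hs', ?_⟩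
  rw [Units.val_mul, ← Matrix.mulVec_mulVec, e, Matrix.mulVec_smul, e', smul_smul]

omit h2 hω in
theorem Pcl_pow {g : GL F9 F} (hg : Pcl F ω g) : ∀ n : ℕ, Pcl F ω (g ^ n)
  | 0 => by rw [pow_zero]; exact Pcl_one
  | n + 1 => by rw [pow_succ]; exact Pcl_mul (Pcl_pow hg n) hg

theorem Pcl_all [Finite F] (g : GL F9 F) (hg : g ∈ threeJ3 F ω) : Pcl F ω g := by
  rw [J_eq h2 hω, G0] at hg
  have ha : Pcl F ω (aG h2 hω) := fun i hi =>
    let ⟨h1, s, hs, e⟩ := step_a h2 hω i hi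
    ⟨_, h1, s, hs, e⟩
  have hb : Pcl F ω (bG h2 hω) := fun i hi =>
    let ⟨h1, s, hs, e⟩ := step_b h2 hω i hi
    ⟨_, h1, s, hs, e⟩
  induction hg using Subgroup.closure_induction'' with
  | mem x hx =>
    rcases hx with rfl | rfl
    · exact ha
    · exact hb
  | inv_mem x hx =>
    rcases hx with rfl | rfl
    · have : (aG h2 hω)⁻¹ = aG h2 hω ^ 18 :=
        inv_eq_of_mul_eq_one_right (by rw [← pow_succ', aG_pow h2 hω])
      rw [this]; exact Pcl_pow ha 18
    · have : (bG h2 hω)⁻¹ = bG h2 hω ^ 18 :=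
        inv_eq_of_mul_eq_one_right (by rw [← pow_succ', bG_pow h2 hω])
      rw [this]; exact Pcl_pow hb 18
  | one => exact Pcl_one
  | mul x y _ _ hx hy => exact Pcl_mul hx hy

theorem reach1 [Finite F] : ∀ d, ∀ i < n1, t1d i = d → ∃ g ∈ threeJ3 F ω, ∃ s : F, s ≠ 0 ∧
    (g : Matrix F9 F9 F).mulVec (vec F ω (orb 0)) = s • vec F ω (orb i) := by
  intro d
  induction d using Nat.strong_induction_on with
  | _ d ih =>
    intro i hi hd
    have hc := cT1_all i hi
    unfold chkT1 at hc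
    simp only [Bool.or_eq_true, Bool.and_eq_true, decide_eq_true_eq] at hc
    rcases hc with (hc | hc) | ⟨⟨hp, hdep⟩, hnx⟩
    · omega
    · subst hc
      exact ⟨1, Subgroup.one_mem _, 1, one_ne_zero, by simp⟩
    · obtain ⟨g, hg, s, hs, e⟩ := ih (t1d (t1p i)) (by omega) (t1p i) hp rfl
      cases hs0 : Nat.beq (t1s i) 0 with
      | true =>
        rw [hs0, cond_true] at hnx
        obtain ⟨-, s', hs', e'⟩ := step_a h2 hω (t1p i) hp
        rw [hnx] at e'
        refine ⟨aG h2 hω * g, mul_mem (aG_mem h2 hω) hg, s * s', mul_ne_zero hs hs', ?_⟩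
        rw [Units.val_mul, ← Matrix.mulVec_mulVec, e, Matrix.mulVec_smul, e', smul_smul]
      | false =>
        rw [hs0, cond_false] at hnx
        obtain ⟨-, s', hs', e'⟩ := step_b h2 hω (t1p i) hp
        rw [hnx] at e'
        refine ⟨bG h2 hω * g, mul_mem (bG_mem h2 hω) hg, s * s', mul_ne_zero hs hs', ?_⟩
        rw [Units.val_mul, ← Matrix.mulVec_mulVec, e, Matrix.mulVec_smul, e', smul_smul]

theorem reach2 [Finite F] : ∀ d, ∀ i < n2, t2d i = d → ∃ g ∈ threeJ3 F ω, ∃ s : F, s ≠ 0 ∧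
    (g : Matrix F9 F9 F).mulVec (vec F ω (iso 0)) = s • vec F ω (iso i) := by
  intro d
  induction d using Nat.strong_induction_on with
  | _ d ih =>
    intro i hi hd
    have hc := cT2_all i hi
    unfold chkT2 at hc
    simp only [Bool.or_eq_true, Bool.and_eq_true, decide_eq_true_eq] at hc
    rcases hc with (hc | hc) | ⟨⟨hp, hdep⟩, hnx⟩
    · omega
    · subst hc
      exact ⟨1, Subgroup.one_mem _, 1, one_ne_zero, by simp⟩
    · obtain ⟨g, hg, s, hs, e⟩ := ih (t2d (t2p i)) (by omega) (t2p i) hp rfl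
      obtain ⟨s', hs', e'⟩ := vec_mulwk h2 hω (t2k i) (iso i)
      cases hs0 : Nat.beq (t2s i) 0 with
      | true =>
        rw [hs0, cond_true] at hnx
        refine ⟨aG h2 hω * g, mul_mem (aG_mem h2 hω) hg, s * s', mul_ne_zero hs hs', ?_⟩
        rw [Units.val_mul, ← Matrix.mulVec_mulVec, e, Matrix.mulVec_smul]
        show s • (decR F ω ga).mulVec _ = _
        rw [mulVec_vec h2 hω ga gaT tr_ab.1, hnx, e', smul_smul]
      | false =>
        rw [hs0, cond_false] at hnx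
        refine ⟨bG h2 hω * g, mul_mem (bG_mem h2 hω) hg, s * s', mul_ne_zero hs hs', ?_⟩
        rw [Units.val_mul, ← Matrix.mulVec_mulVec, e, Matrix.mulVec_smul]
        show s • (decR F ω gb).mulVec _ = _
        rw [mulVec_vec h2 hω gb gbT tr_ab.2, hnx, e', smul_smul]

theorem orb_lines [Fintype F] (hF : Fintype.card F = 4) (i j : Nat) (hi : i < n1) (hj : j < n1)
    (h : Submodule.span F {vec F ω (orb i)} = Submodule.span F {vec F ω (orb j)}) : i = j := by
  have hci := (orb_facts i hi).2.1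
  have hcj := (orb_facts j hj).2.2
  have hne : orb i ≠ 0 := ((nrm_iff _).mp hci).1
  rcases line_eq h2 hω hF (c := orb i) (c' := orb j) (lookW_lt 18 ORBtab i)
    (lookW_lt 18 ORBtab j) hne h with e | e | e
  · exact orb_inj i hi j hj e
  · rw [e, hcj.1] at hci
    exact absurd hci (by simp)
  · rw [e, hcj.2] at hci
    exact absurd hci (by simp)

/-- the orbit of the first basis line -/
theorem orbit_card [Fintype F] (hF : Fintype.card F = 4) :
    {L : Submodule F (F9 → F) | ∃ g ∈ threeJ3 F ω,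
      L = Submodule.span F {(g : Matrix F9 F9 F).mulVec (Pi.single (0 : F9) (1 : F))}}.ncard
      = 23256 := by
  have hset : {L : Submodule F (F9 → F) | ∃ g ∈ threeJ3 F ω,
      L = Submodule.span F {(g : Matrix F9 F9 F).mulVec (Pi.single (0 : F9) (1 : F))}} =
      (fun i => Submodule.span F {vec F ω (orb i)}) '' {i | i < n1} := by
    have hv0 : Pi.single (0 : F9) (1 : F) = vec F ω (orb 0) := by
      rw [c0]; exact vec_one.symm
    ext L
    constructor
    · rintro ⟨g, hg, rfl⟩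
      obtain ⟨j, hj, s, hs, e⟩ := Pcl_all h2 hω g hg 0 (by unfold n1; norm_num)
      refine ⟨j, hj, ?_⟩
      rw [hv0, e]
      exact (Submodule.span_singleton_smul_eq (IsUnit.mk0 s hs) _).symm
    · rintro ⟨i, hi, rfl⟩
      obtain ⟨g, hg, s, hs, e⟩ := reach1 h2 hω _ i hi rfl
      refine ⟨g, hg, ?_⟩
      rw [hv0, e, Submodule.span_singleton_smul_eq (IsUnit.mk0 s hs)]
  have hinj : Set.InjOn (fun i => Submodule.span F {vec F ω (orb i)}) {i | i < n1} :=
    fun i hi j hj h => orb_lines h2 hω hF i j hi hj h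
  rw [hset, Set.InjOn.ncard_image hinj]
  have : {i | i < n1} = ((Finset.range n1 : Finset ℕ) : Set ℕ) := by
    ext i; simp
  rw [this, Set.ncard_coe_finset, Finset.card_range]; rfl

theorem iso_vec [Fintype F] (hF : Fintype.card F = 4) (v : F9 → F) (hv : v ≠ 0)
    (hiso : ∑ z, v z ^ 3 = 0) : ∃ i < n2, ∃ s : F, s ≠ 0 ∧ v = s • vec F ω (iso i) := by
  obtain ⟨c, hc, rfl⟩ := vec_surj h2 hω hF v
  have hne : c ≠ 0 := by
    rintro rfl
    exact hv vec_zero
  have h0 := omega_ne_zero hω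
  have hw3 : ω * ω * ω = 1 := by linear_combination (ω - 1) * hω
  have hmul : ∀ c' : Nat, ∑ z, vec F ω c' z ^ 3 = 0 → ∑ z, vec F ω (mulw c') z ^ 3 = 0 := by
    intro c' h
    rw [vec_mulw h2 hω]
    simp only [Pi.smul_apply, smul_eq_mul, mul_pow]
    rw [← Finset.mul_sum, h, mul_zero]
  have hi0 : isoR c = true := by rw [isoR_eq]; exact (iso_iff h2 hω c).mp hiso
  have hi1 : isoR (mulw c) = true := by
    rw [isoR_eq]; exact (iso_iff h2 hω _).mp (hmul c hiso)
  have hi2 : isoR (mulw (mulw c)) = true := by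
    rw [isoR_eq]; exact (iso_iff h2 hω _).mp (hmul _ (hmul c hiso))
  rcases exists_nrm c hc hne with h | h | h
  · obtain ⟨i, hi', e⟩ := iso_complete c hc h hi0
    exact ⟨i, hi', 1, one_ne_zero, by rw [e, one_smul]⟩
  · obtain ⟨i, hi', e⟩ := iso_complete (mulw c) (mulw_lt c) h hi1
    refine ⟨i, hi', ω * ω, mul_ne_zero h0 h0, ?_⟩
    rw [e, vec_mulw h2 hω, smul_smul, hw3, one_smul]
  · obtain ⟨i, hi', e⟩ := iso_complete (mulw (mulw c)) (mulw_lt _) h hi2
    refine ⟨i, hi', ω, h0, ?_⟩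
    rw [e, vec_mulw h2 hω, vec_mulw h2 hω, smul_smul, smul_smul, hw3, one_smul]

/-- the isotropic lines form one orbit -/
theorem iso_trans [Fintype F] (hF : Fintype.card F = 4) (v w : F9 → F) (hv : v ≠ 0) (hw : w ≠ 0)
    (hiv : ∑ z, v z ^ 3 = 0) (hiw : ∑ z, w z ^ 3 = 0) :
    ∃ g ∈ threeJ3 F ω, ∃ c : F, c ≠ 0 ∧ (g : Matrix F9 F9 F).mulVec v = c • w := by
  obtain ⟨i, hi, s, hs, rfl⟩ := iso_vec h2 hω hF v hv hiv
  obtain ⟨j, hj, t, ht, rfl⟩ := iso_vec h2 hω hF w hw hiw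
  obtain ⟨g, hg, a, ha, e⟩ := reach2 h2 hω _ i hi rfl
  obtain ⟨g', hg', b, hb, e'⟩ := reach2 h2 hω _ j hj rfl
  have e1 : ((g⁻¹ : GL F9 F) : Matrix F9 F9 F).mulVec (vec F ω (iso i))
      = a⁻¹ • vec F ω (iso 0) := by
    have : vec F ω (iso i) = a⁻¹ • (g : Matrix F9 F9 F).mulVec (vec F ω (iso 0)) := by
      rw [e, smul_smul, inv_mul_cancel₀ ha, one_smul]
    rw [this, Matrix.mulVec_smul, Matrix.mulVec_mulVec, ← Units.val_mul, inv_mul_cancel,
      Units.val_one, Matrix.one_mulVec]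
  refine ⟨g' * g⁻¹, mul_mem hg' (inv_mem hg), s * a⁻¹ * b * t⁻¹,
    mul_ne_zero (mul_ne_zero (mul_ne_zero hs (inv_ne_zero ha)) hb) (inv_ne_zero ht), ?_⟩
  rw [Units.val_mul, ← Matrix.mulVec_mulVec, Matrix.mulVec_smul, e1, Matrix.mulVec_smul,
    Matrix.mulVec_smul, e', smul_smul, smul_smul, smul_smul]
  congr 1
  field_simp

end Field

end Cfsg.Agent.Lib.Helper26.J3Orb
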