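-- S5006 piece CENTA (helper26): an involution of M24 with a fixed point fixes exactly an
-- octad; the pointwise stabiliser of that octad is a normal 2-subgroup of the centraliser
-- containing its own centraliser.
import Mathlib
import Cfsg.Agent.Lib.Helper35.M24BlkStmt
import Cfsg.Agent.Lib.Helper35.M24Fix

set_option autoImplicit false

namespace Cfsg.Agent.Lib.Helper26.M24BlkCENTA

open Cfsg Cfsg.Agent.Lib.Helper35.M24BlkStmt Cfsg.Agent.Lib.Helper35.M24Fix
  Cfsg.Agent.Lib.Helper7.M24Octad Cfsg.Agent.Lib.Helper7.M24Octad2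
  Cfsg.Agent.Lib.Helper35.PermAut
open scoped Pointwise

/-- An involution of `M24` fixes an even number of points of every octad. -/
theorem card_fixed_inter_octad {t : Equiv.Perm GolayPt} (ht : t ∈ M24) (ht2 : t * t = 1)
    {O : Finset GolayPt} (hO : O ∈ octads) : (O.filter (fun y => t y = y)).card % 2 = 0 := by
  have htt := involution_apply ht2
  have htO : t • O ∈ octads := smul_mem_octads ht hO
  set Y : Finset GolayPt := O ∩ t • O with hYdef
  have hYeven : Y.card % 2 = 0 := even_card_inter_octads hO htO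
  have hmem_tO : ∀ z, z ∈ t • O ↔ t z ∈ O := by
    intro z
    rw [← Finset.inv_smul_mem_iff]
    have : t⁻¹ • z = t z := by
      show t⁻¹ z = t z
      rw [Equiv.Perm.inv_eq_iff_eq, htt]
    rw [this]
  have hYinv : ∀ y ∈ Y, t y ∈ Y := by
    intro y hy
    rw [hYdef, Finset.mem_inter, hmem_tO] at hy ⊢
    exact ⟨hy.2, by rw [htt]; exact hy.1⟩
  have hfilter : Y.filter (fun y => t y = y) = O.filter (fun y => t y = y) := by
    ext y
    rw [Finset.mem_filter, Finset.mem_filter, hYdef, Finset.mem_inter, hmem_tO]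
    constructor
    · rintro ⟨⟨hyO, -⟩, hty⟩
      exact ⟨hyO, hty⟩
    · rintro ⟨hyO, hty⟩
      exact ⟨⟨hyO, by rw [hty]; exact hyO⟩, hty⟩
  have : Fact (Nat.Prime 2) := ⟨Nat.prime_two⟩
  have h1 := card_fixed_modEq t (p := 2) (n := 1) (by rw [pow_one, pow_two, ht2]) Y hYinv
  rw [hfilter] at h1
  have h1' : Y.card % 2 = (O.filter (fun y => t y = y)).card % 2 := h1
  omega

/-- At most four points lie in an octad avoiding a given further point. -/
theorem exists_octad_avoiding (A : Finset GolayPt) (hA : A.card ≤ 4) {d : GolayPt}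
    (hd : d ∉ A) : ∃ O ∈ octads, A ⊆ O ∧ d ∉ O := by
  have hsub : A ⊆ Finset.univ.erase d := fun z hz =>
    Finset.mem_erase.mpr ⟨fun h => hd (h ▸ hz), Finset.mem_univ z⟩
  have hcard : (Finset.univ.erase d : Finset GolayPt).card = 23 := by
    rw [Finset.card_erase_of_mem (Finset.mem_univ d), Finset.card_univ, card_golayPt]
  obtain ⟨A', hAA', hA'sub, hA'card⟩ :=
    Finset.exists_subsuperset_card_eq hsub hA (by rw [hcard]; norm_num)
  have hdA' : d ∉ A' := fun h => (Finset.mem_erase.mp (hA'sub h)).1 rfl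
  obtain ⟨e, he⟩ := exists_notMem_of_card_lt (insert d A')
    (by rw [Finset.card_insert_of_notMem hdA', hA'card]; norm_num)
  have heA' : e ∉ A' := fun h => he (Finset.mem_insert_of_mem h)
  obtain ⟨O1, hO1, hsO1⟩ := exists_octad_of_five (insert e A')
    (by rw [Finset.card_insert_of_notMem heA', hA'card])
  by_cases hdO1 : d ∈ O1
  · obtain ⟨e', he'⟩ := exists_notMem_of_card_lt O1 (by rw [hO1.2]; norm_num)
    have he'A' : e' ∉ A' := fun h => he' (hsO1 (Finset.mem_insert_of_mem h))
    obtain ⟨O2, hO2, hsO2⟩ := exists_octad_of_five (insert e' A')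
      (by rw [Finset.card_insert_of_notMem he'A', hA'card])
    refine ⟨O2, hO2, fun z hz => hsO2 (Finset.mem_insert_of_mem (hAA' hz)), ?_⟩
    intro hdO2
    have hsub5 : insert d A' ⊆ O1 ∩ O2 := by
      intro z hz
      rw [Finset.mem_insert] at hz
      rw [Finset.mem_inter]
      rcases hz with rfl | hz
      · exact ⟨hdO1, hdO2⟩
      · exact ⟨hsO1 (Finset.mem_insert_of_mem hz), hsO2 (Finset.mem_insert_of_mem hz)⟩
    have hc := Finset.card_le_card hsub5
    rw [Finset.card_insert_of_notMem hdA', hA'card] at hc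
    have h12 := octad_unique hO1 hO2 hc
    exact he' (h12 ▸ hsO2 (Finset.mem_insert_self e' A'))
  · exact ⟨O1, hO1, fun z hz => hsO1 (Finset.mem_insert_of_mem (hAA' hz)), hdO1⟩

/-- The fixed points of an involution of `M24` with a fixed point form an octad. -/
theorem fixedPts_mem_octads {t : Equiv.Perm GolayPt} (ht : t ∈ M24) (ht2 : t * t = 1)
    (ht1 : t ≠ 1) {p : GolayPt} (hp : t p = p) : fixedPts t ∈ octads := by
  have hpar : ∀ O ∈ octads, (O ∩ fixedPts t).card % 2 = 0 := by
    intro O hO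
    have h1 := card_fixed_inter_octad ht ht2 hO
    have h2 : O ∩ fixedPts t = O.filter (fun y => t y = y) := by
      ext y
      rw [Finset.mem_inter, Finset.mem_filter, mem_fixedPts]
    rw [h2]; exact h1
  have heven : (fixedPts t).card % 2 = 0 := by
    have : Fact (Nat.Prime 2) := ⟨Nat.prime_two⟩
    have h2 := card_fixed_modEq_univ t (p := 2) (n := 1) (by rw [pow_one, pow_two, ht2])
    rw [card_golayPt] at h2
    have h2' : 24 % 2 = (fixedPts t).card % 2 := h2
    omega
  have hpF : p ∈ fixedPts t := mem_fixedPts.mpr hp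
  have h6 : 6 ≤ (fixedPts t).card := by
    by_contra hcon
    push Not at hcon
    have hA : ((fixedPts t).erase p).card ≤ 4 := by
      rw [Finset.card_erase_of_mem hpF]; omega
    obtain ⟨O, hO, hAO, hpO⟩ :=
      exists_octad_avoiding ((fixedPts t).erase p) hA (Finset.notMem_erase p _)
    have hint : O ∩ fixedPts t = (fixedPts t).erase p := by
      ext z
      rw [Finset.mem_inter, Finset.mem_erase]
      constructor
      · rintro ⟨hzO, hzF⟩
        exact ⟨fun h => hpO (h ▸ hzO), hzF⟩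
      · rintro ⟨hzp, hzF⟩
        exact ⟨hAO (Finset.mem_erase.mpr ⟨hzp, hzF⟩), hzF⟩
    have h1 := hpar O hO
    rw [hint, Finset.card_erase_of_mem hpF] at h1
    have hpos : 0 < (fixedPts t).card := Finset.card_pos.mpr ⟨p, hpF⟩
    omega
  obtain ⟨s, hsF, hs⟩ := Finset.exists_subset_card_eq (s := fixedPts t) (n := 5) (by omega)
  obtain ⟨o, ho, hso⟩ := exists_octad_of_five s hs
  have hFo : fixedPts t ⊆ o := by
    intro x hx
    by_contra hxo
    exact ht1 (inv_eq_one_of_fix ht ht2 s hs ho hso (fun z hz => mem_fixedPts.mp (hsF hz)) hxo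
      (mem_fixedPts.mp hx))
  have heq : fixedPts t = o := by
    by_contra hne
    have hlt : fixedPts t ⊂ o := Finset.ssubset_iff_subset_ne.mpr ⟨hFo, hne⟩
    obtain ⟨a, hao, haF⟩ := Finset.exists_of_ssubset hlt
    obtain ⟨A, hAF, hA⟩ := Finset.exists_subset_card_eq (s := fixedPts t) (n := 3) (by omega)
    obtain ⟨x, hxo⟩ := exists_notMem_of_card_lt o (by rw [ho.2]; norm_num)
    have haA : a ∉ A := fun h => haF (hAF h)
    have hxA : x ∉ A := fun h => hxo (hFo (hAF h))
    have hxa : x ≠ a := fun h => hxo (h ▸ hao)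
    have hc5 : (insert x (insert a A)).card = 5 := by
      rw [Finset.card_insert_of_notMem, Finset.card_insert_of_notMem haA, hA]
      rw [Finset.mem_insert]
      rintro (h | h)
      · exact hxa h
      · exact hxA h
    obtain ⟨O', hO', hsO'⟩ := exists_octad_of_five _ hc5
    have hxO' : x ∈ O' := hsO' (Finset.mem_insert_self _ _)
    have haO' : a ∈ O' := hsO' (Finset.mem_insert_of_mem (Finset.mem_insert_self _ _))
    have hAO' : A ⊆ O' := fun z hz =>
      hsO' (Finset.mem_insert_of_mem (Finset.mem_insert_of_mem hz))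
    have hne' : O' ≠ o := fun h => hxo (h ▸ hxO')
    have hint : O' ∩ fixedPts t = A := by
      ext z
      rw [Finset.mem_inter]
      constructor
      · rintro ⟨hzO', hzF⟩
        by_contra hzA
        have hza : z ≠ a := fun h => haF (h ▸ hzF)
        have hsub5 : insert z (insert a A) ⊆ O' ∩ o := by
          intro w hw
          rw [Finset.mem_insert, Finset.mem_insert] at hw
          rw [Finset.mem_inter]
          rcases hw with rfl | rfl | hw
          · exact ⟨hzO', hFo hzF⟩
          · exact ⟨haO', hao⟩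
          · exact ⟨hAO' hw, hFo (hAF hw)⟩
        have hc : (insert z (insert a A)).card = 5 := by
          rw [Finset.card_insert_of_notMem, Finset.card_insert_of_notMem haA, hA]
          rw [Finset.mem_insert]
          rintro (h | h)
          · exact hza h
          · exact hzA h
        have h5 := Finset.card_le_card hsub5
        rw [hc] at h5
        exact hne' (octad_unique hO' ho h5)
      · intro hzA
        exact ⟨hAO' hzA, hAF hzA⟩
    have h1 := hpar O' hO'
    rw [hint, hA] at h1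
    omega
  rw [heq]; exact ho

/-- An element of `M24` fixing an octad pointwise and a point outside it is trivial. -/
theorem eq_one_of_fix_octad {o : Finset GolayPt} (ho : o ∈ octads) {q : Equiv.Perm GolayPt}
    (hq : q ∈ M24) (hqo : ∀ z ∈ o, q z = z) {x : GolayPt} (hxo : x ∉ o) (hqx : q x = x) :
    q = 1 := by
  obtain ⟨s, hso, hs⟩ := Finset.exists_subset_card_eq (s := o) (n := 5) (by rw [ho.2]; norm_num)
  have hne : (o \ s).Nonempty := by
    rw [← Finset.card_pos, Finset.card_sdiff_of_subset hso, hs, ho.2]; norm_num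
  obtain ⟨y, hy⟩ := hne
  rw [Finset.mem_sdiff] at hy
  exact eq_one_of_fix_seven hq s hs ho hso (fun z hz => hqo z (hso hz)) hy.1 hy.2 (hqo y hy.1)
    hxo hqx

/-- The pointwise stabiliser of an octad is transitive on the sixteen points outside it. -/
theorem exists_fix_map {o : Finset GolayPt} (ho : o ∈ octads) {x x' : GolayPt} (hx : x ∉ o)
    (hx' : x' ∉ o) :
    ∃ q ∈ M24 ⊓ fixingSubgroup (Equiv.Perm GolayPt) (o : Set GolayPt), q x = x' := by
  classical
  set Q := M24 ⊓ fixingSubgroup (Equiv.Perm GolayPt) (o : Set GolayPt) with hQ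
  have hfix : ∀ q ∈ Q, ∀ z ∈ o, q z = z := fun q hq z hz =>
    (mem_fixingSubgroup_iff (Equiv.Perm GolayPt)).mp hq.2 z (Finset.mem_coe.mpr hz)
  have hout : ∀ q ∈ Q, ∀ z, z ∉ o → q z ∉ o := by
    intro q hq z hz hqz
    have h1 := hfix q hq (q z) hqz
    exact hz (q.injective h1 ▸ hqz)
  let f : ↥Q → {z // z ∉ o} := fun q => ⟨q.1 x, hout q.1 q.2 x hx⟩
  have hf : Function.Injective f := by
    intro q q' h
    have h1 : q.1 x = q'.1 x := congrArg Subtype.val h
    have h2 : (q'.1⁻¹ * q.1) x = x := by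
      show q'.1⁻¹ (q.1 x) = x
      rw [h1]
      exact Equiv.Perm.inv_eq_iff_eq.mpr rfl
    have h3 : q'.1⁻¹ * q.1 ∈ Q := Q.mul_mem (Q.inv_mem q'.2) q.2
    have h4 := eq_one_of_fix_octad ho h3.1 (hfix _ h3) hx h2
    apply Subtype.ext
    rw [inv_mul_eq_one] at h4
    exact h4.symm
  have hcard : Nat.card {z // z ∉ o} = 16 := by
    have h1 : Nat.card {z // z ∉ o} = Nat.card ↥(oᶜ : Finset GolayPt) :=
      Nat.card_congr (Equiv.subtypeEquivRight (fun z => by simp))
    rw [h1, Nat.card_eq_fintype_card, Fintype.card_coe, Finset.card_compl, card_golayPt, ho.2]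
  have hbij : Function.Bijective f :=
    hf.bijective_of_nat_card_le (by rw [hcard, (octad_fix ho).1])
  obtain ⟨q, hq⟩ := hbij.2 ⟨x', hx'⟩
  exact ⟨q.1, q.2, congrArg Subtype.val hq⟩

theorem main : CentA := by
  intro t ht ht2 ht1 ⟨p, hp⟩
  have hF := fixedPts_mem_octads ht ht2 ht1 hp
  have hmem : ∀ z, z ∈ fixedPts t ↔ t z = z := fun z => mem_fixedPts
  generalize fixedPts t = o at hF hmem
  obtain ⟨hcard, hsq⟩ := octad_fix hF
  set Q := M24 ⊓ fixingSubgroup (Equiv.Perm GolayPt) (o : Set GolayPt) with hQ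
  have hfix : ∀ q ∈ Q, ∀ z ∈ o, q z = z := fun q hq z hz =>
    (mem_fixingSubgroup_iff (Equiv.Perm GolayPt)).mp hq.2 z (Finset.mem_coe.mpr hz)
  have hmemQ : ∀ q, q ∈ M24 → (∀ z ∈ o, q z = z) → q ∈ Q := fun q hq h =>
    ⟨hq, (mem_fixingSubgroup_iff (Equiv.Perm GolayPt)).mpr
      (fun z hz => h z (Finset.mem_coe.mp hz))⟩
  refine ⟨Q, inf_le_left, IsPGroup.of_card (n := 4) (by rw [hcard]; norm_num), ?_, ?_⟩
  · intro c hc hct q hq
    have hco : ∀ z ∈ o, c⁻¹ z ∈ o := by
      intro z hz
      rw [hmem] at hz ⊢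
      have h1 : t * c⁻¹ = c⁻¹ * t := by
        rw [eq_inv_mul_iff_mul_eq, ← mul_assoc, hct, mul_assoc, mul_inv_cancel, mul_one]
      have h2 := congrArg (fun f : Equiv.Perm GolayPt => f z) h1
      simp only [Equiv.Perm.mul_apply] at h2
      rw [h2, hz]
    apply hmemQ _ (M24.mul_mem (M24.mul_mem hc hq.1) (M24.inv_mem hc))
    intro z hz
    show c (q (c⁻¹ z)) = z
    rw [hfix q hq _ (hco z hz)]
    exact Equiv.apply_symm_apply c z
  · intro x hx hxQ
    have hQcomm : ∀ a ∈ Q, ∀ b ∈ Q, a * b = b * a := by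
      intro a ha b hb
      have ha' : a⁻¹ = a := inv_eq_of_mul_eq_one_left (hsq a ha)
      have hb' : b⁻¹ = b := inv_eq_of_mul_eq_one_left (hsq b hb)
      have hab : (a * b)⁻¹ = a * b := inv_eq_of_mul_eq_one_left (hsq (a * b) (Q.mul_mem ha hb))
      rw [← hab, mul_inv_rev, ha', hb']
    have hne : Q ≠ ⊥ := by
      intro h
      rw [h, Subgroup.card_bot] at hcard
      omega
    obtain ⟨⟨q0, hq0⟩, hq01⟩ := (Subgroup.ne_bot_iff_exists_ne_one).mp hne
    have hq0' : q0 ≠ 1 := fun h => hq01 (Subtype.ext h)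
    have hxo : ∀ (y : Equiv.Perm GolayPt), (∀ q ∈ Q, y * q = q * y) → ∀ z ∈ o, y z ∈ o := by
      intro y hyQ z hz
      by_contra hyz
      have h1 : q0 (y z) = y z := by
        have h2 := congrArg (fun f : Equiv.Perm GolayPt => f z) (hyQ q0 hq0)
        simp only [Equiv.Perm.mul_apply] at h2
        rw [← h2, hfix q0 hq0 z hz]
      exact hq0' (eq_one_of_fix_octad hF hq0.1 (hfix q0 hq0) hyz h1)
    have hxinvQ : ∀ q ∈ Q, x⁻¹ * q = q * x⁻¹ := by
      intro q hq
      rw [inv_mul_eq_iff_eq_mul, ← mul_assoc, hxQ q hq, mul_assoc, mul_inv_cancel, mul_one]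
    obtain ⟨z0, hz0⟩ := exists_notMem_of_card_lt o (by rw [hF.2]; norm_num)
    have hxz0 : x z0 ∉ o := by
      intro h
      have h1 := hxo x⁻¹ hxinvQ _ h
      have h1' : x⁻¹ (x z0) = z0 := Equiv.Perm.inv_eq_iff_eq.mpr rfl
      rw [h1'] at h1
      exact hz0 h1
    obtain ⟨q, hq, hqz⟩ := exists_fix_map hF hz0 hxz0
    have hyM : q⁻¹ * x ∈ M24 := M24.mul_mem (M24.inv_mem hq.1) hx
    have hyQ : ∀ q' ∈ Q, (q⁻¹ * x) * q' = q' * (q⁻¹ * x) := by
      intro q' hq'
      rw [mul_assoc, hxQ q' hq', ← mul_assoc, ← mul_assoc, hQcomm q⁻¹ (Q.inv_mem hq) q' hq']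
    have hyz0 : (q⁻¹ * x) z0 = z0 := by
      show q⁻¹ (x z0) = z0
      rw [← hqz]
      exact Equiv.Perm.inv_eq_iff_eq.mpr rfl
    have hyfix : ∀ w, w ∉ o → (q⁻¹ * x) w = w := by
      intro w hw
      obtain ⟨q', hq', hq'w⟩ := exists_fix_map hF hz0 hw
      have h2 := congrArg (fun f : Equiv.Perm GolayPt => f z0) (hyQ q' hq')
      simp only [Equiv.Perm.mul_apply] at h2
      rw [← hq'w]
      show q⁻¹ (x (q' z0)) = q' z0
      rw [h2]
      exact congrArg q' hyz0
    have hy1 : q⁻¹ * x = 1 := by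
      have hcompl : (oᶜ).card = 16 := by rw [Finset.card_compl, card_golayPt, hF.2]
      obtain ⟨s, hsc, hs⟩ := Finset.exists_subset_card_eq (s := oᶜ) (n := 5)
        (by rw [hcompl]; norm_num)
      obtain ⟨o', ho', hso'⟩ := exists_octad_of_five s hs
      have hso : ∀ z ∈ s, z ∉ o := fun z hz => Finset.mem_compl.mp (hsc hz)
      have hex : ∃ y6 ∈ o', y6 ∉ s ∧ y6 ∉ o := by
        by_contra hcon
        push Not at hcon
        have h1 : o' ∩ o = o' \ s := by
          ext z
          rw [Finset.mem_inter, Finset.mem_sdiff]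
          constructor
          · rintro ⟨hzo', hzo⟩
            exact ⟨hzo', fun h => hso z h hzo⟩
          · rintro ⟨hzo', hzs⟩
            exact ⟨hzo', hcon z hzo' hzs⟩
        have h2 := even_card_inter_octads ho' hF
        rw [h1, Finset.card_sdiff_of_subset hso', hs, ho'.2] at h2
        omega
      obtain ⟨y6, hy6o', hy6s, hy6o⟩ := hex
      obtain ⟨x7, hx7⟩ := exists_notMem_of_card_lt (o ∪ o') (by
        have h3 := Finset.card_union_le o o'
        rw [hF.2, ho'.2] at h3
        omega)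
      rw [Finset.mem_union, not_or] at hx7
      exact eq_one_of_fix_seven hyM s hs ho' hso' (fun z hz => hyfix z (hso z hz)) hy6o' hy6s
        (hyfix y6 hy6o) hx7.2 (hyfix x7 hx7.1)
    have hxq : x = q := by
      rw [inv_mul_eq_one] at hy1
      exact hy1.symm
    rw [hxq]; exact hq

end Cfsg.Agent.Lib.Helper26.M24BlkCENTA
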