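-- S5006 piece CENTB (helper26): a fixed-point-free involution of M24 with an explicit normal
-- 2-subgroup of its centraliser and a transversal; the centraliser has order at most 7680.
import Mathlib
import Cfsg.Agent.Lib.Helper35.M24BlkStmt

set_option autoImplicit false

namespace Cfsg.Agent.Lib.Helper26.M24BlkCENTB

open Cfsg Cfsg.Agent.Lib.Helper35.M24BlkStmt

/-- The elements of `M24` commuting with `t` are the products `τ * q`. -/
theorem cent_eq_prod (t : Equiv.Perm GolayPt) (Q : Subgroup (Equiv.Perm GolayPt))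
    (T S : Finset (Equiv.Perm GolayPt))
    (ht : t ∈ M24) (hQ : Q ≤ M24) (hQcard : Nat.card Q = 64)
    (hQt : ∀ q ∈ Q, q * t = t * q)
    (hT : ∀ τ ∈ T, τ ∈ M24 ∧ τ * t = t * τ ∧ ∀ q ∈ Q, τ * q * τ⁻¹ ∈ Q)
    (hTcard : T.card = 120)
    (hTinj : ∀ τ ∈ T, ∀ τ' ∈ T, τ⁻¹ * τ' ∈ Q → τ = τ')
    (hScard : S.card = 31878) (hS : ∀ x ∈ S, ∃ h ∈ M24, x = h * t * h⁻¹) :
    ∀ c ∈ M24, c * t = t * c → ∃ τ ∈ T, ∃ q ∈ Q, c = τ * q := by
  classical
  set t' : ↥M24 := ⟨t, ht⟩ with ht'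
  set C : Subgroup (ConjAct ↥M24) := MulAction.stabilizer (ConjAct ↥M24) t' with hC
  have hmemC : ∀ c : ↥M24, ConjAct.toConjAct c ∈ C ↔ (c : Equiv.Perm GolayPt) * t = t * c := by
    intro c
    rw [hC, MulAction.mem_stabilizer_iff, ConjAct.smul_def, ConjAct.ofConjAct_toConjAct,
      Subtype.ext_iff]
    show (c : Equiv.Perm GolayPt) * t * (c : Equiv.Perm GolayPt)⁻¹ = t ↔ _
    rw [mul_inv_eq_iff_eq_mul]
  -- the orbit has at least 31878 elements
  have horb : 31878 ≤ (MulAction.orbit (ConjAct ↥M24) t').ncard := by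
    have h1 : (S : Set (Equiv.Perm GolayPt)) ⊆
        (fun y : ↥M24 => (y : Equiv.Perm GolayPt)) '' (MulAction.orbit (ConjAct ↥M24) t') := by
      intro x hx
      obtain ⟨h, hh, rfl⟩ := hS x (Finset.mem_coe.mp hx)
      refine ⟨ConjAct.toConjAct (⟨h, hh⟩ : ↥M24) • t', ⟨_, rfl⟩, ?_⟩
      rw [ConjAct.smul_def, ConjAct.ofConjAct_toConjAct]
      rfl
    have h2 := Set.ncard_le_ncard h1 (Set.toFinite _)
    rw [Set.ncard_coe_finset, hScard, Set.ncard_image_of_injective _ Subtype.val_injective] at h2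
    exact h2
  have hcardC : Nat.card C ≤ 7680 := by
    have h1 := Subgroup.card_mul_index C
    rw [hC, MulAction.index_stabilizer, ← hC] at h1
    have h2 : Nat.card (ConjAct ↥M24) = 244823040 :=
      Cfsg.Agent.Lib.Helper7.M24Main.card_M24
    rw [h2] at h1
    by_contra hcon
    push Not at hcon
    have : 7681 * 31878 ≤ Nat.card C * (MulAction.orbit (ConjAct ↥M24) t').ncard :=
      Nat.mul_le_mul hcon horb
    omega
  -- the product map
  have hmem : ∀ (τ : {τ // τ ∈ T}) (q : ↥Q), (τ : Equiv.Perm GolayPt) * q ∈ M24 :=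
    fun τ q => M24.mul_mem (hT τ.1 τ.2).1 (hQ q.2)
  have hcomm : ∀ (τ : {τ // τ ∈ T}) (q : ↥Q),
      ((τ : Equiv.Perm GolayPt) * q) * t = t * ((τ : Equiv.Perm GolayPt) * q) := by
    intro τ q
    rw [mul_assoc, hQt q.1 q.2, ← mul_assoc, (hT τ.1 τ.2).2.1, mul_assoc]
  let f : {τ // τ ∈ T} × ↥Q → ↥C := fun x =>
    ⟨ConjAct.toConjAct (⟨(x.1 : Equiv.Perm GolayPt) * x.2, hmem x.1 x.2⟩ : ↥M24),
      (hmemC _).mpr (hcomm x.1 x.2)⟩
  have hf : Function.Injective f := by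
    rintro ⟨τ, q⟩ ⟨τ', q'⟩ h
    have h1 : (τ : Equiv.Perm GolayPt) * q = (τ' : Equiv.Perm GolayPt) * q' := by
      have := congrArg (fun c : ↥C => ((ConjAct.ofConjAct (c : ConjAct ↥M24) : ↥M24) :
        Equiv.Perm GolayPt)) h
      exact this
    have h2 : (τ : Equiv.Perm GolayPt)⁻¹ * τ' ∈ Q := by
      have : (τ : Equiv.Perm GolayPt)⁻¹ * τ' = q * (q' : Equiv.Perm GolayPt)⁻¹ := by
        rw [inv_mul_eq_iff_eq_mul, ← mul_assoc, h1, mul_assoc, mul_inv_cancel, mul_one]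
      rw [this]
      exact Q.mul_mem q.2 (Q.inv_mem q'.2)
    have h3 : (τ : Equiv.Perm GolayPt) = τ' := hTinj τ.1 τ.2 τ'.1 τ'.2 h2
    have h4 : (q : Equiv.Perm GolayPt) = q' := by
      rw [h3] at h1
      exact mul_left_cancel h1
    exact Prod.ext (Subtype.ext h3) (Subtype.ext h4)
  have hcard : Nat.card ({τ // τ ∈ T} × ↥Q) = 7680 := by
    rw [Nat.card_prod, hQcard]
    have : Nat.card {τ // τ ∈ T} = 120 := by
      rw [Nat.card_eq_fintype_card, Fintype.card_coe, hTcard]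
    rw [this]
  have hbij : Function.Bijective f :=
    hf.bijective_of_nat_card_le (by rw [hcard]; exact hcardC)
  intro c hc hct
  obtain ⟨⟨τ, q⟩, hx⟩ := hbij.2 ⟨ConjAct.toConjAct (⟨c, hc⟩ : ↥M24), (hmemC _).mpr hct⟩
  refine ⟨τ.1, τ.2, q.1, q.2, ?_⟩
  have := congrArg (fun c : ↥C => ((ConjAct.ofConjAct (c : ConjAct ↥M24) : ↥M24) :
    Equiv.Perm GolayPt)) hx
  exact this.symm

theorem main : CentB := by
  intro t Q T S ht ht2 htQ hQ hQcard hQt hT hTcard hTinj hTcen hScard hS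
  have key := cent_eq_prod t Q T S ht hQ hQcard hQt hT hTcard hTinj hScard hS
  refine ⟨Q, hQ, IsPGroup.of_card (n := 6) (by rw [hQcard]; norm_num), ?_, ?_⟩
  · intro c hc hct q hq
    obtain ⟨τ, hτ, q', hq', rfl⟩ := key c hc hct
    have : τ * q' * q * (τ * q')⁻¹ = τ * (q' * q * q'⁻¹) * τ⁻¹ := by group
    rw [this]
    exact (hT τ hτ).2.2 _ (Q.mul_mem (Q.mul_mem hq' hq) (Q.inv_mem hq'))
  · intro x hx hxQ
    obtain ⟨τ, hτ, q', hq', rfl⟩ := key x hx (hxQ t htQ)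
    exact hTcen τ hτ q' hq' hxQ

end Cfsg.Agent.Lib.Helper26.M24BlkCENTB
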