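import Cfsg.Agent.Lib.Helper27.Bits

/-!
Small sets of the 24 points as bit masks with increasing indices.
-/

set_option autoImplicit false

namespace Cfsg.Agent.Lib.Helper26.MaskSets

open Cfsg Cfsg.Agent.Lib.Helper27.Bits

theorem fsOf_single (x : GolayPt) : fsOf (2 ^ idx x) = {x} := by
  rw [setOf_two_pow _ (idx_lt x), pt_idx]

theorem fsOf_pair (x y : GolayPt) : fsOf (2 ^ idx x ||| 2 ^ idx y) = {x, y} := by
  rw [setOf_or, fsOf_single, fsOf_single]
  rfl

theorem fsOf_triple (x y z : GolayPt) : fsOf (2 ^ idx x ||| 2 ^ idx y ||| 2 ^ idx z) = {x, y, z} := by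
  rw [setOf_or, fsOf_pair, fsOf_single]
  ext p
  simp only [Finset.mem_union, Finset.mem_insert, Finset.mem_singleton]
  tauto

/-- a 2-element set is the set of a mask `2 ^ i ||| 2 ^ j` with `i < j < 24` -/
theorem exists_pair_mask (t : Finset GolayPt) (ht : t.card = 2) :
    ∃ i j, i < j ∧ j < 24 ∧ t = fsOf (2 ^ i ||| 2 ^ j) := by
  obtain ⟨x, y, hxy, rfl⟩ := Finset.card_eq_two.mp ht
  have hne : idx x ≠ idx y := fun h => hxy (idx_injective h)
  rcases lt_or_gt_of_ne hne with h | h
  · exact ⟨idx x, idx y, h, idx_lt y, (fsOf_pair x y).symm⟩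
  · exact ⟨idx y, idx x, h, idx_lt x, by rw [fsOf_pair, Finset.pair_comm]⟩

/-- a 3-element set is the set of a mask `2 ^ i ||| 2 ^ j ||| 2 ^ k` with `i < j < k < 24` -/
theorem exists_triple_mask (t : Finset GolayPt) (ht : t.card = 3) :
    ∃ i j k, i < j ∧ j < k ∧ k < 24 ∧ t = fsOf (2 ^ i ||| 2 ^ j ||| 2 ^ k) := by
  obtain ⟨x, y, z, hxy, hxz, hyz, rfl⟩ := Finset.card_eq_three.mp ht
  have h1 : idx x ≠ idx y := fun h => hxy (idx_injective h)
  have h2 : idx x ≠ idx z := fun h => hxz (idx_injective h)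
  have h3 : idx y ≠ idx z := fun h => hyz (idx_injective h)
  have key : ∀ a b c : GolayPt, idx a < idx b → idx b < idx c →
      ({x, y, z} : Finset GolayPt) = {a, b, c} →
      ∃ i j k, i < j ∧ j < k ∧ k < 24 ∧ ({x, y, z} : Finset GolayPt) = fsOf (2 ^ i ||| 2 ^ j ||| 2 ^ k) :=
    fun a b c hab hbc h => ⟨idx a, idx b, idx c, hab, hbc, idx_lt c, by rw [fsOf_triple, h]⟩
  have e : ∀ a b c : GolayPt, (a = x ∨ a = y ∨ a = z) → (b = x ∨ b = y ∨ b = z) →
      (c = x ∨ c = y ∨ c = z) → (x = a ∨ x = b ∨ x = c) → (y = a ∨ y = b ∨ y = c) →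
      (z = a ∨ z = b ∨ z = c) → ({x, y, z} : Finset GolayPt) = {a, b, c} := by
    intro a b c ha hb hc hx hy hz
    ext p
    simp only [Finset.mem_insert, Finset.mem_singleton]
    constructor
    · rintro (rfl | rfl | rfl)
      · exact hx
      · exact hy
      · exact hz
    · rintro (rfl | rfl | rfl)
      · exact ha
      · exact hb
      · exact hc
  rcases lt_or_gt_of_ne h1 with hxy' | hxy' <;> rcases lt_or_gt_of_ne h2 with hxz' | hxz' <;>
    rcases lt_or_gt_of_ne h3 with hyz' | hyz'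
  · exact key x y z hxy' hyz' rfl
  · exact key x z y hxz' hyz' (e x z y (by tauto) (by tauto) (by tauto) (by tauto) (by tauto) (by tauto))
  · omega
  · exact key z x y hxz' hxy' (e z x y (by tauto) (by tauto) (by tauto) (by tauto) (by tauto) (by tauto))
  · exact key y x z hxy' hxz' (e y x z (by tauto) (by tauto) (by tauto) (by tauto) (by tauto) (by tauto))
  · omega
  · exact key y z x hyz' hxz' (e y z x (by tauto) (by tauto) (by tauto) (by tauto) (by tauto) (by tauto))
  · exact key z y x hyz' hxy' (e z y x (by tauto) (by tauto) (by tauto) (by tauto) (by tauto) (by tauto))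

end Cfsg.Agent.Lib.Helper26.MaskSets
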