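import Cfsg.Agent.Lib.Helper27.Trans

/-!
Maximality of point stabilisers from generation certificates.

`isCoatom_stabilizer_of_gen`: abstract criterion.  If every object moved from the base object `s`
is, up to the stabiliser `H` of `s`, one of finitely many representatives `k • s`, and for each
such `k` every subgroup containing `H` and `k` is transitive on the orbit of `s`, then `H` is a
maximal subgroup.

`isCoatom_of_certs`: the same for the group of the length-24 code, with kernel-checkable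
certificates in the format of `Cfsg.Agent.Lib.Helper27.Cert`.
-/

set_option autoImplicit false

namespace Cfsg.Agent.Lib.Helper26.Maximal

open Cfsg Cfsg.Agent.Lib.Helper27.Bits Cfsg.Agent.Lib.Helper27.Golay Cfsg.Agent.Lib.Helper27.M24
  Cfsg.Agent.Lib.Helper27.Cert Cfsg.Agent.Lib.Helper27.Trans
open scoped Pointwise

/-- Abstract maximality criterion for the stabiliser of `s` in a subgroup `M`. -/
theorem isCoatom_stabilizer_of_gen {G X : Type*} [Group G] [MulAction G X] (M : Subgroup G) (s : X)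
    (reps : Set G)
    (hne : ∃ g ∈ M, g • s ≠ s)
    (hreps : ∀ k ∈ reps, k ∈ M)
    (hcls : ∀ g ∈ M, g • s ≠ s → ∃ k ∈ reps, ∃ h ∈ M, h • s = s ∧ g • s = h • k • s)
    (hgen : ∀ k ∈ reps, ∀ K : Subgroup G, (∀ h ∈ M, h • s = s → h ∈ K) → k ∈ K →
      ∀ g ∈ M, ∃ w ∈ K, w ∈ M ∧ w • s = g • s) :
    IsCoatom (MulAction.stabilizer M s) := by
  constructor
  · intro htop
    obtain ⟨g, hg, hgs⟩ := hne
    have h1 : (⟨g, hg⟩ : M) ∈ MulAction.stabilizer M s := by rw [htop]; trivial
    exact hgs h1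
  · intro K' hK'
    obtain ⟨x, hxK, hxH⟩ := SetLike.exists_of_lt hK'
    have hgs : (x : G) • s ≠ s := fun h => hxH h
    obtain ⟨k, hk, h, hh, hhs, hkeq⟩ := hcls x x.2 hgs
    have hHK : ∀ h ∈ M, h • s = s → h ∈ K'.map M.subtype := by
      intro h hh hhs
      exact ⟨⟨h, hh⟩, hK'.le (show (⟨h, hh⟩ : M) • s = s from hhs), rfl⟩
    have hxK' : (x : G) ∈ K'.map M.subtype := ⟨x, hxK, rfl⟩
    have hkM := hreps k hk
    have hkK : k ∈ K'.map M.subtype := by
      have h1 : ((h * k)⁻¹ * (x : G)) • s = s := by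
        rw [mul_smul, hkeq, ← mul_smul h k, inv_smul_smul]
      have h2 : (h * k)⁻¹ * (x : G) ∈ K'.map M.subtype :=
        hHK _ (M.mul_mem (M.inv_mem (M.mul_mem hh hkM)) x.2) h1
      have h3 : h ∈ K'.map M.subtype := hHK h hh hhs
      have h4 : k = h⁻¹ * ((x : G) * ((h * k)⁻¹ * (x : G))⁻¹) := by group
      rw [h4]
      exact Subgroup.mul_mem _ (Subgroup.inv_mem _ h3)
        (Subgroup.mul_mem _ hxK' (Subgroup.inv_mem _ h2))
    rw [eq_top_iff]
    intro y _
    obtain ⟨w, hw, -, hws⟩ := hgen k hk (K'.map M.subtype) hHK hkK y y.2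
    obtain ⟨w', hw', rfl⟩ := hw
    have h4 : (w'⁻¹ * y) ∈ MulAction.stabilizer M s := by
      show (w'⁻¹ * y) • s = s
      rw [mul_smul, inv_smul_eq_iff]
      exact hws.symm
    have h5 : w'⁻¹ * y ∈ K' := hK'.le h4
    have h6 : y = w' * (w'⁻¹ * y) := by group
    rw [h6]
    exact K'.mul_mem hw' h5

/-- Maximality of a stabiliser is inherited by the stabilisers of the translates. -/
theorem isCoatom_stabilizer_smul {G X : Type*} [Group G] [MulAction G X] (g : G) (s : X)
    (h : IsCoatom (MulAction.stabilizer G s)) : IsCoatom (MulAction.stabilizer G (g • s)) := by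
  rw [MulAction.stabilizer_smul_eq_stabilizer_map_conj]
  exact (OrderIso.isCoatom_iff (MulEquiv.mapSubgroup (MulAut.conj g)) _).mpr h

/-! ### words with a generator function -/

/-- act on a mask by a word (base 16 digits of `w`, lowest digit applied last) in the
generators whose tables are given by `gen` -/
noncomputable def wactF (gen : ℕ → ℕ) (n : ℕ) : ℕ → ℕ → ℕ :=
  Nat.rec (fun _ m => m)
    (fun _ ih w m => cond (Nat.beq w 0) m (pull (gen (w % 16)) (ih (w / 16) m))) n

theorem wactF_succ (gen : ℕ → ℕ) (n w m : ℕ) :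
    wactF gen (n + 1) w m = cond (Nat.beq w 0) m (pull (gen (w % 16)) (wactF gen n (w / 16) m)) :=
  rfl

theorem wactF_spec (H : Subgroup (Equiv.Perm GolayPt)) (gen : ℕ → ℕ)
    (hG : ∀ d < 16, validT (gen d) = true ∧ gperm (gen d) ∈ H) (n w : ℕ) :
    ∃ g ∈ H, ∀ m, g • fsOf m = fsOf (wactF gen n w m) := by
  induction n generalizing w with
  | zero => exact ⟨1, H.one_mem, fun m => one_smul _ _⟩
  | succ n ih =>
    cases hw : Nat.beq w 0
    · obtain ⟨g', hg', h'⟩ := ih (w / 16)
      obtain ⟨hv, hm⟩ := hG (w % 16) (Nat.mod_lt _ (by norm_num))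
      refine ⟨gperm (gen (w % 16)) * g', H.mul_mem hm hg', fun m => ?_⟩
      rw [wactF_succ, hw, mul_smul, h' m, gperm_smul hv]
      rfl
    · exact ⟨1, H.one_mem, fun m => by rw [wactF_succ, hw]; exact one_smul _ _⟩

/-! ### certificates -/

/-- all 16 lanes of `GH` are tables of elements of the group of the code whose action on the base
mask `ms` passes the test `fixb` -/
noncomputable def gensFixOK (GH ms : ℕ) (fixb : ℕ → Bool) : Bool :=
  allB 16 (fun d => inM24 (tget GH 120 d) && fixb (pull (tget GH 120 d) ms))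

/-- class certificate: every object `target c` either passes `fixb` or is the image of a class
representative `REPS[CLS[c]]` (with `CLS[c] < r`) under a word in the lanes of `GH` -/
noncomputable def clsOK (GH N WA CLS REPS r : ℕ) (fixb : ℕ → Bool) (target : ℕ → ℕ)
    (cnd : ℕ → Bool) : Bool :=
  allB N (fun c => !cnd c || (fixb (target c) || (Nat.blt (tget CLS 4 c) r &&
    Nat.beq (wactF (fun d => tget GH 120 d) 16 (tget WA 64 c) (tget REPS 24 (tget CLS 4 c)))
      (target c))))

/-- the generator function of the lanes of `GH` with lane 15 replaced by the table `T` -/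
noncomputable def genWith (GH T : ℕ) (d : ℕ) : ℕ := cond (Nat.beq d 15) T (tget GH 120 d)

/-- generation certificate: `T` is the table of an element of the group of the code carrying the
base mask `ms` to `rep`, and every object `target c` is the image of `ms` under a word in the
lanes `< 15` of `GH` and `T` -/
noncomputable def genOK (GH N WB T ms rep : ℕ) (target : ℕ → ℕ) (cnd : ℕ → Bool) : Bool :=
  inM24 T && (Nat.beq (pull T ms) rep &&
    allB N (fun c => !cnd c || Nat.beq (wactF (genWith GH T) 16 (tget WB 64 c) ms) (target c)))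

/-- Maximality of the stabiliser of the object `F (fsOf ms)` in the group of the length-24 code,
from certificates. -/
theorem isCoatom_of_certs {X : Type*} [MulAction (Equiv.Perm GolayPt) X]
    (F : Finset GolayPt → X) (hF : ∀ (g : Equiv.Perm GolayPt) (t : Finset GolayPt), g • F t = F (g • t))
    {GH N WA CLS REPS r ms : ℕ} {fixb : ℕ → Bool} {target : ℕ → ℕ} {cnd : ℕ → Bool}
    (Ts WBs : ℕ → ℕ)
    (hfix : ∀ m, fixb m = true → F (fsOf m) = F (fsOf ms))
    (hG : gensFixOK GH ms fixb = true)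
    (hΩ : ∀ g ∈ M24, ∃ c < N, cnd c = true ∧ g • fsOf ms = fsOf (target c))
    (hne : ∃ g ∈ M24, g • F (fsOf ms) ≠ F (fsOf ms))
    (hA : clsOK GH N WA CLS REPS r fixb target cnd = true)
    (hB : ∀ i < r, genOK GH N (WBs i) (Ts i) ms (tget REPS 24 i) target cnd = true) :
    IsCoatom (MulAction.stabilizer M24 (F (fsOf ms))) := by
  -- the lanes of GH
  have hlane : ∀ d < 16, validT (tget GH 120 d) = true ∧ gperm (tget GH 120 d) ∈ M24 ∧
      gperm (tget GH 120 d) • F (fsOf ms) = F (fsOf ms) := by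
    intro d hd
    have h1 := (allB_iff _ _).mp hG d hd
    rw [Bool.and_eq_true] at h1
    refine ⟨inM24_valid h1.1, gperm_mem_M24 h1.1, ?_⟩
    rw [hF, gperm_smul (inM24_valid h1.1)]
    exact hfix _ h1.2
  -- the representatives
  have hrep : ∀ i < r, validT (Ts i) = true ∧ gperm (Ts i) ∈ M24 ∧
      gperm (Ts i) • fsOf ms = fsOf (tget REPS 24 i) := by
    intro i hi
    have h1 := hB i hi
    unfold genOK at h1
    rw [Bool.and_eq_true, Bool.and_eq_true] at h1
    refine ⟨inM24_valid h1.1, gperm_mem_M24 h1.1, ?_⟩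
    rw [gperm_smul (inM24_valid h1.1), Nat.eq_of_beq_eq_true h1.2.1]
  refine isCoatom_stabilizer_of_gen M24 (F (fsOf ms)) {k | ∃ i < r, k = gperm (Ts i)} hne ?_ ?_ ?_
  · rintro k ⟨i, hi, rfl⟩
    exact (hrep i hi).2.1
  · intro g hg hgs
    obtain ⟨c, hc, hcc, hgc⟩ := hΩ g hg
    have h1 := (allB_iff _ _).mp hA c hc
    rw [hcc] at h1
    simp only [Bool.not_true, Bool.false_or, Bool.or_eq_true, Bool.and_eq_true] at h1
    rcases h1 with h1 | ⟨h1, h2⟩
    · exfalso
      apply hgs
      rw [hF, hgc]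
      exact hfix _ h1
    · have hi : tget CLS 4 c < r := Nat.blt_eq.mp h1
      obtain ⟨h, hh, hh'⟩ := wactF_spec
        (M24 ⊓ MulAction.stabilizer (Equiv.Perm GolayPt) (F (fsOf ms))) (fun d => tget GH 120 d)
        (fun d hd => ⟨(hlane d hd).1, (hlane d hd).2.1, (hlane d hd).2.2⟩) 16 (tget WA 64 c)
      refine ⟨gperm (Ts (tget CLS 4 c)), ⟨_, hi, rfl⟩, h, hh.1, hh.2, ?_⟩
      rw [hF, hgc, ← Nat.eq_of_beq_eq_true h2, ← hh', hF, hF, (hrep _ hi).2.2]
  · rintro k ⟨i, hi, rfl⟩ K hHK hkK g hg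
    obtain ⟨c, hc, hcc, hgc⟩ := hΩ g hg
    have h1 := hB i hi
    unfold genOK at h1
    rw [Bool.and_eq_true, Bool.and_eq_true] at h1
    have h2 := (allB_iff _ _).mp h1.2.2 c hc
    rw [hcc] at h2
    simp only [Bool.not_true, Bool.false_or] at h2
    have hgens : ∀ d < 16, validT (genWith GH (Ts i) d) = true ∧
        gperm (genWith GH (Ts i) d) ∈ K ⊓ M24 := by
      intro d hd
      unfold genWith
      cases hd15 : Nat.beq d 15
      · exact ⟨(hlane d hd).1, hHK _ (hlane d hd).2.1 (hlane d hd).2.2, (hlane d hd).2.1⟩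
      · exact ⟨(hrep i hi).1, hkK, (hrep i hi).2.1⟩
    obtain ⟨w, hw, hw'⟩ := wactF_spec (K ⊓ M24) (genWith GH (Ts i)) hgens 16 (tget (WBs i) 64 c)
    refine ⟨w, hw.1, hw.2, ?_⟩
    rw [hF, hF, hgc, hw', Nat.eq_of_beq_eq_true h2]

end Cfsg.Agent.Lib.Helper26.Maximal
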