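import Cfsg.Agent.Lib.Helper26.Maximal

/-!
A cheaper form of the maximality certificates of `Cfsg.Agent.Lib.Helper26.Maximal`: the
generation certificate for a representative only has to reach the class representatives
(the class certificate then reaches everything).
-/

set_option autoImplicit false

namespace Cfsg.Agent.Lib.Helper26.Maximal2

open Cfsg Cfsg.Agent.Lib.Helper27.Bits Cfsg.Agent.Lib.Helper27.Golay Cfsg.Agent.Lib.Helper27.M24
  Cfsg.Agent.Lib.Helper27.Cert Cfsg.Agent.Lib.Helper27.Trans Cfsg.Agent.Lib.Helper26.Maximal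
open scoped Pointwise

/-- generation certificate: `T` is the table of an element of the group of the code carrying the
base mask `ms` to `rep`, and every class representative `REPS[j]`, `j < r`, is the image of `ms`
under the word `WB[j]` in the lanes `< 15` of `GH` and `T` -/
noncomputable def genOK2 (GH WB T ms rep REPS r : ℕ) : Bool :=
  inM24 T && (Nat.beq (pull T ms) rep &&
    allB r (fun j => Nat.beq (wactF (genWith GH T) 16 (tget WB 64 j) ms) (tget REPS 24 j)))

/-- Maximality of the stabiliser of the object `F (fsOf ms)` in the group of the length-24 code,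
from certificates. -/
theorem isCoatom_of_certs2 {X : Type*} [MulAction (Equiv.Perm GolayPt) X]
    (F : Finset GolayPt → X) (hF : ∀ (g : Equiv.Perm GolayPt) (t : Finset GolayPt), g • F t = F (g • t))
    {GH N WA CLS REPS r ms : ℕ} {fixb : ℕ → Bool} {target : ℕ → ℕ} {cnd : ℕ → Bool}
    (Ts WBs : ℕ → ℕ)
    (hfix : ∀ m, fixb m = true → F (fsOf m) = F (fsOf ms))
    (hG : gensFixOK GH ms fixb = true)
    (hΩ : ∀ g ∈ M24, ∃ c < N, cnd c = true ∧ g • fsOf ms = fsOf (target c))
    (hne : ∃ g ∈ M24, g • F (fsOf ms) ≠ F (fsOf ms))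
    (hA : clsOK GH N WA CLS REPS r fixb target cnd = true)
    (hB : ∀ i < r, genOK2 GH (WBs i) (Ts i) ms (tget REPS 24 i) REPS r = true) :
    IsCoatom (MulAction.stabilizer M24 (F (fsOf ms))) := by
  -- the lanes of GH
  have hlane : ∀ d < 16, validT (tget GH 120 d) = true ∧ gperm (tget GH 120 d) ∈ M24 ∧
      gperm (tget GH 120 d) • F (fsOf ms) = F (fsOf ms) := by
    intro d hd
    have h1 := (allB_iff _ _).mp hG d hd
    rw [Bool.and_eq_true] at h1
    refine ⟨inM24_valid h1.1, gperm_mem_M24 h1.1, ?_⟩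
    rw [hF, gperm_smul (inM24_valid h1.1)]
    exact hfix _ h1.2
  -- the representatives
  have hrep : ∀ i < r, validT (Ts i) = true ∧ gperm (Ts i) ∈ M24 ∧
      gperm (Ts i) • fsOf ms = fsOf (tget REPS 24 i) := by
    intro i hi
    have h1 := hB i hi
    unfold genOK2 at h1
    rw [Bool.and_eq_true, Bool.and_eq_true] at h1
    refine ⟨inM24_valid h1.1, gperm_mem_M24 h1.1, ?_⟩
    rw [gperm_smul (inM24_valid h1.1), Nat.eq_of_beq_eq_true h1.2.1]
  -- the class decomposition
  have hcls : ∀ g ∈ M24, g • F (fsOf ms) = F (fsOf ms) ∨ ∃ j < r, ∃ h ∈ M24,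
      h • F (fsOf ms) = F (fsOf ms) ∧ g • fsOf ms = h • fsOf (tget REPS 24 j) := by
    intro g hg
    obtain ⟨c, hc, hcc, hgc⟩ := hΩ g hg
    have h1 := (allB_iff _ _).mp hA c hc
    rw [hcc] at h1
    simp only [Bool.not_true, Bool.false_or, Bool.or_eq_true, Bool.and_eq_true] at h1
    rcases h1 with h1 | ⟨h1, h2⟩
    · left
      rw [hF, hgc]
      exact hfix _ h1
    · right
      have hi : tget CLS 4 c < r := Nat.blt_eq.mp h1
      obtain ⟨h, hh, hh'⟩ := wactF_spec
        (M24 ⊓ MulAction.stabilizer (Equiv.Perm GolayPt) (F (fsOf ms))) (fun d => tget GH 120 d)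
        (fun d hd => ⟨(hlane d hd).1, (hlane d hd).2.1, (hlane d hd).2.2⟩) 16 (tget WA 64 c)
      exact ⟨_, hi, h, hh.1, hh.2, by rw [hgc, ← Nat.eq_of_beq_eq_true h2, ← hh']⟩
  refine isCoatom_stabilizer_of_gen M24 (F (fsOf ms)) {k | ∃ i < r, k = gperm (Ts i)} hne ?_ ?_ ?_
  · rintro k ⟨i, hi, rfl⟩
    exact (hrep i hi).2.1
  · intro g hg hgs
    rcases hcls g hg with h | ⟨j, hj, h, hh, hhs, hgj⟩
    · exact absurd h hgs
    · refine ⟨gperm (Ts j), ⟨j, hj, rfl⟩, h, hh, hhs, ?_⟩
      rw [hF, hgj, hF, hF, (hrep j hj).2.2]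
  · rintro k ⟨i, hi, rfl⟩ K hHK hkK g hg
    rcases hcls g hg with h | ⟨j, hj, h, hh, hhs, hgj⟩
    · exact ⟨1, K.one_mem, M24.one_mem, by rw [one_smul, h]⟩
    · have h1 := hB i hi
      unfold genOK2 at h1
      rw [Bool.and_eq_true, Bool.and_eq_true] at h1
      have h2 := (allB_iff _ _).mp h1.2.2 j hj
      have hgens : ∀ d < 16, validT (genWith GH (Ts i) d) = true ∧
          gperm (genWith GH (Ts i) d) ∈ K ⊓ M24 := by
        intro d hd
        unfold genWith
        cases hd15 : Nat.beq d 15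
        · exact ⟨(hlane d hd).1, hHK _ (hlane d hd).2.1 (hlane d hd).2.2, (hlane d hd).2.1⟩
        · exact ⟨(hrep i hi).1, hkK, (hrep i hi).2.1⟩
      obtain ⟨w, hw, hw'⟩ := wactF_spec (K ⊓ M24) (genWith GH (Ts i)) hgens 16 (tget (WBs i) 64 j)
      refine ⟨h * w, K.mul_mem (hHK h hh hhs) hw.1, M24.mul_mem hh hw.2, ?_⟩
      rw [hF, hF, hgj, mul_smul, hw', Nat.eq_of_beq_eq_true h2]

end Cfsg.Agent.Lib.Helper26.Maximal2
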