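import Cfsg.Agent.Lib.Helper26.Maximal

/-!
Maximality and orbit certificates for stabilisers in the group of the length-24 code, for
objects encoded by natural numbers: `F m` is the object with code `m`, `act T m` is the code of
the image of `m` under the permutation with table `T`, and codes are compared by a test `eqv`
(equal objects may have several codes).

`Certs` bundles the kernel-checkable certificates; from it follow transitivity (`Certs.trans`),
maximality of the stabiliser of the base object (`Certs.isCoatom`), and the orbits of that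
stabiliser (`Certs.orbit_eq`, `Certs.cover`).
-/

set_option autoImplicit false

namespace Cfsg.Agent.Lib.Helper26.Maximal3

open Cfsg Cfsg.Agent.Lib.Helper27.Bits Cfsg.Agent.Lib.Helper27.Golay Cfsg.Agent.Lib.Helper27.M24
  Cfsg.Agent.Lib.Helper27.Cert Cfsg.Agent.Lib.Helper27.Trans Cfsg.Agent.Lib.Helper26.Maximal
open scoped Pointwise

/-! ### abstract orbit lemmas -/

theorem mem_orbit_stabilizer_iff {G X : Type*} [Group G] [MulAction G X] (M : Subgroup G)
    {s x y : X} :
    y ∈ MulAction.orbit (MulAction.stabilizer M s) x ↔ ∃ h ∈ M, h • s = s ∧ h • x = y := by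
  constructor
  · rintro ⟨⟨⟨h, hh⟩, hs⟩, rfl⟩
    exact ⟨h, hh, hs, rfl⟩
  · rintro ⟨h, hh, hs, rfl⟩
    exact ⟨⟨⟨h, hh⟩, hs⟩, rfl⟩

/-- the orbits of the stabiliser of a translate are the translates of the orbits -/
theorem orbit_stabilizer_smul {G X : Type*} [Group G] [MulAction G X] (g : G) (s x : X) :
    MulAction.orbit (MulAction.stabilizer G (g • s)) (g • x) =
      (fun y => g • y) '' MulAction.orbit (MulAction.stabilizer G s) x := by
  ext y
  constructor
  · rintro ⟨⟨h, hh⟩, rfl⟩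
    have hs : (g⁻¹ * h * g) • s = s := by
      rw [mul_smul, mul_smul, hh, inv_smul_smul]
    refine ⟨(g⁻¹ * h * g) • x, ⟨⟨g⁻¹ * h * g, hs⟩, rfl⟩, ?_⟩
    show g • (g⁻¹ * h * g) • x = h • g • x
    rw [← mul_smul, ← mul_smul]
    congr 1
    group
  · rintro ⟨_, ⟨⟨h, hh⟩, rfl⟩, rfl⟩
    have hs : (g * h * g⁻¹) • g • s = g • s := by
      rw [← mul_smul, inv_mul_cancel_right, mul_smul, hh]
    refine ⟨⟨g * h * g⁻¹, hs⟩, ?_⟩
    show (g * h * g⁻¹) • g • x = g • h • x
    rw [← mul_smul, inv_mul_cancel_right, mul_smul]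

/-- identification of the orbits of a stabiliser from a covering by classes -/
theorem orbit_eq_class {G X : Type*} [Group G] [MulAction G X] (M : Subgroup G) (s : X)
    (Ω : Set X) {ι : Type*} (x : ι → X) (C : ι → Set X)
    (hΩ : ∀ g ∈ M, ∀ y ∈ Ω, g • y ∈ Ω)
    (hx : ∀ i, x i ∈ Ω) (hxs : ∀ i, x i ≠ s)
    (ha : ∀ i, ∀ y ∈ C i, ∃ h ∈ M, h • s = s ∧ h • x i = y)
    (hb : ∀ y ∈ Ω, y = s ∨ ∃ i, y ∈ C i)
    (hc : ∀ i j, (∃ h ∈ M, h • s = s ∧ h • x i = x j) → i = j) (i : ι) :
    MulAction.orbit (MulAction.stabilizer M s) (x i) = C i := by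
  ext y
  rw [mem_orbit_stabilizer_iff]
  constructor
  · rintro ⟨h, hh, hs, rfl⟩
    rcases hb _ (hΩ h hh _ (hx i)) with h1 | ⟨j, hj⟩
    · exfalso
      apply hxs i
      have h2 : h⁻¹ • (h • x i) = h⁻¹ • s := by rw [h1]
      rw [inv_smul_smul] at h2
      rw [h2, inv_smul_eq_iff, hs]
    · obtain ⟨h', hh', hs', e⟩ := ha j _ hj
      have hij : j = i := by
        apply hc
        refine ⟨h⁻¹ * h', M.mul_mem (M.inv_mem hh) hh', ?_, ?_⟩
        · rw [mul_smul, hs', inv_smul_eq_iff, hs]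
        · rw [mul_smul, e, inv_smul_smul]
      subst hij
      exact hj
  · exact ha i y

/-! ### words -/

/-- act on a code by a word (base 16 digits of `w`, lowest digit applied last) in the
generators whose tables are given by `gen` -/
noncomputable def wactG (act : ℕ → ℕ → ℕ) (gen : ℕ → ℕ) (n : ℕ) : ℕ → ℕ → ℕ :=
  Nat.rec (fun _ m => m)
    (fun _ ih w m => cond (Nat.beq w 0) m (act (gen (w % 16)) (ih (w / 16) m))) n

theorem wactG_succ (act : ℕ → ℕ → ℕ) (gen : ℕ → ℕ) (n w m : ℕ) :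
    wactG act gen (n + 1) w m =
      cond (Nat.beq w 0) m (act (gen (w % 16)) (wactG act gen n (w / 16) m)) :=
  rfl

theorem wactG_spec {X : Type*} [MulAction (Equiv.Perm GolayPt) X] (F : ℕ → X)
    (act : ℕ → ℕ → ℕ) (hact : ∀ T, inM24 T = true → ∀ m, gperm T • F m = F (act T m))
    (H : Subgroup (Equiv.Perm GolayPt)) (gen : ℕ → ℕ)
    (hG : ∀ d < 16, inM24 (gen d) = true ∧ gperm (gen d) ∈ H) (n w : ℕ) :
    ∃ g ∈ H, ∀ m, g • F m = F (wactG act gen n w m) := by
  induction n generalizing w with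
  | zero => exact ⟨1, H.one_mem, fun m => one_smul _ _⟩
  | succ n ih =>
    cases hw : Nat.beq w 0
    · obtain ⟨g', hg', h'⟩ := ih (w / 16)
      obtain ⟨hv, hm⟩ := hG (w % 16) (Nat.mod_lt _ (by norm_num))
      refine ⟨gperm (gen (w % 16)) * g', H.mul_mem hm hg', fun m => ?_⟩
      rw [wactG_succ, hw, mul_smul, h' m, hact _ hv]
      rfl
    · exact ⟨1, H.one_mem, fun m => by rw [wactG_succ, hw]; exact one_smul _ _⟩

/-! ### certificates -/

/-- all 16 lanes of `GH` are tables of elements of the group of the code whose action on the base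
code `ms` passes the test `fixb` -/
noncomputable def gensFixOK3 (act : ℕ → ℕ → ℕ) (GH ms : ℕ) (fixb : ℕ → Bool) : Bool :=
  allB 16 (fun d => inM24 (tget GH 120 d) && fixb (act (tget GH 120 d) ms))

/-- class certificate: every object `target c` either passes `fixb` or is, up to `eqv`, the
image of a class representative `REPS[CLS[c]]` (with `CLS[c] < r`) under a word in the lanes of
`GH` -/
noncomputable def clsOK3 (act : ℕ → ℕ → ℕ) (GH N WA CLS REPS wr r : ℕ) (fixb : ℕ → Bool)
    (eqv : ℕ → ℕ → Bool) (target : ℕ → ℕ) (cnd : ℕ → Bool) : Bool :=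
  allB N (fun c => !cnd c || (fixb (target c) || (Nat.blt (tget CLS 4 c) r &&
    eqv (wactG act (fun d => tget GH 120 d) 16 (tget WA 64 c) (tget REPS wr (tget CLS 4 c)))
      (target c))))

/-- generation certificate: `T` is the table of an element of the group of the code carrying the
base code `ms` to `rep`, and every class representative `REPS[j]`, `j < r`, is the image of
`ms` under the word `WB[j]` in the lanes `< 15` of `GH` and `T` (all up to `eqv`) -/
noncomputable def genOK3 (act : ℕ → ℕ → ℕ) (GH WB T ms rep REPS wr r : ℕ)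
    (eqv : ℕ → ℕ → Bool) : Bool :=
  inM24 T && (eqv (act T ms) rep &&
    allB r (fun j => eqv (wactG act (genWith GH T) 16 (tget WB 64 j) ms) (tget REPS wr j)))

/-- the bundle of certificates -/
structure Certs {X : Type*} [MulAction (Equiv.Perm GolayPt) X] (F : ℕ → X) (act : ℕ → ℕ → ℕ)
    (GH N WA CLS REPS wr r ms : ℕ) (fixb : ℕ → Bool) (eqv : ℕ → ℕ → Bool) (target : ℕ → ℕ)
    (cnd : ℕ → Bool) (Ts WBs : ℕ → ℕ) : Prop where
  hact : ∀ T, inM24 T = true → ∀ m, gperm T • F m = F (act T m)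
  heqv : ∀ a b, eqv a b = true → F a = F b
  hfix : ∀ m, fixb m = true → F m = F ms
  hG : gensFixOK3 act GH ms fixb = true
  hA : clsOK3 act GH N WA CLS REPS wr r fixb eqv target cnd = true
  hB : ∀ i < r, genOK3 act GH (WBs i) (Ts i) ms (tget REPS wr i) REPS wr r eqv = true

section

variable {X : Type*} [MulAction (Equiv.Perm GolayPt) X] {F : ℕ → X} {act : ℕ → ℕ → ℕ}
  {GH N WA CLS REPS wr r ms : ℕ} {fixb : ℕ → Bool} {eqv : ℕ → ℕ → Bool} {target : ℕ → ℕ}
  {cnd : ℕ → Bool} {Ts WBs : ℕ → ℕ}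

/-- the lanes of `GH` are elements of the group fixing the base object -/
theorem Certs.lane (C : Certs F act GH N WA CLS REPS wr r ms fixb eqv target cnd Ts WBs) :
    ∀ d < 16, inM24 (tget GH 120 d) = true ∧ gperm (tget GH 120 d) ∈ M24 ∧
      gperm (tget GH 120 d) • F ms = F ms := by
  intro d hd
  have h1 := (allB_iff _ _).mp C.hG d hd
  rw [Bool.and_eq_true] at h1
  refine ⟨h1.1, gperm_mem_M24 h1.1, ?_⟩
  rw [C.hact _ h1.1]
  exact C.hfix _ h1.2

/-- the tables `Ts i` are elements of the group carrying the base object to the representatives -/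
theorem Certs.rep (C : Certs F act GH N WA CLS REPS wr r ms fixb eqv target cnd Ts WBs) :
    ∀ i < r, inM24 (Ts i) = true ∧ gperm (Ts i) ∈ M24 ∧
      gperm (Ts i) • F ms = F (tget REPS wr i) := by
  intro i hi
  have h1 := C.hB i hi
  unfold genOK3 at h1
  rw [Bool.and_eq_true, Bool.and_eq_true] at h1
  refine ⟨h1.1, gperm_mem_M24 h1.1, ?_⟩
  rw [C.hact _ h1.1]
  exact C.heqv _ _ h1.2.1

/-- the class decomposition -/
theorem Certs.cls (C : Certs F act GH N WA CLS REPS wr r ms fixb eqv target cnd Ts WBs) :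
    ∀ c < N, cnd c = true → fixb (target c) = true ∨ (tget CLS 4 c < r ∧ ∃ h ∈ M24,
      h • F ms = F ms ∧ h • F (tget REPS wr (tget CLS 4 c)) = F (target c)) := by
  intro c hc hcc
  have h1 := (allB_iff _ _).mp C.hA c hc
  rw [hcc] at h1
  simp only [Bool.not_true, Bool.false_or, Bool.or_eq_true, Bool.and_eq_true] at h1
  rcases h1 with h1 | ⟨h1, h2⟩
  · exact Or.inl h1
  · right
    have hi : tget CLS 4 c < r := Nat.blt_eq.mp h1
    obtain ⟨h, hh, hh'⟩ := wactG_spec F act C.hact
      (M24 ⊓ MulAction.stabilizer (Equiv.Perm GolayPt) (F ms)) (fun d => tget GH 120 d)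
      (fun d hd => ⟨(C.lane d hd).1, (C.lane d hd).2.1, (C.lane d hd).2.2⟩) 16 (tget WA 64 c)
    exact ⟨hi, h, hh.1, hh.2, by rw [hh']; exact C.heqv _ _ h2⟩

/-- the group is transitive on the objects -/
theorem Certs.trans (C : Certs F act GH N WA CLS REPS wr r ms fixb eqv target cnd Ts WBs) :
    ∀ c < N, cnd c = true → ∃ g ∈ M24, g • F ms = F (target c) := by
  intro c hc hcc
  rcases C.cls c hc hcc with h | ⟨hi, h, hh, -, e⟩
  · exact ⟨1, M24.one_mem, by rw [one_smul, C.hfix _ h]⟩
  · refine ⟨h * gperm (Ts (tget CLS 4 c)), M24.mul_mem hh (C.rep _ hi).2.1, ?_⟩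
    rw [mul_smul, (C.rep _ hi).2.2, e]

/-- Maximality of the stabiliser of the base object. -/
theorem Certs.isCoatom (C : Certs F act GH N WA CLS REPS wr r ms fixb eqv target cnd Ts WBs)
    (hΩ : ∀ g ∈ M24, ∃ c < N, cnd c = true ∧ g • F ms = F (target c))
    (hne : ∃ g ∈ M24, g • F ms ≠ F ms) :
    IsCoatom (MulAction.stabilizer M24 (F ms)) := by
  have hcls : ∀ g ∈ M24, g • F ms = F ms ∨ ∃ j < r, ∃ h ∈ M24,
      h • F ms = F ms ∧ g • F ms = h • F (tget REPS wr j) := by
    intro g hg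
    obtain ⟨c, hc, hcc, hgc⟩ := hΩ g hg
    rcases C.cls c hc hcc with h | ⟨hi, h, hh, hs, e⟩
    · left
      rw [hgc, C.hfix _ h]
    · exact Or.inr ⟨_, hi, h, hh, hs, by rw [hgc, e]⟩
  refine isCoatom_stabilizer_of_gen M24 (F ms) {k | ∃ i < r, k = gperm (Ts i)} hne ?_ ?_ ?_
  · rintro k ⟨i, hi, rfl⟩
    exact (C.rep i hi).2.1
  · intro g hg hgs
    rcases hcls g hg with h | ⟨j, hj, h, hh, hhs, hgj⟩
    · exact absurd h hgs
    · refine ⟨gperm (Ts j), ⟨j, hj, rfl⟩, h, hh, hhs, ?_⟩
      rw [hgj, (C.rep j hj).2.2]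
  · rintro k ⟨i, hi, rfl⟩ K hHK hkK g hg
    rcases hcls g hg with h | ⟨j, hj, h, hh, hhs, hgj⟩
    · exact ⟨1, K.one_mem, M24.one_mem, by rw [one_smul, h]⟩
    · have h1 := C.hB i hi
      unfold genOK3 at h1
      rw [Bool.and_eq_true, Bool.and_eq_true] at h1
      have h2 := (allB_iff _ _).mp h1.2.2 j hj
      have hgens : ∀ d < 16, inM24 (genWith GH (Ts i) d) = true ∧
          gperm (genWith GH (Ts i) d) ∈ K ⊓ M24 := by
        intro d hd
        unfold genWith
        cases hd15 : Nat.beq d 15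
        · exact ⟨(C.lane d hd).1, hHK _ (C.lane d hd).2.1 (C.lane d hd).2.2, (C.lane d hd).2.1⟩
        · exact ⟨(C.rep i hi).1, hkK, (C.rep i hi).2.1⟩
      obtain ⟨w, hw, hw'⟩ := wactG_spec F act C.hact (K ⊓ M24) (genWith GH (Ts i)) hgens 16
        (tget (WBs i) 64 j)
      refine ⟨h * w, K.mul_mem (hHK h hh hhs) hw.1, M24.mul_mem hh hw.2, ?_⟩
      rw [hgj, mul_smul, hw', C.heqv _ _ h2]

/-- the set of the objects of class `i` -/
def classSet (F : ℕ → X) (N CLS : ℕ) (fixb : ℕ → Bool) (target : ℕ → ℕ) (cnd : ℕ → Bool)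
    (i : ℕ) : Set X :=
  (fun c => F (target c)) '' {c | c < N ∧ cnd c = true ∧ fixb (target c) = false ∧ tget CLS 4 c = i}

/-- the objects are the base object and the objects of the classes -/
theorem Certs.cover (C : Certs F act GH N WA CLS REPS wr r ms fixb eqv target cnd Ts WBs) :
    ∀ c < N, cnd c = true → F (target c) = F ms ∨
      ∃ i < r, F (target c) ∈ classSet F N CLS fixb target cnd i := by
  intro c hc hcc
  cases hf : fixb (target c)
  · right
    rcases C.cls c hc hcc with h | ⟨hi, -⟩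
    · rw [hf] at h
      exact absurd h (by decide)
    · exact ⟨_, hi, c, ⟨hc, hcc, hf, rfl⟩, rfl⟩
  · exact Or.inl (C.hfix _ hf)

/-- the orbits of the stabiliser of the base object are the classes, provided the class
representatives are in pairwise different orbits and different from the base object -/
theorem Certs.orbit_eq (C : Certs F act GH N WA CLS REPS wr r ms fixb eqv target cnd Ts WBs)
    (hΩ : ∀ g ∈ M24, ∃ c < N, cnd c = true ∧ g • F ms = F (target c))
    (hrs : ∀ i < r, F (tget REPS wr i) ≠ F ms)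
    (hsep : ∀ i < r, ∀ j < r, (∃ h ∈ M24, h • F ms = F ms ∧
      h • F (tget REPS wr i) = F (tget REPS wr j)) → i = j)
    (i : ℕ) (hi : i < r) :
    MulAction.orbit (MulAction.stabilizer M24 (F ms)) (F (tget REPS wr i)) =
      classSet F N CLS fixb target cnd i := by
  have key := orbit_eq_class M24 (F ms) {y | ∃ g ∈ M24, y = g • F ms}
    (fun i : Fin r => F (tget REPS wr i)) (fun i : Fin r => classSet F N CLS fixb target cnd i)
    ?_ ?_ ?_ ?_ ?_ ?_ ⟨i, hi⟩
  · exact key
  · rintro g hg _ ⟨g', hg', rfl⟩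
    exact ⟨g * g', M24.mul_mem hg hg', (mul_smul _ _ _).symm⟩
  · intro j
    exact ⟨gperm (Ts j), (C.rep j j.2).2.1, (C.rep j j.2).2.2.symm⟩
  · intro j
    exact hrs j j.2
  · rintro j _ ⟨c, ⟨hc, hcc, hf, hcls⟩, rfl⟩
    rcases C.cls c hc hcc with h | ⟨-, h, hh, hs, e⟩
    · rw [hf] at h
      exact absurd h (by decide)
    · exact ⟨h, hh, hs, by rw [← hcls]; exact e⟩
  · rintro _ ⟨g, hg, rfl⟩
    obtain ⟨c, hc, hcc, hgc⟩ := hΩ g hg
    rw [hgc]
    rcases C.cover c hc hcc with h | ⟨j, hj, h⟩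
    · exact Or.inl h
    · exact Or.inr ⟨⟨j, hj⟩, h⟩
  · intro j j' h
    exact Fin.ext (hsep j j.2 j' j'.2 h)

omit [MulAction (Equiv.Perm GolayPt) X] in
/-- the number of objects in a class -/
theorem ncard_classSet (hinj : ∀ c < N, cnd c = true → ∀ c' < N, cnd c' = true →
      F (target c) = F (target c') → c = c') (i : ℕ) :
    (classSet F N CLS fixb target cnd i).ncard =
      countB N (fun c => cnd c && (!fixb (target c) && Nat.beq (tget CLS 4 c) i)) := by
  unfold classSet
  have hI : Set.InjOn (fun c => F (target c))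
      {c | c < N ∧ cnd c = true ∧ fixb (target c) = false ∧ tget CLS 4 c = i} := by
    rintro c ⟨hc, hcc, -, -⟩ c' ⟨hc', hcc', -, -⟩ h
    exact hinj c hc hcc c' hc' hcc' h
  have h2 : {c | c < N ∧ cnd c = true ∧ fixb (target c) = false ∧ tget CLS 4 c = i} =
      ↑((Finset.range N).filter
        (fun c => (cnd c && (!fixb (target c) && Nat.beq (tget CLS 4 c) i)) = true)) := by
    ext c
    simp
  rw [Set.InjOn.ncard_image hI, h2, Set.ncard_coe_finset, ← countB_eq]

end

end Cfsg.Agent.Lib.Helper26.Maximal3
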