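import Mathlib
import Cfsg.Agent.Lib.Helper45.OMiStmt

/-! S5991 piece FIXNDM (helper26; port of `Helper21.OPFIXNDP` to the minus form): the fixed space
of an isometry of order prime to `p` is nondegenerate.  Takes `TopNDM` as hypothesis. -/

set_option autoImplicit false

namespace Cfsg.Agent.Lib.Helper26.OMiFIXNDM

open Cfsg.Agent.Lib.Helper45
open scoped Matrix

universe u

/-- the polar form of the standard minus form -/
theorem polar_formula (e : ℕ) (F : Type u) [Field F] (a b : F)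
    (u v : (Fin e ⊕ Fin e) ⊕ Fin 2 → F) :
    QuadraticMap.polar (Cfsg.quadFormMinus e F a b) u v =
      ∑ i : Fin e, (u (.inl (.inl i)) * v (.inl (.inr i)) + v (.inl (.inl i)) * u (.inl (.inr i)))
      + (2 * u (.inr 0) * v (.inr 0) + a * (u (.inr 0) * v (.inr 1) + u (.inr 1) * v (.inr 0))
        + 2 * b * u (.inr 1) * v (.inr 1)) := by
  unfold QuadraticMap.polar Cfsg.quadFormMinus
  simp only [Pi.add_apply]
  have hsum : ∑ i : Fin e, (u (.inl (.inl i)) + v (.inl (.inl i))) *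
        (u (.inl (.inr i)) + v (.inl (.inr i)))
      = ∑ i : Fin e, u (.inl (.inl i)) * u (.inl (.inr i))
        + ∑ i : Fin e, v (.inl (.inl i)) * v (.inl (.inr i))
        + ∑ i : Fin e, (u (.inl (.inl i)) * v (.inl (.inr i))
            + v (.inl (.inl i)) * u (.inl (.inr i))) := by
    rw [← Finset.sum_add_distrib, ← Finset.sum_add_distrib]
    apply Finset.sum_congr rfl
    intro i _
    ring
  rw [hsum]
  ring

theorem polar_symm (e : ℕ) (F : Type u) [Field F] (a b : F)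
    (u v : (Fin e ⊕ Fin e) ⊕ Fin 2 → F) :
    QuadraticMap.polar (Cfsg.quadFormMinus e F a b) u v =
      QuadraticMap.polar (Cfsg.quadFormMinus e F a b) v u :=
  QuadraticMap.polar_comm _ _ _

/-- the vector `J v` with `B(u, v) = u ⬝ᵥ J v` -/
def Jm (e : ℕ) (F : Type u) [Field F] (a b : F) (v : (Fin e ⊕ Fin e) ⊕ Fin 2 → F) :
    (Fin e ⊕ Fin e) ⊕ Fin 2 → F :=
  fun k => Sum.elim (Sum.elim (fun i => v (.inl (.inr i))) (fun i => v (.inl (.inl i))))
    (fun j => ![2 * v (.inr 0) + a * v (.inr 1), a * v (.inr 0) + 2 * b * v (.inr 1)] j) k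

theorem polar_eq_dot (e : ℕ) (F : Type u) [Field F] (a b : F)
    (u v : (Fin e ⊕ Fin e) ⊕ Fin 2 → F) :
    QuadraticMap.polar (Cfsg.quadFormMinus e F a b) u v = u ⬝ᵥ Jm e F a b v := by
  have e1 : ∑ i : Fin e, v (.inl (.inl i)) * u (.inl (.inr i)) =
      ∑ i : Fin e, u (.inl (.inr i)) * v (.inl (.inl i)) :=
    Finset.sum_congr rfl (fun i _ => mul_comm _ _)
  rw [polar_formula, Finset.sum_add_distrib, e1]
  show _ = ∑ k, u k * Jm e F a b v k
  rw [Fintype.sum_sum_type, Fintype.sum_sum_type, Fin.sum_univ_two]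
  simp only [Jm, Sum.elim_inl, Sum.elim_inr, Matrix.cons_val_zero, Matrix.cons_val_one]
  ring

theorem polar_sum_left (e : ℕ) (F : Type u) [Field F] (a b : F) {ι : Type} (s : Finset ι)
    (f : ι → (Fin e ⊕ Fin e) ⊕ Fin 2 → F) (v : (Fin e ⊕ Fin e) ⊕ Fin 2 → F) :
    QuadraticMap.polar (Cfsg.quadFormMinus e F a b) (∑ j ∈ s, f j) v =
      ∑ j ∈ s, QuadraticMap.polar (Cfsg.quadFormMinus e F a b) (f j) v := by
  rw [polar_eq_dot, sum_dotProduct]
  apply Finset.sum_congr rfl
  intro j _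
  rw [polar_eq_dot]

theorem main (hTop : OMiStmt.TopNDM.{u}) : OMiStmt.FixNDM.{u} := by
  intro F _ _ p _ _ hodd d hd a b hab r _ hrp x hx hxr
  have hr : r.Prime := Fact.out
  have hp : p.Prime := Fact.out
  have hrF : (r : F) ≠ 0 := by
    intro h0
    rw [CharP.cast_eq_zero_iff F p r] at h0
    exact hrp ((Nat.prime_dvd_prime_iff_eq hp hr).mp h0).symm
  -- isometries preserve the polar form
  have hiso : ∀ g : Matrix.GeneralLinearGroup (OMiStmt.M d) F,
      g ∈ Cfsg.isometryGroup F (Cfsg.quadFormMinus (d - 1) F a b) → ∀ u v : OMiStmt.M d → F,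
      QuadraticMap.polar (Cfsg.quadFormMinus (d - 1) F a b)
        ((g : Matrix (OMiStmt.M d) (OMiStmt.M d) F) *ᵥ u)
        ((g : Matrix (OMiStmt.M d) (OMiStmt.M d) F) *ᵥ v) =
      QuadraticMap.polar (Cfsg.quadFormMinus (d - 1) F a b) u v := by
    intro g hg u v
    have hQ : ∀ u' : OMiStmt.M d → F, Cfsg.quadFormMinus (d - 1) F a b
        ((g : Matrix (OMiStmt.M d) (OMiStmt.M d) F) *ᵥ u') =
          Cfsg.quadFormMinus (d - 1) F a b u' :=
      fun u' => hg u' u'
    unfold QuadraticMap.polar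
    rw [← Matrix.mulVec_add, hQ, hQ, hQ]
  -- powers fix the fixed vectors
  have hfixpow : ∀ v : OMiStmt.M d → F, (x : Matrix (OMiStmt.M d) (OMiStmt.M d) F) *ᵥ v = v →
      ∀ j : ℕ, ((x ^ j : Matrix.GeneralLinearGroup (OMiStmt.M d) F) :
        Matrix (OMiStmt.M d) (OMiStmt.M d) F) *ᵥ v = v := by
    intro v hv j
    induction j with
    | zero => simp
    | succ j ih =>
      rw [pow_succ, Units.val_mul, ← Matrix.mulVec_mulVec, hv, ih]
  have key : ∀ v ∈ OMiStmt.FxM (x : Matrix (OMiStmt.M d) (OMiStmt.M d) F), v ≠ 0 →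
      ∃ w1 ∈ OMiStmt.FxM (x : Matrix (OMiStmt.M d) (OMiStmt.M d) F),
        QuadraticMap.polar (Cfsg.quadFormMinus (d - 1) F a b) w1 v ≠ 0 := by
    intro v hv hv0
    rw [OMiStmt.mem_FxM] at hv
    obtain ⟨⟨w, -, hw⟩, -⟩ := hTop F hodd d a b hab v Submodule.mem_top hv0
    set f : ℕ → OMiStmt.M d → F := fun j =>
      ((x ^ j : Matrix.GeneralLinearGroup (OMiStmt.M d) F) :
        Matrix (OMiStmt.M d) (OMiStmt.M d) F) *ᵥ w with hf
    refine ⟨∑ j ∈ Finset.range r, f j, ?_, ?_⟩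
    · rw [OMiStmt.mem_FxM, Matrix.mulVec_sum]
      have hstep : ∀ j : ℕ, (x : Matrix (OMiStmt.M d) (OMiStmt.M d) F) *ᵥ f j = f (j + 1) := by
        intro j
        rw [hf]
        show (x : Matrix (OMiStmt.M d) (OMiStmt.M d) F) *ᵥ
          (((x ^ j : Matrix.GeneralLinearGroup (OMiStmt.M d) F) :
            Matrix (OMiStmt.M d) (OMiStmt.M d) F) *ᵥ w) =
          ((x ^ (j + 1) : Matrix.GeneralLinearGroup (OMiStmt.M d) F) :
            Matrix (OMiStmt.M d) (OMiStmt.M d) F) *ᵥ w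
        rw [pow_succ', Units.val_mul, Matrix.mulVec_mulVec]
      rw [Finset.sum_congr rfl (fun j _ => hstep j)]
      have h1 := Finset.sum_range_succ f r
      have h2 := Finset.sum_range_succ' f r
      have hfr : f r = f 0 := by
        rw [hf]
        show ((x ^ r : Matrix.GeneralLinearGroup (OMiStmt.M d) F) :
            Matrix (OMiStmt.M d) (OMiStmt.M d) F) *ᵥ w =
          ((x ^ 0 : Matrix.GeneralLinearGroup (OMiStmt.M d) F) :
            Matrix (OMiStmt.M d) (OMiStmt.M d) F) *ᵥ w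
        rw [hxr, pow_zero]
      rw [h1, hfr] at h2
      exact (add_right_cancel h2).symm
    · rw [polar_sum_left]
      have hterm : ∀ j ∈ Finset.range r,
          QuadraticMap.polar (Cfsg.quadFormMinus (d - 1) F a b) (f j) v =
            QuadraticMap.polar (Cfsg.quadFormMinus (d - 1) F a b) w v := by
        intro j _
        have h1 := hiso (x ^ j) (Subgroup.pow_mem _ hx j) w v
        rw [hfixpow v hv j] at h1
        exact h1
      rw [Finset.sum_congr rfl hterm, Finset.sum_const, Finset.card_range, nsmul_eq_mul]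
      exact mul_ne_zero hrF hw
  intro v hv hv0
  obtain ⟨w1, hw1, hne⟩ := key v hv hv0
  refine ⟨⟨w1, hw1, hne⟩, ⟨w1, hw1, ?_⟩⟩
  rw [polar_symm]
  exact hne

end Cfsg.Agent.Lib.Helper26.OMiFIXNDM
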