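import Cfsg.Agent.Lib.Helper26.OctadStab

/-!
The pointwise stabiliser of an octad in the group of the length-24 code acts regularly on the
sixteen points outside the octad.
-/

set_option autoImplicit false

namespace Cfsg.Agent.Lib.Helper26.OctadStab2

open Cfsg Cfsg.Agent.Lib.Helper7.GolayBase Cfsg.Agent.Lib.Helper7.ChainGen
  Cfsg.Agent.Lib.Helper7.M24Core Cfsg.Agent.Lib.Helper7.M24Main
  Cfsg.Agent.Lib.Helper7.M24Octad Cfsg.Agent.Lib.Helper7.M24Octad2
  Cfsg.Agent.Lib.Helper26.OctadStab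
open scoped Pointwise

theorem outside_base {p : GolayPt} (hp : p ∉ mk O) : ∃ a ∈ T7, p = pt a := by
  refine ⟨idx p, ?_, (pt_idx p).symm⟩
  rw [mem_mk] at hp
  have h : ∀ i < 24, ¬ (O.testBit i = true) → i ∈ T7 := by decide
  exact h (idx p) (idx_lt p) hp

theorem fix_base : fix (mk O) = M24 ⊓ FixL Oidx := by
  unfold fix
  rw [fixingSubgroup_O]

/-- the pointwise stabiliser of the base octad is transitive on the outside points -/
theorem base_trans {p q : GolayPt} (hp : p ∉ mk O) (hq : q ∉ mk O) :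
    ∃ k ∈ fix (mk O), k p = q := by
  obtain ⟨a, ha, rfl⟩ := outside_base hp
  obtain ⟨b, hb, rfl⟩ := outside_base hq
  obtain ⟨h1, hh1, e1, -⟩ := wit7' a ha
  obtain ⟨h2, hh2, e2, -⟩ := wit7' b hb
  rw [← M24_eq_H, ← fix_base] at hh1 hh2
  refine ⟨h2 * h1⁻¹, Subgroup.mul_mem _ hh2 (Subgroup.inv_mem _ hh1), ?_⟩
  rw [Equiv.Perm.mul_apply, ← e1, Equiv.Perm.inv_def, Equiv.symm_apply_apply, e2]

/-- the pointwise stabiliser of an octad is transitive on the outside points -/
theorem fix_trans {o : Finset GolayPt} (ho : o ∈ octads) {p q : GolayPt} (hp : p ∉ o)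
    (hq : q ∉ o) : ∃ k ∈ fix o, k p = q := by
  obtain ⟨g, hg, hgo⟩ := octad_to_base ho
  have hp' : g p ∉ mk O := by
    rw [← hgo]
    exact fun h => hp ((Finset.smul_mem_smul_finset_iff g).mp h)
  have hq' : g q ∉ mk O := by
    rw [← hgo]
    exact fun h => hq ((Finset.smul_mem_smul_finset_iff g).mp h)
  obtain ⟨k, hk, hkp⟩ := base_trans hp' hq'
  rw [mem_fix] at hk
  refine ⟨g⁻¹ * k * g, mem_fix.mpr ⟨M24.mul_mem (M24.mul_mem (M24.inv_mem hg) hk.1) hg, ?_⟩, ?_⟩
  · intro y hy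
    have hy' : g y ∈ mk O := by
      rw [← hgo]
      exact (Finset.smul_mem_smul_finset_iff g).mpr hy
    rw [Equiv.Perm.mul_apply, Equiv.Perm.mul_apply, hk.2 _ hy', Equiv.Perm.inv_def, Equiv.symm_apply_apply]
  · rw [Equiv.Perm.mul_apply, Equiv.Perm.mul_apply, hkp, Equiv.Perm.inv_def, Equiv.symm_apply_apply]

theorem fix_comm {o : Finset GolayPt} (ho : o ∈ octads) {g k : Equiv.Perm GolayPt}
    (hg : g ∈ fix o) (hk : k ∈ fix o) : g * k = k * g := by
  have h1 := sq_of_mem_fix ho hg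
  have h2 := sq_of_mem_fix ho hk
  have h3 := sq_of_mem_fix ho (Subgroup.mul_mem _ hg hk)
  have h4 : g * k = g * (g * k * (g * k)) * k := by rw [h3, mul_one]
  have h5 : g * (g * k * (g * k)) * k = (g * g) * (k * g) * (k * k) := by group
  rw [h4, h5, h1, h2, one_mul, mul_one]

/-- an element of the group of the code fixing an octad pointwise and a further point is trivial -/
theorem eq_one_of_mem_fix {o : Finset GolayPt} (ho : o ∈ octads) {p : GolayPt} (hp : p ∉ o)
    {g : Equiv.Perm GolayPt} (hg : g ∈ fix o) (hgp : g p = p) : g = 1 := by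
  ext x
  by_cases hx : x ∈ o
  · rw [(mem_fix.mp hg).2 x hx]
    rfl
  · obtain ⟨k, hk, hkp⟩ := fix_trans ho hp hx
    have h1 : g (k p) = k (g p) := by
      have := congrArg (fun e : Equiv.Perm GolayPt => e p) (fix_comm ho hg hk)
      simpa using this
    rw [← hkp, h1, hgp]
    rfl

end Cfsg.Agent.Lib.Helper26.OctadStab2
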