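import Cfsg.Agent.Lib.Helper26.SextetTab

/-!
The punctured code of length 23: the words of the length-24 code with the coordinate at the
extra point dropped.
-/

set_option autoImplicit false

namespace Cfsg.Agent.Lib.Helper26.Punct

open Cfsg Cfsg.Agent.Lib.Helper27.Bits Cfsg.Agent.Lib.Helper27.Golay Cfsg.Agent.Lib.Helper27.Fast
  Cfsg.Agent.Lib.Helper27.Coset Cfsg.Agent.Lib.Helper26.SextetTab

/-- drop the coordinate at the extra point -/
def punc (w : GolayPt → ZMod 2) : ZMod 23 → ZMod 2 := fun x => w (some x)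

/-- the punctured code -/
def PC : Set (ZMod 23 → ZMod 2) := {u | ∃ w ∈ golayCode, ∀ x : ZMod 23, u x = w (some x)}

theorem mem_PC (u : ZMod 23 → ZMod 2) : u ∈ PC ↔ ∃ c < 4096, u = punc (wordOf (cw c)) := by
  constructor
  · rintro ⟨w, hw, h⟩
    obtain ⟨c, hc, rfl⟩ := (mem_golayCode_iff w).mp hw
    refine ⟨c, hc, ?_⟩
    rw [← enc_eq_cw hc]
    funext x
    exact h x
  · rintro ⟨c, hc, rfl⟩
    exact ⟨wordOf (cw c), by rw [← enc_eq_cw hc]; exact enc_mem c, fun x => rfl⟩

theorem punc_mem {w : GolayPt → ZMod 2} (hw : w ∈ golayCode) : punc w ∈ PC := ⟨w, hw, fun _ => rfl⟩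

theorem sub_mem_PC {c c' : ZMod 23 → ZMod 2} (hc : c ∈ PC) (hc' : c' ∈ PC) : c - c' ∈ PC := by
  obtain ⟨w, hw, h⟩ := hc
  obtain ⟨w', hw', h'⟩ := hc'
  exact ⟨w - w', golayCode.sub_mem hw hw', fun x => by
    rw [Pi.sub_apply, Pi.sub_apply, h x, h' x]⟩

theorem punc_apply (m : ℕ) (x : ZMod 23) :
    punc (wordOf m) x = if m.testBit x.val = true then 1 else 0 := rfl

theorem testBit_low (i : ℕ) : (8388607 : ℕ).testBit i = decide (i < 23) := by
  have h2 : (8388607 : ℕ) = 2 ^ 23 - 1 := by norm_num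
  rw [h2, Nat.testBit_two_pow_sub_one]

theorem norm_punc (m : ℕ) : hammingNorm (punc (wordOf m)) = pcF (m &&& 8388607) := by
  rw [← card_setOf_F]
  have h : fsOf (m &&& 8388607) =
      (Finset.univ.filter (fun x : ZMod 23 => punc (wordOf m) x ≠ 0)).map
        ⟨some, Option.some_injective _⟩ := by
    ext p
    rw [mem_setOf, Nat.testBit_and, testBit_low, Finset.mem_map]
    cases p with
    | none =>
      have h23 : idx (none : GolayPt) = 23 := rfl
      rw [h23]
      simp
    | some x =>
      have hx : idx (some x : GolayPt) = x.val := rfl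
      have hlt : x.val < 23 := ZMod.val_lt x
      rw [hx]
      constructor
      · intro h1
        refine ⟨x, ?_, rfl⟩
        rw [Finset.mem_filter]
        refine ⟨Finset.mem_univ _, ?_⟩
        rw [punc_apply]
        have h2 : m.testBit x.val = true := by
          rw [Bool.and_eq_true] at h1
          exact h1.1
        rw [if_pos h2]
        exact one_ne_zero
      · rintro ⟨y, hy, hyx⟩
        have e : y = x := Option.some_injective _ hyx
        subst e
        rw [Finset.mem_filter, punc_apply] at hy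
        have h2 : m.testBit y.val = true := by
          by_contra hn
          rw [if_neg hn] at hy
          exact hy.2 rfl
        rw [h2, decide_eq_true hlt]
        rfl
  rw [h, Finset.card_map]
  rfl

theorem norm_punc_le (m : ℕ) : hammingNorm (punc (wordOf m)) ≤ pcF m := by
  rw [norm_punc, ← card_setOf_F, ← card_setOf_F, setOf_and]
  exact Finset.card_le_card Finset.inter_subset_left

theorem punc_injOn {c c' : ℕ} (hc : c < 4096) (hc' : c' < 4096)
    (h : punc (wordOf (cw c)) = punc (wordOf (cw c'))) : c = c' := by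
  rw [← cw_mod hc, ← cw_mod hc']
  apply Nat.eq_of_testBit_eq
  intro i
  have e : (4096 : ℕ) = 2 ^ 12 := by norm_num
  rw [e, Nat.testBit_mod_two_pow, Nat.testBit_mod_two_pow]
  by_cases hi : i < 12
  · have h1 := congrFun h ((i : ℕ) : ZMod 23)
    rw [punc_apply, punc_apply, ZMod.val_natCast, Nat.mod_eq_of_lt (by omega : i < 23)] at h1
    simp only [hi, decide_true, Bool.true_and]
    cases h2 : (cw c).testBit i <;> cases h3 : (cw c').testBit i <;> simp_all
  · simp [hi]

/-- counting the words of the punctured code with a property -/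
theorem ncard_PC_filter (Q : (ZMod 23 → ZMod 2) → Prop) (q : ℕ → Bool)
    (hq : ∀ c < 4096, Q (punc (wordOf (cw c))) ↔ q c = true) :
    {u : ZMod 23 → ZMod 2 | u ∈ PC ∧ Q u}.ncard = countB 4096 q := by
  have h1 : {u : ZMod 23 → ZMod 2 | u ∈ PC ∧ Q u} =
      (fun c => punc (wordOf (cw c))) ''
        (((Finset.range 4096).filter (fun c => q c = true) : Finset ℕ) : Set ℕ) := by
    ext u
    simp only [Set.mem_setOf_eq, Set.mem_image, Finset.coe_filter, Finset.mem_range]
    constructor
    · rintro ⟨hu, hQ⟩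
      obtain ⟨c, hc, rfl⟩ := (mem_PC u).mp hu
      exact ⟨c, ⟨hc, (hq c hc).mp hQ⟩, rfl⟩
    · rintro ⟨c, ⟨hc, hqc⟩, rfl⟩
      exact ⟨(mem_PC _).mpr ⟨c, hc, rfl⟩, (hq c hc).mpr hqc⟩
  rw [h1, Set.InjOn.ncard_image, Set.ncard_coe_finset, countB_eq]
  intro c hc d hd h
  simp only [Finset.coe_filter, Finset.mem_range, Set.mem_setOf_eq] at hc hd
  exact punc_injOn hc.1 hd.1 h

theorem minwt_tab :
    allB 4096 (fun c => Nat.beq c 0 || Nat.ble 7 (pcF (cw c &&& 8388607))) = true := by
  decide +kernel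

/-- the minimum weight of the punctured code is 7 -/
theorem minwt {u : ZMod 23 → ZMod 2} (hu : u ∈ PC) (h0 : u ≠ 0) : 7 ≤ hammingNorm u := by
  obtain ⟨c, hc, rfl⟩ := (mem_PC u).mp hu
  have h := (allB_iff _ _).mp minwt_tab c hc
  rw [Bool.or_eq_true] at h
  rcases h with h | h
  · exfalso
    apply h0
    rw [Nat.eq_of_beq_eq_true h, cw_zero, wordOf_zero]
    rfl
  · rw [norm_punc]
    exact Nat.le_of_ble_eq_true h

end Cfsg.Agent.Lib.Helper26.Punct
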