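import Mathlib
import Cfsg.Agent.Lib.Helper22.S81Stmt

set_option autoImplicit false

/-!
# S1381 / UNIL (helper26): a commutative subgroup is nilpotent
-/

namespace Cfsg.Agent.Lib.Helper26.S81UNIL

universe u

theorem main : Cfsg.Agent.Lib.Helper22.S81Stmt.UNil.{u} := by
  intro G _ U hU
  letI : CommGroup ↥U :=
    { (inferInstance : Group ↥U) with mul_comm := fun a b => hU.is_comm.comm a b }
  exact CommGroup.isNilpotent

end Cfsg.Agent.Lib.Helper26.S81UNIL
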