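import Cfsg.Agent.Lib.Helper26.SextetTab
import Cfsg.Agent.Lib.Helper27.Sub3

/-!
Sextets of the 24 points via cosets of the length-24 code: the sextet of a heavy coset `k` is
the family of the supports of its six words of weight 4.  Every sextet is of this form, and a
4-element set lies in exactly one sextet.
-/

set_option autoImplicit false

namespace Cfsg.Agent.Lib.Helper26.Sextet

open Cfsg Cfsg.Agent.Lib.Helper27.Bits Cfsg.Agent.Lib.Helper27.Golay Cfsg.Agent.Lib.Helper27.M24
  Cfsg.Agent.Lib.Helper27.Cert Cfsg.Agent.Lib.Helper27.Trans Cfsg.Agent.Lib.Helper27.Fast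
  Cfsg.Agent.Lib.Helper27.Coset Cfsg.Agent.Lib.Helper26.SextetTab
open scoped Pointwise

/-- the sextet of the coset `k` -/
noncomputable def sextet (k : ℕ) : Finset (Finset GolayPt) :=
  (Finset.range 6).image (fun j => fsOf (sx j k))

theorem mem_sextet {k : ℕ} {u : Finset GolayPt} : u ∈ sextet k ↔ ∃ j < 6, u = fsOf (sx j k) := by
  unfold sextet
  rw [Finset.mem_image]
  constructor
  · rintro ⟨j, hj, rfl⟩
    exact ⟨j, Finset.mem_range.mp hj, rfl⟩
  · rintro ⟨j, hj, rfl⟩
    exact ⟨j, Finset.mem_range.mpr hj, rfl⟩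

theorem or_eq_xor {a b : ℕ} (h : a &&& b = 0) : a ||| b = a ^^^ b := by
  apply Nat.eq_of_testBit_eq
  intro i
  have h1 : (a &&& b).testBit i = false := by rw [h]; exact Nat.zero_testBit i
  rw [Nat.testBit_and] at h1
  rw [Nat.testBit_or, Nat.testBit_xor]
  cases ha : a.testBit i <;> cases hb : b.testBit i <;> simp_all

/-- two disjoint words of weight 4 in one coset have an octad as union -/
theorem union_mem_octads {a b : ℕ} (hs : syn a = syn b) (hd : a &&& b = 0) (ha : pcF a = 4)
    (hb : pcF b = 4) : fsOf a ∪ fsOf b ∈ octads := by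
  obtain ⟨c, hc, h⟩ := (same_coset_iff a b).mp hs
  have h1 := pcF_xor a b
  rw [hd, h] at h1
  have h0 : pcF 0 = 0 := by decide
  rw [h0] at h1
  rw [← setOf_or, or_eq_xor hd, h, mem_octads_cw]
  exact ⟨c, hc, rfl, by omega⟩

/-- two words of weight 4 whose supports have an octad as union are disjoint and lie in one
coset -/
theorem syn_eq_of_union {a b : ℕ} (ha : a < 2 ^ 24) (hb : b < 2 ^ 24)
    (h : fsOf a ∪ fsOf b ∈ octads) (ha4 : pcF a = 4) (hb4 : pcF b = 4) :
    syn a = syn b ∧ a &&& b = 0 := by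
  rw [← setOf_or, mem_octads_cw] at h
  obtain ⟨c, hc, h1, h2⟩ := h
  have hor : a ||| b = cw c := setOf_injOn (Nat.or_lt_two_pow ha hb) (cw_lt c) h1
  have h3 := Cfsg.Agent.Lib.Helper27.Sub3.pcF_or a b
  rw [hor, h2, ha4, hb4] at h3
  have hd : a &&& b = 0 :=
    pcF_eq_zero (Nat.lt_of_le_of_lt Nat.and_le_left ha) (by omega)
  refine ⟨(same_coset_iff a b).mpr ⟨c, hc, ?_⟩, hd⟩
  rw [← or_eq_xor hd, hor]

theorem sextet_mem {k : ℕ} (hk : k < 4096) (hl : light k = false) : sextet k ∈ sextets := by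
  refine ⟨?_, ?_, ?_⟩
  · unfold sextet
    rw [Finset.card_image_of_injOn, Finset.card_range]
    intro i hi j hj h
    by_contra hij
    exact sx_ne hk hl (Finset.mem_range.mp hi) (Finset.mem_range.mp hj) hij
      (setOf_injOn (sx_lt _ _) (sx_lt _ _) h)
  · intro t ht
    obtain ⟨j, hj, rfl⟩ := mem_sextet.mp ht
    rw [card_setOf_F, (sx_mem hk hl hj).1]
  · intro t ht u hu hne
    obtain ⟨i, hi, rfl⟩ := mem_sextet.mp ht
    obtain ⟨j, hj, rfl⟩ := mem_sextet.mp hu
    have hij : i ≠ j := fun h => hne (by rw [h])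
    exact union_mem_octads ((sx_mem hk hl hi).2.trans (sx_mem hk hl hj).2.symm)
      (sx_and hk hl hi hj hij) (sx_mem hk hl hi).1 (sx_mem hk hl hj).1

/-- a word of weight 4 belongs to the sextet of its coset -/
theorem mem_sextet_syn {a : ℕ} (ha : a < 2 ^ 24) (ha4 : pcF a = 4) : fsOf a ∈ sextet (syn a) := by
  obtain ⟨j, hj, e⟩ := eq_sx (syn_lt ha) (heavy_of_four ha ha4) ha (le_of_eq ha4) rfl
  exact mem_sextet.mpr ⟨j, hj, congrArg fsOf e⟩

/-- a sextet containing the support of a word of weight 4 is the sextet of its coset -/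
theorem sextet_unique {S : Finset (Finset GolayPt)} (hS : S ∈ sextets) {a : ℕ} (ha : a < 2 ^ 24)
    (ha4 : pcF a = 4) (hmem : fsOf a ∈ S) : S = sextet (syn a) := by
  have hk := syn_lt ha
  have hl := heavy_of_four ha ha4
  apply Finset.eq_of_subset_of_card_le
  · intro u hu
    by_cases hut : u = fsOf a
    · rw [hut]
      exact mem_sextet_syn ha ha4
    · obtain ⟨b, hb, rfl⟩ := exists_setOf u
      have hb4 : pcF b = 4 := by
        rw [← card_setOf_F]
        exact hS.2.1 _ hu
      have h := hS.2.2 _ hmem _ hu (Ne.symm hut)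
      obtain ⟨hs, -⟩ := syn_eq_of_union ha hb h ha4 hb4
      obtain ⟨j, hj, e⟩ := eq_sx hk hl hb (le_of_eq hb4) hs.symm
      exact mem_sextet.mpr ⟨j, hj, congrArg fsOf e⟩
  · rw [hS.1, (sextet_mem hk hl).1]

/-- every sextet is the sextet of a heavy coset -/
theorem exists_sextet_eq {S : Finset (Finset GolayPt)} (hS : S ∈ sextets) :
    ∃ k < 4096, light k = false ∧ S = sextet k := by
  have hne : S.Nonempty := by
    rw [← Finset.card_pos, hS.1]
    norm_num
  obtain ⟨u, hu⟩ := hne
  obtain ⟨a, ha, rfl⟩ := exists_setOf u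
  have ha4 : pcF a = 4 := by
    rw [← card_setOf_F]
    exact hS.2.1 _ hu
  exact ⟨syn a, syn_lt ha, heavy_of_four ha ha4, sextet_unique hS ha ha4 hu⟩

theorem sextet_injOn {k k' : ℕ} (hk : k < 4096) (hl : light k = false) (hk' : k' < 4096)
    (hl' : light k' = false) (h : sextet k = sextet k') : k = k' := by
  have h1 : fsOf (sx 0 k) ∈ sextet k' := by
    rw [← h]
    exact mem_sextet.mpr ⟨0, by norm_num, rfl⟩
  obtain ⟨j, hj, e⟩ := mem_sextet.mp h1
  have h2 : sx 0 k = sx j k' := setOf_injOn (sx_lt _ _) (sx_lt _ _) e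
  rw [← (sx_mem hk hl (by norm_num : 0 < 6)).2, h2, (sx_mem hk' hl' hj).2]

/-- the sextets number 1771 -/
theorem ncard_sextets : sextets.ncard = 1771 := by
  have h1 : sextets = sextet '' {k | k < 4096 ∧ light k = false} := by
    ext S
    constructor
    · intro hS
      obtain ⟨k, hk, hl, rfl⟩ := exists_sextet_eq hS
      exact ⟨k, ⟨hk, hl⟩, rfl⟩
    · rintro ⟨k, ⟨hk, hl⟩, rfl⟩
      exact sextet_mem hk hl
  have hinj : Set.InjOn sextet {k | k < 4096 ∧ light k = false} := by
    rintro k ⟨hk, hl⟩ k' ⟨hk', hl'⟩ h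
    exact sextet_injOn hk hl hk' hl' h
  have h2 : {k | k < 4096 ∧ light k = false} =
      ↑((Finset.range 4096).filter (fun k => (!light k) = true)) := by
    ext k
    simp
  rw [h1, Set.InjOn.ncard_image hinj, h2, Set.ncard_coe_finset, ← countB_eq, count_heavy]

/-- the group of the code permutes the sextets -/
theorem smul_mem_sextets {g : Equiv.Perm GolayPt} (hg : g ∈ M24) {S : Finset (Finset GolayPt)}
    (hS : S ∈ sextets) : g • S ∈ sextets := by
  refine ⟨?_, ?_, ?_⟩
  · rw [Finset.card_smul_finset]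
    exact hS.1
  · intro t ht
    obtain ⟨t', ht', rfl⟩ := Finset.mem_smul_finset.mp ht
    rw [Finset.card_smul_finset]
    exact hS.2.1 _ ht'
  · intro t ht u hu hne
    obtain ⟨t', ht', rfl⟩ := Finset.mem_smul_finset.mp ht
    obtain ⟨u', hu', rfl⟩ := Finset.mem_smul_finset.mp hu
    rw [← Finset.smul_finset_union, octads_smul_iff hg]
    exact hS.2.2 _ ht' _ hu' (fun h => hne (by rw [h]))

/-- the action of the group of the code on sextets, in terms of words of weight 4 -/
theorem smul_sextet {g : Equiv.Perm GolayPt} (hg : g ∈ M24) {a b : ℕ} (ha : a < 2 ^ 24)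
    (ha4 : pcF a = 4) (hb : b < 2 ^ 24) (h : g • fsOf a = fsOf b) :
    g • sextet (syn a) = sextet (syn b) := by
  have hb4 : pcF b = 4 := by
    rw [← card_setOf_F, ← h, Finset.card_smul_finset, card_setOf_F, ha4]
  apply sextet_unique (smul_mem_sextets hg (sextet_mem (syn_lt ha) (heavy_of_four ha ha4))) hb hb4
  rw [← h]
  exact Finset.smul_mem_smul_finset (mem_sextet_syn ha ha4)

end Cfsg.Agent.Lib.Helper26.Sextet
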