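import Cfsg.Agent.Lib.Helper26.Sextet

/-!
The sextet of a 4-element set as a function of the set, its equivariance under the group of the
length-24 code, and an invariant of pairs of sextets (the sum of the squares of the sizes of the
intersections of their tetrads).
-/

set_option autoImplicit false

namespace Cfsg.Agent.Lib.Helper26.Sextet2

open Cfsg Cfsg.Agent.Lib.Helper27.Bits Cfsg.Agent.Lib.Helper27.Golay Cfsg.Agent.Lib.Helper27.M24
  Cfsg.Agent.Lib.Helper27.Cert Cfsg.Agent.Lib.Helper27.Trans Cfsg.Agent.Lib.Helper27.Fast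
  Cfsg.Agent.Lib.Helper27.Coset Cfsg.Agent.Lib.Helper26.SextetTab Cfsg.Agent.Lib.Helper26.Sextet
open scoped Pointwise

/-- a mask of a set of points -/
noncomputable def maskOf (t : Finset GolayPt) : ℕ := Classical.choose (exists_setOf t)

theorem maskOf_lt (t : Finset GolayPt) : maskOf t < 2 ^ 24 :=
  (Classical.choose_spec (exists_setOf t)).1

theorem fsOf_maskOf (t : Finset GolayPt) : fsOf (maskOf t) = t :=
  (Classical.choose_spec (exists_setOf t)).2

theorem maskOf_fsOf {a : ℕ} (ha : a < 2 ^ 24) : maskOf (fsOf a) = a :=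
  setOf_injOn (maskOf_lt _) ha (fsOf_maskOf _)

/-- the sextet containing a 4-element set (empty for other sets) -/
noncomputable def sextetOf (t : Finset GolayPt) : Finset (Finset GolayPt) :=
  if t.card = 4 then sextet (syn (maskOf t)) else ∅

theorem sextetOf_fsOf {a : ℕ} (ha : a < 2 ^ 24) (ha4 : pcF a = 4) :
    sextetOf (fsOf a) = sextet (syn a) := by
  unfold sextetOf
  rw [if_pos (by rw [card_setOf_F, ha4]), maskOf_fsOf ha]

theorem smul_sextetOf {g : Equiv.Perm GolayPt} (hg : g ∈ M24) (t : Finset GolayPt) :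
    g • sextetOf t = sextetOf (g • t) := by
  by_cases h : t.card = 4
  · obtain ⟨a, ha, rfl⟩ := exists_setOf t
    obtain ⟨b, hb, hb'⟩ := exists_setOf (g • fsOf a)
    have ha4 : pcF a = 4 := by rw [← card_setOf_F]; exact h
    have hb4 : pcF b = 4 := by
      rw [← card_setOf_F, hb', Finset.card_smul_finset]
      exact h
    rw [← hb', sextetOf_fsOf ha ha4, sextetOf_fsOf hb hb4]
    exact smul_sextet hg ha ha4 hb hb'.symm
  · have h' : ¬ (g • t).card = 4 := by
      rw [Finset.card_smul_finset]
      exact h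
    unfold sextetOf
    rw [if_neg h, if_neg h', Finset.smul_finset_empty]

/-- the sextet of the coset `k` is the sextet of its first tetrad -/
theorem sextetOf_sx {k : ℕ} (hk : k < 4096) (hl : light k = false) :
    sextetOf (fsOf (sx 0 k)) = sextet k := by
  have h := sx_mem hk hl (by norm_num : 0 < 6)
  rw [sextetOf_fsOf (sx_lt _ _) h.1, h.2]

/-! ### an invariant of pairs of families of sets -/

/-- the sum of the squares of the sizes of the pairwise intersections -/
def meetSq (S X : Finset (Finset GolayPt)) : ℕ := ∑ s ∈ S, ∑ x ∈ X, (s ∩ x).card ^ 2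

theorem meetSq_smul (g : Equiv.Perm GolayPt) (S X : Finset (Finset GolayPt)) :
    meetSq (g • S) (g • X) = meetSq S X := by
  unfold meetSq
  have hinj : Function.Injective (fun t : Finset GolayPt => g • t) := MulAction.injective g
  have e1 : g • S = S.image (fun t => g • t) := rfl
  have e2 : g • X = X.image (fun t => g • t) := rfl
  rw [e1, Finset.sum_image (fun a _ b _ h => hinj h)]
  refine Finset.sum_congr rfl (fun s _ => ?_)
  rw [e2, Finset.sum_image (fun a _ b _ h => hinj h)]
  refine Finset.sum_congr rfl (fun x _ => ?_)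
  rw [← Finset.smul_finset_inter, Finset.card_smul_finset]

/-- a kernel-friendly sum -/
noncomputable def sumB (n : ℕ) (f : ℕ → ℕ) : ℕ := Nat.rec 0 (fun i ih => ih + f i) n

theorem sumB_succ (n : ℕ) (f : ℕ → ℕ) : sumB (n + 1) f = sumB n f + f n := rfl

theorem sumB_eq (n : ℕ) (f : ℕ → ℕ) : sumB n f = ∑ i ∈ Finset.range n, f i := by
  induction n with
  | zero => rfl
  | succ n ih => rw [sumB_succ, Finset.sum_range_succ, ih]

/-- the invariant for the sextets of two cosets -/
noncomputable def meetN (k k' : ℕ) : ℕ :=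
  sumB 6 (fun i => sumB 6 (fun j => pcF (sx i k &&& sx j k') ^ 2))

theorem sx_injOn {k : ℕ} (hk : k < 4096) (hl : light k = false) :
    ∀ i ∈ Finset.range 6, ∀ j ∈ Finset.range 6, fsOf (sx i k) = fsOf (sx j k) → i = j := by
  intro i hi j hj h
  by_contra hij
  exact sx_ne hk hl (Finset.mem_range.mp hi) (Finset.mem_range.mp hj) hij
    (setOf_injOn (sx_lt _ _) (sx_lt _ _) h)

theorem meetSq_sextet {k k' : ℕ} (hk : k < 4096) (hl : light k = false) (hk' : k' < 4096)
    (hl' : light k' = false) : meetSq (sextet k) (sextet k') = meetN k k' := by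
  unfold meetSq sextet meetN
  rw [Finset.sum_image (sx_injOn hk hl), sumB_eq]
  refine Finset.sum_congr rfl (fun i _ => ?_)
  rw [Finset.sum_image (sx_injOn hk' hl'), sumB_eq]
  refine Finset.sum_congr rfl (fun j _ => ?_)
  rw [← setOf_and, card_setOf_F]

end Cfsg.Agent.Lib.Helper26.Sextet2
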