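import Cfsg.Agent.S1552
import Cfsg.Agent.Lib.Helper26.FamStab
import Cfsg.Agent.Lib.Helper7.M24Main

/-!
The stabiliser of a sextet in the group of the length-24 code: transitivity on sextets, the
order 138240 of the stabiliser, and the order 192 of the subgroup fixing every tetrad (given
that all transpositions of tetrads are induced).
-/

set_option autoImplicit false

namespace Cfsg.Agent.Lib.Helper26.SextetStab

open Cfsg Cfsg.Agent.Lib.Helper27.Bits Cfsg.Agent.Lib.Helper27.Golay Cfsg.Agent.Lib.Helper27.M24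
  Cfsg.Agent.Lib.Helper26.SextetTab Cfsg.Agent.Lib.Helper26.Sextet Cfsg.Agent.Lib.Helper26.FamStab
open scoped Pointwise

/-- the coset number of the base sextet -/
abbrev k0 : ℕ := Cfsg.Agent.S1552.k0

theorem k0_lt : k0 < 4096 := Cfsg.Agent.S1552.k0_lt

theorem k0_heavy : light k0 = false := Cfsg.Agent.S1552.k0_heavy

theorem base_mem : sextet k0 ∈ sextets := sextet_mem k0_lt k0_heavy

/-- the group of the code is transitive on the sextets -/
theorem sextet_trans {S : Finset (Finset GolayPt)} (hS : S ∈ sextets) :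
    ∃ g ∈ M24, g • sextet k0 = S := by
  obtain ⟨k, hk, hl, rfl⟩ := exists_sextet_eq hS
  have hcc : Cfsg.Agent.S1552.cnd k = true := by
    show (!light k) = true
    rw [hl]
    rfl
  obtain ⟨g, hg, e⟩ := Cfsg.Agent.S1552.certs.trans k hk hcc
  rw [Cfsg.Agent.S1552.F_target hk hl, Cfsg.Agent.S1552.F_ms] at e
  exact ⟨g, hg, e⟩

theorem orbit_eq {S : Finset (Finset GolayPt)} (hS : S ∈ sextets) :
    MulAction.orbit M24 S = sextets := by
  ext t
  constructor
  · rintro ⟨g, rfl⟩
    exact smul_mem_sextets g.2 hS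
  · intro ht
    obtain ⟨g1, hg1, e1⟩ := sextet_trans hS
    obtain ⟨g2, hg2, e2⟩ := sextet_trans ht
    refine ⟨⟨g2 * g1⁻¹, M24.mul_mem hg2 (M24.inv_mem hg1)⟩, ?_⟩
    show (g2 * g1⁻¹) • S = t
    rw [← e1, mul_smul, inv_smul_smul, e2]

/-- the order of a sextet stabiliser -/
theorem card_stab {S : Finset (Finset GolayPt)} (hS : S ∈ sextets) :
    Nat.card ↥(MulAction.stabilizer M24 S) = 138240 := by
  have h1 : (MulAction.stabilizer M24 S).index = 1771 := by
    rw [MulAction.index_stabilizer, orbit_eq hS, ncard_sextets]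
  have h2 := Subgroup.card_mul_index (MulAction.stabilizer M24 S)
  rw [h1, Cfsg.Agent.Lib.Helper7.M24Main.card_M24] at h2
  omega

/-- the order of the subgroup fixing every tetrad -/
theorem card_ker {S : Finset (Finset GolayPt)} (hS : S ∈ sextets) (hsw : Sw S) :
    Nat.card ↥(famHom S).ker = 192 := by
  have h1 := Subgroup.index_ker (famHom S)
  have h2 := Subgroup.card_mul_index (famHom S).ker
  have h3 : Nat.card ↥(famHom S).range = 720 := by
    rw [MonoidHom.range_eq_top.mpr (famHom_surjective hsw), Subgroup.card_top,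
      Nat.card_eq_fintype_card, Fintype.card_perm, Fintype.card_coe, hS.1]
    rfl
  rw [h1, h3, card_stab hS] at h2
  omega

/-- a permutation fixing every member of a family fixes the family -/
theorem smul_eq_of_fix {S : Finset (Finset GolayPt)} {h : Equiv.Perm GolayPt}
    (hf : ∀ t ∈ S, h • t = t) : h • S = S := by
  ext u
  rw [Finset.mem_smul_finset]
  constructor
  · rintro ⟨t, ht, rfl⟩
    rw [hf t ht]
    exact ht
  · intro hu
    exact ⟨u, hu, hf u hu⟩

end Cfsg.Agent.Lib.Helper26.SextetStab
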