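import Cfsg.Agent.S1557
import Cfsg.Agent.Lib.Helper26.Sextet2

/-!
Trios (three pairwise disjoint octads) of the length-24 code, coded by 48-bit numbers: the low
and the high 24 bits are masks of two of the three octads.
-/

set_option autoImplicit false

namespace Cfsg.Agent.Lib.Helper26.Trio

open Cfsg Cfsg.Agent.Lib.Helper27.Bits Cfsg.Agent.Lib.Helper27.Golay Cfsg.Agent.Lib.Helper27.M24
  Cfsg.Agent.Lib.Helper27.Cert Cfsg.Agent.Lib.Helper27.Trans Cfsg.Agent.Lib.Helper27.Fast
  Cfsg.Agent.Lib.Helper27.Coset Cfsg.Agent.Lib.Helper26.Sextet2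
open scoped Pointwise

/-! ### trios as sets -/

/-- the family of two sets and the complement of their union -/
def phi (A B : Finset GolayPt) : Finset (Finset GolayPt) := {A, B, (A ∪ B)ᶜ}

theorem smul_compl (g : Equiv.Perm GolayPt) (t : Finset GolayPt) : g • tᶜ = (g • t)ᶜ := by
  rw [Finset.compl_eq_univ_sdiff, Finset.compl_eq_univ_sdiff, Finset.smul_finset_sdiff,
    Finset.smul_finset_univ]

theorem smul_phi (g : Equiv.Perm GolayPt) (A B : Finset GolayPt) :
    g • phi A B = phi (g • A) (g • B) := by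
  unfold phi
  rw [Finset.smul_finset_insert, Finset.smul_finset_insert, Finset.smul_finset_singleton,
    smul_compl, Finset.smul_finset_union]

theorem octad_nonempty {o : Finset GolayPt} (ho : o ∈ octads) : o.Nonempty := by
  rw [← Finset.card_pos, ho.2]
  norm_num

theorem card_pt : Fintype.card GolayPt = 24 := Cfsg.Agent.H26.card_golayPt

theorem third_eq {T : Finset (Finset GolayPt)} (hT : T ∈ trios) {a b : Finset GolayPt}
    (ha : a ∈ T) (hb : b ∈ T) (hab : a ≠ b) : phi a b = T := by
  obtain ⟨hc3, hoct, hdisj⟩ := hT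
  have hao := hoct a ha
  have hbo := hoct b hb
  have hd : Disjoint a b := hdisj a ha b hb hab
  have hlt : ({a, b} : Finset (Finset GolayPt)).card < T.card := by
    rw [hc3, Finset.card_pair hab]
    norm_num
  obtain ⟨c, hcT, hcab⟩ := Finset.exists_mem_notMem_of_card_lt_card hlt
  have hca : c ≠ a := fun h => hcab (by simp [h])
  have hcb : c ≠ b := fun h => hcab (by simp [h])
  have hco := hoct c hcT
  have hdca : Disjoint c a := hdisj c hcT a ha hca
  have hdcb : Disjoint c b := hdisj c hcT b hb hcb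
  have hc : c = (a ∪ b)ᶜ := by
    apply Finset.eq_of_subset_of_card_le
    · intro x hx
      rw [Finset.mem_compl, Finset.mem_union]
      rintro (h | h)
      · exact Finset.disjoint_left.mp hdca hx h
      · exact Finset.disjoint_left.mp hdcb hx h
    · rw [Finset.card_compl, Finset.card_union_of_disjoint hd, hao.2, hbo.2, hco.2, card_pt]
  have hsub : phi a b ⊆ T := by
    intro x hx
    simp only [phi, Finset.mem_insert, Finset.mem_singleton] at hx
    rcases hx with rfl | rfl | rfl
    · exact ha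
    · exact hb
    · rw [← hc]; exact hcT
  apply Finset.eq_of_subset_of_card_le hsub
  rw [hc3]
  have hac : a ≠ (a ∪ b)ᶜ := by rw [← hc]; exact hca.symm
  have hbc : b ≠ (a ∪ b)ᶜ := by rw [← hc]; exact hcb.symm
  have : (phi a b).card = 3 := by
    simp only [phi]
    rw [Finset.card_insert_of_notMem, Finset.card_pair hbc]
    simp only [Finset.mem_insert, Finset.mem_singleton, not_or]
    exact ⟨hab, hac⟩
  rw [this]

theorem phi_mem_trios {a b : Finset GolayPt} (ha : a ∈ octads) (hb : b ∈ octads)
    (hd : Disjoint a b) : phi a b ∈ trios := by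
  have hc := Cfsg.Agent.S1557.result.1 a b ha hb hd
  have hab : a ≠ b := by
    rintro rfl
    exact (octad_nonempty ha).ne_empty (Finset.disjoint_self_iff_empty a |>.mp hd)
  have hdac : Disjoint a (a ∪ b)ᶜ := by
    rw [Finset.disjoint_left]
    intro x hx hx'
    exact (Finset.mem_compl.mp hx') (Finset.mem_union_left _ hx)
  have hdbc : Disjoint b (a ∪ b)ᶜ := by
    rw [Finset.disjoint_left]
    intro x hx hx'
    exact (Finset.mem_compl.mp hx') (Finset.mem_union_right _ hx)
  have hac : a ≠ (a ∪ b)ᶜ := by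
    intro h
    rw [← h] at hdac
    exact (octad_nonempty ha).ne_empty (Finset.disjoint_self_iff_empty a |>.mp hdac)
  have hbc : b ≠ (a ∪ b)ᶜ := by
    intro h
    rw [← h] at hdbc
    exact (octad_nonempty hb).ne_empty (Finset.disjoint_self_iff_empty b |>.mp hdbc)
  refine ⟨?_, ?_, ?_⟩
  · simp only [phi]
    rw [Finset.card_insert_of_notMem, Finset.card_pair hbc]
    simp only [Finset.mem_insert, Finset.mem_singleton, not_or]
    exact ⟨hab, hac⟩
  · intro o ho
    simp only [phi, Finset.mem_insert, Finset.mem_singleton] at ho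
    rcases ho with rfl | rfl | rfl
    · exact ha
    · exact hb
    · exact hc
  · intro o ho o' ho' hne
    simp only [phi, Finset.mem_insert, Finset.mem_singleton] at ho ho'
    rcases ho with rfl | rfl | rfl <;> rcases ho' with rfl | rfl | rfl
    · exact absurd rfl hne
    · exact hd
    · exact hdac
    · exact hd.symm
    · exact absurd rfl hne
    · exact hdbc
    · exact hdac.symm
    · exact hdbc.symm
    · exact absurd rfl hne

/-- the group of the code permutes the trios -/
theorem smul_mem_trios {g : Equiv.Perm GolayPt} (hg : g ∈ M24) {T : Finset (Finset GolayPt)}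
    (hT : T ∈ trios) : g • T ∈ trios := by
  refine ⟨?_, ?_, ?_⟩
  · rw [Finset.card_smul_finset]
    exact hT.1
  · intro t ht
    obtain ⟨t', ht', rfl⟩ := Finset.mem_smul_finset.mp ht
    rw [octads_smul_iff hg]
    exact hT.2.1 _ ht'
  · intro t ht u hu hne
    obtain ⟨t', ht', rfl⟩ := Finset.mem_smul_finset.mp ht
    obtain ⟨u', hu', rfl⟩ := Finset.mem_smul_finset.mp hu
    have hd := hT.2.2 _ ht' _ hu' (fun h => hne (by rw [h]))
    rw [Finset.disjoint_iff_inter_eq_empty] at hd ⊢
    rw [← Finset.smul_finset_inter, hd, Finset.smul_finset_empty]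

/-! ### codes -/

/-- the low mask of a code -/
def lo (m : ℕ) : ℕ := m % 16777216

/-- the high mask of a code -/
def hi (m : ℕ) : ℕ := m / 16777216

/-- the third mask of a code -/
def third (m : ℕ) : ℕ := lo m ^^^ hi m ^^^ 16777215

/-- the action of a table on codes -/
noncomputable def tact (T m : ℕ) : ℕ := pull T (lo m) + 16777216 * pull T (hi m)

/-- the family of sets of a code -/
def F (m : ℕ) : Finset (Finset GolayPt) := phi (fsOf (lo m)) (fsOf (hi m))

theorem lo_lt (m : ℕ) : lo m < 2 ^ 24 := Nat.mod_lt _ (by norm_num)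

theorem lo_tact (T m : ℕ) : lo (tact T m) = pull T (lo m) := by
  have h := pull_lt T (lo m)
  unfold tact lo at *
  omega

theorem hi_tact (T m : ℕ) : hi (tact T m) = pull T (hi m) := by
  have h := pull_lt T (lo m)
  unfold tact hi at *
  omega

theorem F_act {T : ℕ} (hT : validT T = true) (m : ℕ) : gperm T • F m = F (tact T m) := by
  unfold F
  rw [smul_phi, gperm_smul hT, gperm_smul hT, lo_tact, hi_tact]

theorem lo_hi {m m' : ℕ} (h1 : lo m = lo m') (h2 : hi m = hi m') : m = m' := by
  unfold lo hi at *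
  omega

theorem fsOf_compl (m : ℕ) : fsOf (m ^^^ 16777215) = (fsOf m)ᶜ := by
  ext p
  rw [Finset.mem_compl, mem_setOf, mem_setOf, Nat.testBit_xor]
  have h1 : (16777215 : ℕ).testBit (idx p) = true := by
    have h2 : (16777215 : ℕ) = 2 ^ 24 - 1 := by norm_num
    rw [h2, Nat.testBit_two_pow_sub_one]
    exact decide_eq_true (idx_lt p)
  rw [h1]
  cases m.testBit (idx p) <;> simp

/-- the code consists of two disjoint octads -/
def validP (m : ℕ) : Bool :=
  Nat.blt m 281474976710656 && (Nat.beq (lo m) (cw (lo m % 4096)) && (Nat.beq (pcF (lo m)) 8 &&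
    (Nat.beq (hi m) (cw (hi m % 4096)) && (Nat.beq (pcF (hi m)) 8 &&
      Nat.beq (lo m &&& hi m) 0))))

theorem validP_spec {m : ℕ} (h : validP m = true) :
    hi m < 2 ^ 24 ∧ fsOf (lo m) ∈ octads ∧ fsOf (hi m) ∈ octads ∧
      Disjoint (fsOf (lo m)) (fsOf (hi m)) ∧ lo m &&& hi m = 0 := by
  unfold validP at h
  simp only [Bool.and_eq_true] at h
  obtain ⟨h1, h2, h3, h4, h5, h6⟩ := h
  have h1' : m < 281474976710656 := Nat.blt_eq.mp h1
  have h2' := Nat.eq_of_beq_eq_true h2
  have h3' := Nat.eq_of_beq_eq_true h3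
  have h4' := Nat.eq_of_beq_eq_true h4
  have h5' := Nat.eq_of_beq_eq_true h5
  have h6' := Nat.eq_of_beq_eq_true h6
  refine ⟨?_, ?_, ?_, ?_, h6'⟩
  · unfold hi
    omega
  · rw [mem_octads_cw]
    exact ⟨lo m % 4096, Nat.mod_lt _ (by norm_num), by rw [← h2'], by rw [← h2', h3']⟩
  · rw [mem_octads_cw]
    exact ⟨hi m % 4096, Nat.mod_lt _ (by norm_num), by rw [← h4'], by rw [← h4', h5']⟩
  · rw [Finset.disjoint_iff_inter_eq_empty, ← setOf_and, h6', setOf_zero]

theorem F_mem_trios {m : ℕ} (h : validP m = true) : F m ∈ trios := by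
  obtain ⟨-, h1, h2, h3, -⟩ := validP_spec h
  exact phi_mem_trios h1 h2 h3

theorem third_lt {m : ℕ} (h : validP m = true) : third m < 2 ^ 24 := by
  obtain ⟨h1, -⟩ := validP_spec h
  exact Nat.xor_lt_two_pow (Nat.xor_lt_two_pow (lo_lt m) h1) (by norm_num)

theorem fsOf_third {m : ℕ} (h : validP m = true) :
    fsOf (third m) = (fsOf (lo m) ∪ fsOf (hi m))ᶜ := by
  obtain ⟨-, -, -, -, h1⟩ := validP_spec h
  unfold third
  rw [fsOf_compl, ← Cfsg.Agent.Lib.Helper26.Sextet.or_eq_xor h1, setOf_or]

theorem mem_F {m : ℕ} (h : validP m = true) {x : ℕ} (hx : x < 2 ^ 24) :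
    fsOf x ∈ F m ↔ x = lo m ∨ x = hi m ∨ x = third m := by
  obtain ⟨h1, -⟩ := validP_spec h
  unfold F phi
  rw [← fsOf_third h, Finset.mem_insert, Finset.mem_insert, Finset.mem_singleton]
  constructor
  · rintro (e | e | e)
    · exact Or.inl (setOf_injOn hx (lo_lt m) e)
    · exact Or.inr (Or.inl (setOf_injOn hx h1 e))
    · exact Or.inr (Or.inr (setOf_injOn hx (third_lt h) e))
  · rintro (e | e | e)
    · exact Or.inl (by rw [e])
    · exact Or.inr (Or.inl (by rw [e]))
    · exact Or.inr (Or.inr (by rw [e]))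

/-- the mask `x` is one of the three masks of the code `a` -/
def memT (a x : ℕ) : Bool := Nat.beq x (lo a) || (Nat.beq x (hi a) || Nat.beq x (third a))

/-- the two masks of `b` are distinct masks of the valid code `a` -/
def eqv (a b : ℕ) : Bool :=
  validP a && (Nat.blt b 281474976710656 && (!Nat.beq (lo b) (hi b) &&
    (memT a (lo b) && memT a (hi b))))

theorem memT_spec {a x : ℕ} (h : memT a x = true) : x = lo a ∨ x = hi a ∨ x = third a := by
  unfold memT at h
  simp only [Bool.or_eq_true] at h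
  rcases h with h | h | h
  · exact Or.inl (Nat.eq_of_beq_eq_true h)
  · exact Or.inr (Or.inl (Nat.eq_of_beq_eq_true h))
  · exact Or.inr (Or.inr (Nat.eq_of_beq_eq_true h))

theorem eqv_spec {a b : ℕ} (h : eqv a b = true) : F a = F b := by
  unfold eqv at h
  simp only [Bool.and_eq_true] at h
  obtain ⟨h1, h2, h3, h4, h5⟩ := h
  have hb : b < 281474976710656 := Nat.blt_eq.mp h2
  have hhi : hi b < 2 ^ 24 := by
    unfold hi
    omega
  have hne : lo b ≠ hi b := by
    intro e
    rw [e] at h3
    simp at h3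
  symm
  apply third_eq (F_mem_trios h1)
  · exact (mem_F h1 (lo_lt b)).mpr (memT_spec h4)
  · exact (mem_F h1 hhi).mpr (memT_spec h5)
  · intro e
    exact hne (setOf_injOn (lo_lt b) hhi e)

/-! ### the invariant -/

/-- the `j`-th mask of a code -/
def tri (j m : ℕ) : ℕ := cond (Nat.beq j 0) (lo m) (cond (Nat.beq j 1) (hi m) (third m))

theorem F_eq_image {m : ℕ} (h : validP m = true) :
    F m = (Finset.range 3).image (fun j => fsOf (tri j m)) := by
  have e : Finset.range 3 = {0, 1, 2} := rfl
  rw [e, Finset.image_insert, Finset.image_insert, Finset.image_singleton]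
  unfold F phi
  rw [← fsOf_third h]
  rfl

theorem tri_injOn {m : ℕ} (h : validP m = true) :
    ∀ i ∈ Finset.range 3, ∀ j ∈ Finset.range 3, fsOf (tri i m) = fsOf (tri j m) → i = j := by
  have h1 := (F_mem_trios h).1
  rw [F_eq_image h] at h1
  have h2 : ((Finset.range 3).image (fun j => fsOf (tri j m))).card = (Finset.range 3).card := by
    rw [h1]
    rfl
  exact Finset.card_image_iff.mp h2

/-- the invariant of two codes -/
noncomputable def meetT (m m' : ℕ) : ℕ :=
  sumB 3 (fun i => sumB 3 (fun j => pcF (tri i m &&& tri j m') ^ 2))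

theorem meetSq_F {m m' : ℕ} (h : validP m = true) (h' : validP m' = true) :
    meetSq (F m) (F m') = meetT m m' := by
  rw [F_eq_image h, F_eq_image h']
  unfold meetSq meetT
  rw [Finset.sum_image (tri_injOn h), sumB_eq]
  refine Finset.sum_congr rfl (fun i _ => ?_)
  rw [Finset.sum_image (tri_injOn h'), sumB_eq]
  refine Finset.sum_congr rfl (fun j _ => ?_)
  rw [← setOf_and, card_setOf_F]

/-- sorted codes of one trio are equal -/
theorem F_injOn {m m' : ℕ} (h : validP m = true) (h' : validP m' = true)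
    (hs : lo m < hi m ∧ hi m < third m) (hs' : lo m' < hi m' ∧ hi m' < third m')
    (e : F m = F m') : m = m' := by
  obtain ⟨h1, -⟩ := validP_spec h
  obtain ⟨h1', -⟩ := validP_spec h'
  have a1 := (mem_F h' (lo_lt m)).mp (by rw [← e]; exact (mem_F h (lo_lt m)).mpr (Or.inl rfl))
  have a2 := (mem_F h' h1).mp (by rw [← e]; exact (mem_F h h1).mpr (Or.inr (Or.inl rfl)))
  have a3 := (mem_F h' (third_lt h)).mp
    (by rw [← e]; exact (mem_F h (third_lt h)).mpr (Or.inr (Or.inr rfl)))
  have b1 := (mem_F h (lo_lt m')).mp (by rw [e]; exact (mem_F h' (lo_lt m')).mpr (Or.inl rfl))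
  have b2 := (mem_F h h1').mp (by rw [e]; exact (mem_F h' h1').mpr (Or.inr (Or.inl rfl)))
  have b3 := (mem_F h (third_lt h')).mp
    (by rw [e]; exact (mem_F h' (third_lt h')).mpr (Or.inr (Or.inr rfl)))
  apply lo_hi <;> omega

end Cfsg.Agent.Lib.Helper26.Trio
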